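import Mathlib
import Cfsg.Prelude.Def_Transfer

/-!
The two extraspecial groups of order 2^(2n+1), built from a bilinear form on a 2n-dimensional space over
the field with two elements, and their 2-ranks.
-/
set_option autoImplicit false

namespace CfsgLib.Fischer.ExtraTwo

open scoped commutatorElement

/-- The vector space, one hyperbolic or anisotropic plane for each index. -/
abbrev Vec (n : ℕ) : Type := Fin n → ZMod 2 × ZMod 2

variable {n : ℕ} (ε : Fin n → ZMod 2)

/-- The bilinear form whose diagonal is the quadratic form. -/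
def beta (v w : Vec n) : ZMod 2 :=
  ∑ i, ((v i).1 * (w i).2 + ε i * ((v i).1 * (w i).1 + (v i).2 * (w i).2))

/-- The alternating form. -/
def alt (v w : Vec n) : ZMod 2 := ∑ i, ((v i).1 * (w i).2 + (v i).2 * (w i).1)

theorem beta_add_left (u v w : Vec n) : beta ε (u + v) w = beta ε u w + beta ε v w := by
  unfold beta
  rw [← Finset.sum_add_distrib]
  exact Finset.sum_congr rfl fun i _ => by simp only [Pi.add_apply, Prod.fst_add, Prod.snd_add]; ring

theorem beta_add_right (u v w : Vec n) : beta ε u (v + w) = beta ε u v + beta ε u w := by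
  unfold beta
  rw [← Finset.sum_add_distrib]
  exact Finset.sum_congr rfl fun i _ => by simp only [Pi.add_apply, Prod.fst_add, Prod.snd_add]; ring

theorem beta_zero_left (w : Vec n) : beta ε 0 w = 0 := by simp [beta]

theorem beta_zero_right (w : Vec n) : beta ε w 0 = 0 := by simp [beta]

theorem two_eq : ∀ x : ZMod 2, x + x = 0 := by decide

theorem vec_two (v : Vec n) : v + v = 0 := by
  funext i
  exact Prod.ext (two_eq _) (two_eq _)

theorem beta_symm (v w : Vec n) : beta ε v w + beta ε w v = alt v w := by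
  unfold beta alt
  rw [← Finset.sum_add_distrib]
  refine Finset.sum_congr rfl fun i _ => ?_
  have : ∀ e a b c d : ZMod 2, a * d + e * (a * c + b * d) + (c * b + e * (c * a + d * b)) =
      a * d + b * c := by decide
  exact this _ _ _ _ _

theorem alt_comm (v w : Vec n) : alt v w = alt w v :=
  Finset.sum_congr rfl fun i _ => by ring

theorem alt_add_left (u v w : Vec n) : alt (u + v) w = alt u w + alt v w := by
  unfold alt
  rw [← Finset.sum_add_distrib]
  exact Finset.sum_congr rfl fun i _ => by simp only [Pi.add_apply, Prod.fst_add, Prod.snd_add]; ring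

theorem alt_add_right (u v w : Vec n) : alt u (v + w) = alt u v + alt u w := by
  rw [alt_comm u, alt_add_left, alt_comm u, alt_comm u]

theorem exists_alt_ne (v : Vec n) (hv : v ≠ 0) : ∃ w, alt v w = 1 := by
  obtain ⟨i, hi⟩ := Function.ne_iff.1 hv
  have h : ∀ p : ZMod 2 × ZMod 2, p ≠ 0 → ∃ q : ZMod 2 × ZMod 2, p.1 * q.2 + p.2 * q.1 = 1 := by
    decide
  obtain ⟨q, hq⟩ := h (v i) hi
  refine ⟨Pi.single i q, ?_⟩
  unfold alt
  rw [Finset.sum_eq_single i (fun j _ hj => by simp [hj]) (by simp)]
  simpa using hq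

/-- The extension of the vector space by the field with two elements. -/
@[ext] structure El (ε : Fin n → ZMod 2) : Type where
  /-- the vector part -/
  v : Vec n
  /-- the central part -/
  c : ZMod 2

/-- The underlying product. -/
def El.equivProd : El ε ≃ Vec n × ZMod 2 where
  toFun g := (g.v, g.c)
  invFun p := ⟨p.1, p.2⟩
  left_inv _ := rfl
  right_inv _ := rfl

instance : Finite (El ε) := Finite.of_equiv _ (El.equivProd ε).symm

instance : Group (El ε) where
  mul g h := ⟨g.v + h.v, g.c + h.c + beta ε g.v h.v⟩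
  one := ⟨0, 0⟩
  inv g := ⟨g.v, g.c + beta ε g.v g.v⟩
  mul_assoc g h k := by
    show El.mk _ _ = El.mk _ _
    simp only [El.mk.injEq]
    refine ⟨add_assoc _ _ _, ?_⟩
    show g.c + h.c + beta ε g.v h.v + k.c + beta ε (g.v + h.v) k.v =
      g.c + (h.c + k.c + beta ε h.v k.v) + beta ε g.v (h.v + k.v)
    rw [beta_add_left, beta_add_right]; ring
  one_mul g := by
    show El.mk _ _ = g
    exact El.ext (zero_add _) (by show (0 : ZMod 2) + g.c + beta ε 0 g.v = g.c; simp [beta_zero_left])
  mul_one g := by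
    show El.mk _ _ = g
    exact El.ext (add_zero _) (by show g.c + (0 : ZMod 2) + beta ε g.v 0 = g.c; simp [beta_zero_right])
  inv_mul_cancel g := by
    refine El.ext (vec_two g.v) ?_
    show g.c + beta ε g.v g.v + g.c + beta ε g.v g.v = 0
    have : ∀ a b : ZMod 2, a + b + a + b = 0 := by decide
    exact this _ _

variable {ε}

theorem mul_v (g h : El ε) : (g * h).v = g.v + h.v := rfl

theorem mul_c (g h : El ε) : (g * h).c = g.c + h.c + beta ε g.v h.v := rfl

theorem one_v : (1 : El ε).v = 0 := rfl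

theorem one_c : (1 : El ε).c = 0 := rfl

theorem inv_v (g : El ε) : g⁻¹.v = g.v := rfl

theorem sq_eq (g : El ε) : g ^ 2 = ⟨0, beta ε g.v g.v⟩ := by
  rw [pow_two]
  refine El.ext (vec_two g.v) ?_
  rw [mul_c, two_eq, zero_add]

theorem commute_iff (g h : El ε) : Commute g h ↔ alt g.v h.v = 0 := by
  have key : ∀ a b p q : ZMod 2, (a + b + p = b + a + q ↔ p + q = 0) := by decide
  rw [← beta_symm ε, Commute, SemiconjBy, El.ext_iff, mul_v, mul_v, mul_c, mul_c]
  constructor
  · exact fun h' => (key _ _ _ _).1 h'.2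
  · exact fun h' => ⟨add_comm _ _, (key _ _ _ _).2 h'⟩

variable (ε) in
theorem card_el : Nat.card (El ε) = 2 ^ (2 * n + 1) := by
  rw [Nat.card_congr (El.equivProd ε), Nat.card_prod]
  simp only [Nat.card_eq_fintype_card, Fintype.card_fun, Fintype.card_prod, ZMod.card,
    Fintype.card_fin]
  rw [pow_succ, pow_mul]
  norm_num

theorem mem_center_iff (g : El ε) : g ∈ Subgroup.center (El ε) ↔ g.v = 0 := by
  rw [Subgroup.mem_center_iff]
  constructor
  · intro h
    by_contra hv
    obtain ⟨w, hw⟩ := exists_alt_ne g.v hv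
    have := (commute_iff g ⟨w, 0⟩).1 (h ⟨w, 0⟩).symm
    rw [hw] at this
    exact one_ne_zero this
  · exact fun h k => ((commute_iff g k).2 (by rw [h]; simp [alt])).symm.eq

variable (ε) in
theorem card_center : Nat.card (Subgroup.center (El ε)) = 2 := by
  rw [Nat.card_congr (β := ZMod 2)
    { toFun := fun g => g.1.c
      invFun := fun c => ⟨⟨0, c⟩, (mem_center_iff _).2 rfl⟩
      left_inv := fun g => Subtype.ext (El.ext ((mem_center_iff _).1 g.2).symm rfl)
      right_inv := fun _ => rfl }]
  simp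

variable (ε) in
theorem isExtraspecial (hn : 1 ≤ n) : Cfsg.IsExtraspecial 2 (El ε) := by
  have hP : IsPGroup 2 (El ε) := IsPGroup.of_card (card_el ε)
  refine ⟨⟨hP, ?_, ?_⟩, card_center ε⟩
  · refine le_antisymm ?_ ?_
    · intro g hg
      rw [mem_center_iff]
      by_contra hv
      obtain ⟨w, hw⟩ := exists_alt_ne g.v hv
      let K : Subgroup (El ε) :=
        { carrier := {k | alt k.v w = 0}
          one_mem' := by simp [one_v, alt]
          mul_mem' := fun {a b} (ha : alt a.v w = 0) (hb : alt b.v w = 0) =>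
            show alt (a * b).v w = 0 by rw [mul_v, alt_add_left, ha, hb, add_zero]
          inv_mem' := fun {a} (ha : alt a.v w = 0) => show alt a⁻¹.v w = 0 by rwa [inv_v] }
      have hK : IsCoatom K := by
        refine ⟨fun h => ?_, fun M hM => ?_⟩
        · have : g ∈ K := h ▸ Subgroup.mem_top g
          change alt g.v w = 0 at this
          rw [hw] at this
          exact one_ne_zero this
        · obtain ⟨m, hmM, hmK⟩ := SetLike.exists_of_lt hM
          rw [eq_top_iff]
          intro k _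
          by_cases hk : k ∈ K
          · exact hM.le hk
          · have hkm : m⁻¹ * k ∈ K := by
              show alt (m⁻¹ * k).v w = 0
              have key : ∀ a b : ZMod 2, a ≠ 0 → b ≠ 0 → a + b = 0 := by decide
              rw [mul_v, inv_v, alt_add_left]
              exact key _ _ hmK hk
            have := mul_mem hmM (hM.le hkm)
            rwa [mul_inv_cancel_left] at this
      have := frattini_le_coatom hK hg
      change alt g.v w = 0 at this
      rw [hw] at this
      exact one_ne_zero this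
    · refine le_iInf₂ fun M hM => ?_
      by_contra hle
      have htop : M ⊔ Subgroup.center (El ε) = ⊤ := hM.2 _ (left_lt_sup.2 hle)
      have hdec : ∀ g : El ε, ∃ m ∈ M, ∃ z ∈ Subgroup.center (El ε), g = m * z := fun g => by
        have hg : g ∈ M ⊔ Subgroup.center (El ε) := htop ▸ Subgroup.mem_top g
        obtain ⟨m, hm, z, hz, h⟩ := Subgroup.mem_sup_of_normal_right.1 hg
        exact ⟨m, hm, z, hz, h.symm⟩
      obtain ⟨z, hz, hzM⟩ := SetLike.not_le_iff_exists.1 hle
      obtain ⟨w, hw⟩ := exists_alt_ne (n := n) (Pi.single ⟨0, hn⟩ (1, 0))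
        (fun e => by simpa using congrFun e ⟨0, hn⟩)
      set a : El ε := ⟨Pi.single ⟨0, hn⟩ (1, 0), 0⟩
      set b : El ε := ⟨w, 0⟩
      obtain ⟨m, hm, u, hu, ha⟩ := hdec a
      obtain ⟨m', hm', u', hu', hb⟩ := hdec b
      have hv1 : m.v = a.v := by rw [ha, mul_v, (mem_center_iff u).1 hu, add_zero]
      have hv2 : m'.v = b.v := by rw [hb, mul_v, (mem_center_iff u').1 hu', add_zero]
      have hnc : ¬ Commute m m' := by
        rw [commute_iff, hv1, hv2]
        show ¬ alt _ w = 0
        rw [hw]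
        exact one_ne_zero
      have hcM : ⁅m, m'⁆ ∈ M := by
        rw [commutatorElement_def]
        exact mul_mem (mul_mem (mul_mem hm hm') (inv_mem hm)) (inv_mem hm')
      have hc1 : ⁅m, m'⁆ ≠ 1 := fun h => hnc (commutatorElement_eq_one_iff_mul_comm.1 h)
      have hcz : ⁅m, m'⁆ ∈ Subgroup.center (El ε) := by
        rw [mem_center_iff, commutatorElement_def]
        simp only [mul_v, inv_v]
        rw [show m.v + m'.v + m.v + m'.v = (m.v + m.v) + (m'.v + m'.v) by abel, vec_two, vec_two,
          add_zero]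
      have heq : z = ⁅m, m'⁆ := by
        have hzv := (mem_center_iff z).1 hz
        have hcv := (mem_center_iff _).1 hcz
        have hzc : z.c = 1 := by
          have key : ∀ a : ZMod 2, a ≠ 0 → a = 1 := by decide
          exact key _ fun e => hzM (by rw [show z = 1 from El.ext hzv e]; exact one_mem M)
        have hcc : ⁅m, m'⁆.c = 1 := by
          have key : ∀ a : ZMod 2, a ≠ 0 → a = 1 := by decide
          exact key _ fun e => hc1 (El.ext hcv e)
        exact El.ext (hzv.trans hcv.symm) (hzc.trans hcc.symm)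
      exact hzM (heq ▸ hcM)
  · refine le_antisymm ?_ fun g hg => ?_
    · rw [commutator_eq_closure, Subgroup.closure_le]
      rintro _ ⟨a, b, rfl⟩
      rw [SetLike.mem_coe, mem_center_iff, commutatorElement_def]
      simp only [mul_v, inv_v]
      rw [show a.v + b.v + a.v + b.v = (a.v + a.v) + (b.v + b.v) by abel, vec_two, vec_two, add_zero]
    · have hgv := (mem_center_iff g).1 hg
      by_cases hgc : g.c = 0
      · rw [show g = 1 from El.ext hgv hgc]
        exact one_mem _
      · obtain ⟨w, hw⟩ := exists_alt_ne (n := n) (Pi.single ⟨0, hn⟩ (1, 0))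
          (fun e => by simpa using congrFun e ⟨0, hn⟩)
        set a : El ε := ⟨Pi.single ⟨0, hn⟩ (1, 0), 0⟩
        set b : El ε := ⟨w, 0⟩
        have hne : ⁅a, b⁆ ≠ 1 := by
          intro h
          have := (commute_iff a b).1 (commutatorElement_eq_one_iff_mul_comm.1 h)
          rw [show alt a.v b.v = 1 from hw] at this
          exact one_ne_zero this
        have hcv : ⁅a, b⁆.v = 0 := by
          rw [commutatorElement_def]
          simp only [mul_v, inv_v]
          rw [show a.v + b.v + a.v + b.v = (a.v + a.v) + (b.v + b.v) by abel, vec_two, vec_two,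
            add_zero]
        have key : ∀ a b : ZMod 2, a ≠ 0 → b ≠ 0 → a = b := by decide
        have : g = ⁅a, b⁆ :=
          El.ext (hgv.trans hcv.symm) (key _ _ hgc fun e => hne (El.ext hcv e))
        rw [this]
        exact Subgroup.commutator_mem_commutator (Subgroup.mem_top a) (Subgroup.mem_top b)

/-- The sign character of the field with two elements. -/
def chi (x : ZMod 2) : ℤ := if x = 0 then 1 else -1

theorem chi_add : ∀ x y : ZMod 2, chi (x + y) = chi x * chi y := by decide

theorem chi_sum {ι : Type*} (s : Finset ι) (f : ι → ZMod 2) :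
    chi (∑ i ∈ s, f i) = ∏ i ∈ s, chi (f i) := by
  classical
  induction s using Finset.induction_on with
  | empty => rfl
  | insert a s ha ih => rw [Finset.sum_insert ha, Finset.prod_insert ha, chi_add, ih]

theorem sum_chi_eq_zero {W : Finset (Vec n)} (hW : ∀ a ∈ W, ∀ b ∈ W, a + b ∈ W)
    {f : Vec n → ZMod 2} (hf : ∀ a b, f (a + b) = f a + f b) {u : Vec n} (hu : u ∈ W) (hfu : f u = 1) :
    ∑ w ∈ W, chi (f w) = 0 := by
  have h : ∑ w ∈ W, chi (f w) = ∑ w ∈ W, chi (f (w + u)) := by
    refine Finset.sum_bij' (fun w _ => w + u) (fun w _ => w + u) (fun w hw => hW _ hw _ hu)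
      (fun w hw => hW _ hw _ hu) (fun w _ => ?_) (fun w _ => ?_) (fun w _ => ?_)
    · rw [add_assoc, vec_two, add_zero]
    · rw [add_assoc, vec_two, add_zero]
    · rw [add_assoc, vec_two, add_zero]
  have h2 : ∑ w ∈ W, chi (f (w + u)) = -∑ w ∈ W, chi (f w) := by
    rw [← Finset.sum_neg_distrib]
    exact Finset.sum_congr rfl fun w _ => by rw [hf, hfu, chi_add]; simp [chi]
  rw [h2] at h
  omega

/-- Vectors orthogonal to every member of a set. -/
def perpOf (W : Finset (Vec n)) : Finset (Vec n) :=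
  Finset.univ.filter fun v => ∀ w ∈ W, alt v w = 0

theorem card_mul_card_perp {W : Finset (Vec n)} (h0 : (0 : Vec n) ∈ W)
    (hW : ∀ a ∈ W, ∀ b ∈ W, a + b ∈ W) : W.card * (perpOf W).card = 4 ^ n := by
  have h1 : ∀ v, ∑ w ∈ W, chi (alt v w) = if v ∈ perpOf W then (W.card : ℤ) else 0 := by
    intro v
    split_ifs with hv
    · simp only [perpOf, Finset.mem_filter, Finset.mem_univ, true_and] at hv
      rw [Finset.sum_congr rfl fun w hw => by rw [hv w hw]]
      simp [chi]
    · simp only [perpOf, Finset.mem_filter, Finset.mem_univ, true_and, not_forall] at hv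
      obtain ⟨u, hu, hvu⟩ := hv
      have key : ∀ a : ZMod 2, a ≠ 0 → a = 1 := by decide
      exact sum_chi_eq_zero hW (fun a b => alt_add_right v a b) hu (key _ hvu)
  have h2 : ∀ w ∈ W, (∑ v, chi (alt v w)) = if w = 0 then (4 ^ n : ℤ) else 0 := by
    intro w _
    split_ifs with hw
    · subst hw
      simp [alt, chi]
    · obtain ⟨u, hu⟩ := exists_alt_ne w hw
      rw [alt_comm] at hu
      exact sum_chi_eq_zero (fun a _ b _ => Finset.mem_univ _) (fun a b => alt_add_left a b w)
        (Finset.mem_univ u) hu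
  have h3 := Finset.sum_comm (s := (Finset.univ : Finset (Vec n))) (t := W)
    (f := fun v w => chi (alt v w))
  rw [Finset.sum_congr rfl fun v _ => h1 v, Finset.sum_congr rfl h2, Finset.sum_ite_mem,
    Finset.univ_inter, Finset.sum_ite_eq', if_pos h0, Finset.sum_const, nsmul_eq_mul] at h3
  have h4 : ((W.card * (perpOf W).card : ℕ) : ℤ) = ((4 ^ n : ℕ) : ℤ) := by
    push_cast
    rw [mul_comm]; exact h3
  exact_mod_cast h4

theorem sum_chi_beta : ∑ v : Vec n, chi (beta ε v v) = ∏ i, if ε i = 0 then (2 : ℤ) else -2 := by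
  unfold beta
  simp only [chi_sum]
  rw [← Fintype.prod_sum (fun i (p : ZMod 2 × ZMod 2) =>
    chi (p.1 * p.2 + ε i * (p.1 * p.1 + p.2 * p.2)))]
  · refine Finset.prod_congr rfl fun i _ => ?_
    have key : ∀ e : ZMod 2, ∑ p : ZMod 2 × ZMod 2, chi (p.1 * p.2 + e * (p.1 * p.1 + p.2 * p.2)) =
        if e = 0 then (2 : ℤ) else -2 := by decide
    exact key (ε i)

theorem sum_chi_of_lagrangian {W : Finset (Vec n)} (hW : ∀ a ∈ W, ∀ b ∈ W, a + b ∈ W)
    (h0 : (0 : Vec n) ∈ W) (hQ : ∀ w ∈ W, beta ε w w = 0) (hcard : W.card = 2 ^ n) :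
    (∑ v : Vec n, chi (beta ε v v)) = 2 ^ n := by
  have hQ2 : ∀ v w : Vec n, beta ε (v + w) (v + w) = beta ε v v + beta ε w w + alt v w := by
    intro v w
    rw [beta_add_left, beta_add_right, beta_add_right, ← beta_symm ε]
    ring
  have hsub : W ⊆ perpOf W := by
    intro v hv
    simp only [perpOf, Finset.mem_filter, Finset.mem_univ, true_and]
    intro w hw
    have := hQ2 v w
    rwa [hQ _ (hW v hv w hw), hQ v hv, hQ w hw, zero_add, zero_add, eq_comm] at this
  have hperp : perpOf W = W := by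
    have h := card_mul_card_perp h0 hW
    rw [hcard] at h
    refine (Finset.eq_of_subset_of_card_le hsub ?_).symm
    rw [hcard]
    have h4 : (4 : ℕ) ^ n = 2 ^ n * 2 ^ n := by rw [← mul_pow]; norm_num
    exact le_of_eq (Nat.eq_of_mul_eq_mul_left (by positivity) (h.trans h4))
  have h1 : ∀ w ∈ W, ∑ v, chi (beta ε (v + w) (v + w)) = ∑ v, chi (beta ε v v) := fun w _ =>
    Fintype.sum_equiv (Equiv.addRight w) _ _ fun v => rfl
  have h2 : ∑ w ∈ W, ∑ v, chi (beta ε (v + w) (v + w)) =
      ∑ v, chi (beta ε v v) * ∑ w ∈ W, chi (alt v w) := by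
    rw [Finset.sum_comm]
    refine Finset.sum_congr rfl fun v _ => ?_
    rw [Finset.mul_sum]
    refine Finset.sum_congr rfl fun w hw => ?_
    rw [hQ2, hQ w hw, add_zero, chi_add]
  have h3 : ∀ v, chi (beta ε v v) * ∑ w ∈ W, chi (alt v w) =
      if v ∈ W then (W.card : ℤ) else 0 := by
    intro v
    split_ifs with hv
    · rw [hQ v hv, Finset.sum_congr rfl fun w hw => by
        rw [(Finset.mem_filter.1 (hperp.symm ▸ hv : v ∈ perpOf W)).2 w hw]]
      simp [chi]
    · rw [← hperp] at hv
      simp only [perpOf, Finset.mem_filter, Finset.mem_univ, true_and, not_forall] at hv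
      obtain ⟨u, hu, hvu⟩ := hv
      have key : ∀ a : ZMod 2, a ≠ 0 → a = 1 := by decide
      rw [sum_chi_eq_zero hW (fun a b => alt_add_right v a b) hu (key _ hvu), mul_zero]
  rw [Finset.sum_congr rfl h1, Finset.sum_const, Finset.sum_congr rfl fun v _ => h3 v,
    Finset.sum_ite_mem, Finset.univ_inter, Finset.sum_const, nsmul_eq_mul, nsmul_eq_mul] at h2
  have hne : ((W.card : ℕ) : ℤ) ≠ 0 := by rw [hcard]; positivity
  have := mul_left_cancel₀ hne h2
  rw [this, hcard]
  push_cast
  rfl

/-- The bound on an elementary abelian subgroup. -/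
theorem elementary_bound {A : Subgroup (El ε)} (hA : Cfsg.IsElementaryAbelian 2 A) {k : ℕ}
    (hk : Nat.card A = 2 ^ k) :
    k ≤ n + 1 ∧ (k = n + 1 → (∑ v : Vec n, chi (beta ε v v)) = 2 ^ n) := by
  classical
  set W : Finset (Vec n) := Finset.univ.filter fun v => ∃ g ∈ A, g.v = v with hWdef
  have hmem : ∀ v, v ∈ W ↔ ∃ g ∈ A, g.v = v := fun v => by simp [hWdef]
  have h0 : (0 : Vec n) ∈ W := (hmem 0).2 ⟨1, one_mem A, rfl⟩
  have hW : ∀ a ∈ W, ∀ b ∈ W, a + b ∈ W := by
    intro a ha b hb
    obtain ⟨g, hg, rfl⟩ := (hmem a).1 ha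
    obtain ⟨h, hh, rfl⟩ := (hmem b).1 hb
    exact (hmem _).2 ⟨g * h, mul_mem hg hh, rfl⟩
  have hQ : ∀ w ∈ W, beta ε w w = 0 := by
    intro w hw
    obtain ⟨g, hg, rfl⟩ := (hmem w).1 hw
    have := hA.2 g hg
    rw [sq_eq] at this
    exact congrArg El.c this
  have hsub : W ⊆ perpOf W := by
    intro v hv
    simp only [perpOf, Finset.mem_filter, Finset.mem_univ, true_and]
    intro w hw
    obtain ⟨g, hg, rfl⟩ := (hmem v).1 hv
    obtain ⟨h, hh, rfl⟩ := (hmem w).1 hw
    rw [← commute_iff]
    haveI := hA.1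
    exact congrArg Subtype.val (mul_comm' (⟨g, hg⟩ : A) ⟨h, hh⟩)
  have hAle : Nat.card A ≤ 2 * W.card := by
    let F : A → W × ZMod 2 := fun g => (⟨g.1.v, (hmem _).2 ⟨g.1, g.2, rfl⟩⟩, g.1.c)
    have hF : Function.Injective F := fun g h e => by
      simp only [F, Prod.mk.injEq, Subtype.mk.injEq] at e
      exact Subtype.ext (El.ext e.1 e.2)
    refine (Nat.card_le_card_of_injective F hF).trans (le_of_eq ?_)
    simp [Nat.card_prod, mul_comm]
  have hle : W.card ≤ 2 ^ n := by
    have h := card_mul_card_perp h0 hW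
    have h' := Finset.card_le_card hsub
    rw [show (4 : ℕ) ^ n = 2 ^ n * 2 ^ n by rw [← mul_pow]; norm_num] at h
    by_contra! hlt
    have := Nat.two_pow_pos n
    have := Nat.mul_lt_mul_of_lt_of_le hlt (hlt.le.trans h') (by omega)
    omega
  have h5 : 2 ^ k ≤ 2 ^ (n + 1) := by
    rw [← hk, pow_succ]
    omega
  refine ⟨(Nat.pow_le_pow_iff_right (by norm_num)).1 h5, fun hkn => ?_⟩
  subst hkn
  refine sum_chi_of_lagrangian hW h0 hQ ?_
  rw [hk, pow_succ] at hAle
  omega

theorem sum_plus (n : ℕ) : (∑ v : Vec n, chi (beta (fun _ => 0) v v)) = 2 ^ n := by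
  rw [sum_chi_beta]
  simp

theorem sum_minus {n : ℕ} (i₀ : Fin n) :
    (∑ v : Vec n, chi (beta (Pi.single i₀ 1) v v)) ≠ 2 ^ n := by
  have h : (∑ v : Vec n, chi (beta (Pi.single i₀ 1) v v)) = -(2 ^ n) := by
    rw [sum_chi_beta, ← Finset.mul_prod_erase Finset.univ _ (Finset.mem_univ i₀)]
    rw [Finset.prod_congr rfl (g := fun _ => (2 : ℤ)) fun j hj => by
      rw [Pi.single_eq_of_ne (Finset.ne_of_mem_erase hj), if_pos rfl]]
    simp only [Pi.single_eq_same, one_ne_zero, if_false, Finset.prod_const, Finset.card_erase_of_mem,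
      Finset.mem_univ, Finset.card_univ, Fintype.card_fin]
    rw [neg_mul, ← pow_succ', Nat.sub_add_cancel (Fin.pos i₀)]
  rw [h]
  have : (0 : ℤ) < 2 ^ n := by positivity
  omega

theorem rank_plus (n : ℕ) : IsGreatest {k : ℕ | ∃ A : Subgroup (El (fun _ : Fin n => (0 : ZMod 2))),
    Cfsg.IsElementaryAbelian 2 A ∧ Nat.card A = 2 ^ k} (n + 1) := by
  refine ⟨?_, fun k ⟨A, hA, hk⟩ => (elementary_bound hA hk).1⟩
  let A : Subgroup (El (fun _ : Fin n => (0 : ZMod 2))) :=
    { carrier := {g | ∀ i, (g.v i).2 = 0}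
      one_mem' := fun i => rfl
      mul_mem' := fun {a b} ha hb i => by
        show (a.v i + b.v i).2 = 0
        rw [Prod.snd_add, ha i, hb i, add_zero]
      inv_mem' := fun {a} ha i => ha i }
  refine ⟨A, ⟨⟨⟨fun g h => Subtype.ext ?_⟩⟩, fun g hg => ?_⟩, ?_⟩
  · exact (commute_iff g.1 h.1).2 (by simp [alt, g.2 _, h.2 _])
  · rw [sq_eq]
    exact El.ext rfl (show beta _ g.v g.v = 0 from Finset.sum_eq_zero fun i _ => by simp [hg i])
  · rw [Nat.card_congr (β := (Fin n → ZMod 2) × ZMod 2)
      { toFun := fun g => (fun i => (g.1.v i).1, g.1.c)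
        invFun := fun p => ⟨⟨fun i => (p.1 i, 0), p.2⟩, fun i => rfl⟩
        left_inv := fun g => Subtype.ext (El.ext (funext fun i => Prod.ext rfl (g.2 i).symm) rfl)
        right_inv := fun p => rfl }]
    simp [Nat.card_prod, pow_succ]

theorem rank_minus {n : ℕ} (i₀ : Fin n) :
    IsGreatest {k : ℕ | ∃ A : Subgroup (El (Pi.single i₀ (1 : ZMod 2))),
      Cfsg.IsElementaryAbelian 2 A ∧ Nat.card A = 2 ^ k} n := by
  refine ⟨?_, fun k ⟨A, hA, hk⟩ => ?_⟩
  · let A : Subgroup (El (Pi.single i₀ (1 : ZMod 2))) :=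
      { carrier := {g | (∀ i, (g.v i).2 = 0) ∧ (g.v i₀).1 = 0}
        one_mem' := ⟨fun i => rfl, rfl⟩
        mul_mem' := fun {a b} ha hb => ⟨fun i => by
          show (a.v i + b.v i).2 = 0
          rw [Prod.snd_add, ha.1 i, hb.1 i, add_zero], by
          show (a.v i₀ + b.v i₀).1 = 0
          rw [Prod.fst_add, ha.2, hb.2, add_zero]⟩
        inv_mem' := fun {a} ha => ha }
    refine ⟨A, ⟨⟨⟨fun g h => Subtype.ext ?_⟩⟩, fun g hg => ?_⟩, ?_⟩
    · exact (commute_iff g.1 h.1).2 (by simp [alt, g.2.1 _, h.2.1 _])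
    · rw [sq_eq]
      refine El.ext rfl (show beta _ g.v g.v = 0 from Finset.sum_eq_zero fun i _ => ?_)
      by_cases hi : i = i₀
      · subst hi; simp [hg.1 i, hg.2]
      · simp [hg.1 i, hi]
    · have hm : ∀ (f : {i : Fin n // i ≠ i₀} → ZMod 2) (c : ZMod 2),
          (⟨fun i => (if h : i = i₀ then 0 else f ⟨i, h⟩, 0), c⟩ :
            El (Pi.single i₀ (1 : ZMod 2))) ∈ A :=
        fun f c => ⟨fun i => rfl, dif_pos rfl⟩
      rw [Nat.card_congr (β := ({i : Fin n // i ≠ i₀} → ZMod 2) × ZMod 2)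
        { toFun := fun g => (fun i => (g.1.v i.1).1, g.1.c)
          invFun := fun p => ⟨_, hm p.1 p.2⟩
          left_inv := fun g => Subtype.ext (El.ext (funext fun i => by
            refine Prod.ext ?_ (g.2.1 i).symm
            show (if h : i = i₀ then (0 : ZMod 2) else _) = _
            split_ifs with h
            · subst h; exact g.2.2.symm
            · rfl) rfl)
          right_inv := fun p => Prod.ext (funext fun i => dif_neg i.2) rfl }]
      simp [Nat.card_prod]
      rw [← pow_succ, Nat.sub_add_cancel (Fin.pos i₀)]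
  · obtain ⟨h1, h2⟩ := elementary_bound hA hk
    by_contra hlt
    exact sum_minus i₀ (h2 (by omega))

end CfsgLib.Fischer.ExtraTwo
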