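import Cfsg.Agent.Lib.Fischer2.LeechMonomialSub
import Cfsg.Agent.S5548

/-!
The lattice modulo twice itself is a faithful irreducible module for its automorphism group modulo ±1.
-/
set_option autoImplicit false

namespace CfsgLib.Fischer.LeechIrred

open Cfsg Finset CfsgLib.Leech CfsgLib.Fischer2 CfsgLib.GolayStructure

theorem coordVec_add (v w : leechLattice) (p : GolayPt) :
    coordVec (v + w) p = coordVec v p + coordVec w p := rfl

theorem coordVec_pair_left {k l : GolayPt} (h : k ≠ l) : coordVec (pairVec k l) k = 4 := by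
  rw [coordVec_pairVec, if_pos rfl, if_neg h]; norm_num

theorem coordVec_pair_right {k l : GolayPt} (h : k ≠ l) : coordVec (pairVec k l) l = 4 := by
  rw [coordVec_pairVec, if_neg h.symm, if_pos rfl]; norm_num

theorem coordVec_pair_other {k l p : GolayPt} (hk : p ≠ k) (hl : p ≠ l) :
    coordVec (pairVec k l) p = 0 := by
  rw [coordVec_pairVec, if_neg hk, if_neg hl]; norm_num

theorem sqNorm_pairVec {k l : GolayPt} (h : k ≠ l) : sqNorm (coordVec (pairVec k l)) = 32 := by
  have key : ∀ p, coordVec (pairVec k l) p ^ 2 =
      (if p = k then (16 : ℤ) else 0) + (if p = l then 16 else 0) := by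
    intro p
    by_cases hk : p = k
    · subst hk; rw [coordVec_pair_left h, if_pos rfl, if_neg h]; norm_num
    · by_cases hl : p = l
      · subst hl; rw [coordVec_pair_right h, if_neg hk, if_pos rfl]; norm_num
      · rw [coordVec_pair_other hk hl, if_neg hk, if_neg hl]; norm_num
  simp only [sqNorm, key, Finset.sum_add_distrib, Finset.sum_ite_eq', Finset.mem_univ, if_true]
  norm_num

/-- An automorphism fixing every class is central. -/
theorem mem_center_of_fixed {g : Co0} (hg : ∀ v : leechLattice, CongTwo (g • v) v) :
    g ∈ Subgroup.center Co0 := by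
  obtain ⟨d, σ, rfl⟩ := exists_monomial (hg vecA)
  have hpm : ∀ v : leechLattice, sqNorm (coordVec v) = 32 →
      (signAut d * permAut σ) • v = v ∨ (signAut d * permAut σ) • v = -v := by
    intro v hv
    rcases congTwo_cases (hg v) (by rw [sqNorm_smul', hv]; norm_num) (by rw [hv]; norm_num) with
      h | h | ⟨h, -, -⟩
    · exact Or.inl h
    · exact Or.inr h
    · rw [sqNorm_smul', hv] at h; norm_num at h
  have hσ : ∀ k : GolayPt, (σ : Equiv.Perm GolayPt) k = k := by
    intro k
    by_contra hne
    obtain ⟨l, hl⟩ : ∃ l : GolayPt, l ≠ k ∧ l ≠ (σ : Equiv.Perm GolayPt) k := by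
      obtain ⟨l, -, hl⟩ := Finset.exists_mem_notMem_of_card_lt_card
        (s := ({k, (σ : Equiv.Perm GolayPt) k} : Finset GolayPt)) (t := Finset.univ)
        (Finset.card_le_two.trans_lt (by rw [card_univ_golayPt]; norm_num))
      simp only [Finset.mem_insert, Finset.mem_singleton, not_or] at hl
      exact ⟨l, hl⟩
    have habs : |coordVec ((signAut d * permAut σ) • pairVec k l) ((σ : Equiv.Perm GolayPt) k)| = 4 := by
      rw [mul_smul, signAut_abs, coordVec_permAut, Equiv.symm_apply_apply,
        coordVec_pair_left hl.1.symm]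
      norm_num
    rcases hpm _ (sqNorm_pairVec hl.1.symm) with h | h <;> rw [h] at habs
    · rw [coordVec_pair_other hne hl.2.symm] at habs; norm_num at habs
    · change |-coordVec (pairVec k l) ((σ : Equiv.Perm GolayPt) k)| = 4 at habs
      rw [coordVec_pair_other hne hl.2.symm] at habs; norm_num at habs
  have hσ1 : σ = 1 := Subtype.ext (Equiv.ext hσ)
  subst hσ1
  rw [← permHom_apply, map_one, mul_one] at hpm ⊢
  have hd : ∀ k l : GolayPt, k ≠ l → ((d : GolayPt → ZMod 2) k = 0 ↔ (d : GolayPt → ZMod 2) l = 0) := by
    intro k l hkl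
    rcases hpm _ (sqNorm_pairVec hkl) with h | h <;>
      have h1 := congrArg (fun v => coordVec v k) h <;>
      have h2 := congrArg (fun v => coordVec v l) h <;>
      simp only [coordVec_signAut] at h1 h2
    · rw [coordVec_pair_left hkl] at h1
      rw [coordVec_pair_right hkl] at h2
      constructor <;> intro h0
      · by_contra h3; rw [if_neg h3] at h2; norm_num at h2
      · by_contra h3; rw [if_neg h3] at h1; norm_num at h1
    · change _ = -coordVec (pairVec k l) k at h1
      change _ = -coordVec (pairVec k l) l at h2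
      rw [coordVec_pair_left hkl] at h1
      rw [coordVec_pair_right hkl] at h2
      constructor <;> intro h0
      · rw [if_pos h0] at h1; norm_num at h1
      · rw [if_pos h0] at h2; norm_num at h2
  by_cases h0 : (d : GolayPt → ZMod 2) none = 0
  · have : d = 0 := Subtype.ext (funext fun p => by
      by_cases hp : p = none
      · rw [hp]; exact h0
      · exact (hd none p (Ne.symm hp)).1 h0)
    rw [this, signAut_zero]
    exact one_mem _
  · have : d = oneWord := Subtype.ext (funext fun p => by
      have hne : (d : GolayPt → ZMod 2) p ≠ 0 := by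
        by_cases hp : p = none
        · rw [hp]; exact h0
        · exact fun h => h0 ((hd none p (Ne.symm hp)).2 h)
      exact (zmod2_cases _).resolve_left hne)
    rw [this, signAut_oneWord]
    exact negAut_mem_center

section Irred

variable {W : AddSubgroup leechLattice} (hinv : ∀ g : Co0, ∀ f ∈ W, g • f ∈ W)
  (h2 : ∀ u : leechLattice, u + u ∈ W)
include hinv h2

omit hinv in
theorem mem_of_congTwo {v w : leechLattice} (h : CongTwo v w) (hw : w ∈ W) : v ∈ W := by
  obtain ⟨u, rfl⟩ := h; exact W.add_mem hw (h2 u)

/-- A class fixed by every sign change is the class of `(8, 0²³)`. -/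
theorem vecA_mem {f₀ : leechLattice} (hf₀ : f₀ ∈ W) (hn0 : ¬ ∃ w : leechLattice, f₀ = w + w) :
    vecA ∈ W := by
  classical
  obtain ⟨f₁, hf₁, hn1, hfix₁⟩ : ∃ f ∈ W, (¬ ∃ w : leechLattice, f = w + w) ∧
      ∀ d : golayCode, CongTwo (signAut d • f) f := by
    suffices H : ∀ n, ∀ f ∈ W, (¬ ∃ w : leechLattice, f = w + w) →
        {d : golayCode | ¬ CongTwo (signAut d • f) f}.ncard = n →
        ∃ f ∈ W, (¬ ∃ w : leechLattice, f = w + w) ∧ ∀ d : golayCode, CongTwo (signAut d • f) f from
      H _ f₀ hf₀ hn0 rfl
    intro n
    induction n using Nat.strong_induction_on with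
    | _ n ih =>
      intro f hf hn hcard
      by_cases hall : ∀ d : golayCode, CongTwo (signAut d • f) f
      · exact ⟨f, hf, hn, hall⟩
      push Not at hall
      obtain ⟨d, hd⟩ := hall
      refine ih _ ?_ (signAut d • f + f) (W.add_mem (hinv _ f hf) hf) ?_ rfl
      · rw [← hcard]
        refine Set.ncard_lt_ncard ⟨fun e he hfe => he ?_, fun h => ?_⟩ (Set.toFinite _)
        · obtain ⟨u, hu⟩ := hfe
          refine ⟨u + signAut d • u, ?_⟩
          rw [smul_add_co0, ← mul_smul, signAut_mul, add_comm e d, ← signAut_mul, mul_smul, hu,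
            smul_add_co0, smul_add_co0]
          abel
        · refine h hd ⟨0, ?_⟩
          rw [smul_add_co0, ← mul_smul, signAut_mul, ZModModule.add_self d, signAut_zero, one_smul]
          abel
      · rintro ⟨u, hu⟩
        exact hd ⟨u + -f, by rw [eq_sub_of_add_eq hu]; abel⟩
  clear hn0 hf₀
  have hodd : ∀ p, coordVec f₁ p % 2 = 0 := by
    rcases even_or_odd_coords f₁ with h | h
    · exact h
    exfalso
    obtain ⟨O, hO, -⟩ := exists_octad_superset (s := (∅ : Finset GolayPt)) (by simp)
    obtain ⟨u, hu⟩ := hfix₁ ⟨indWord O, mem_supports_iff.1 hO.1⟩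
    have hval : ∀ p, coordVec u p = if p ∈ O then -coordVec f₁ p else 0 := by
      intro p
      have := congrArg (fun v => coordVec v p) hu
      simp only [coordVec_signAut, coordVec_add] at this
      by_cases hp : p ∈ O
      · rw [if_neg (by simp [indWord, hp])] at this; rw [if_pos hp]; omega
      · rw [if_pos (by simp [indWord, hp])] at this; rw [if_neg hp]; omega
    obtain ⟨a, ha⟩ : O.Nonempty := Finset.card_pos.1
      (by rw [CfsgLib.Golay.card_eq_of_mem_octads hO]; norm_num)
    obtain ⟨b, -, hb⟩ := Finset.exists_mem_notMem_of_card_lt_card (s := O) (t := Finset.univ)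
      (by rw [CfsgLib.Golay.card_eq_of_mem_octads hO, card_univ_golayPt]; norm_num)
    rcases even_or_odd_coords u with h' | h'
    · have := h' a; rw [hval, if_pos ha] at this; have := h a; omega
    · have := h' b; rw [hval, if_neg hb] at this; omega
  obtain ⟨f, hf, hn, hfix, heven, huniv⟩ : ∃ f ∈ W, (¬ ∃ w : leechLattice, f = w + w) ∧
      (∀ d : golayCode, CongTwo (signAut d • f) f) ∧ (∀ p, coordVec f p % 2 = 0) ∧
      twoSet f ≠ Finset.univ := by
    by_cases hu : twoSet f₁ = Finset.univ
    · refine ⟨f₁ + (oddVec none + oddVec none), W.add_mem hf₁ (h2 _), ?_, fun d => ?_, fun p => ?_, ?_⟩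
      · rintro ⟨w, hw⟩
        exact hn1 ⟨w + -oddVec none, by rw [eq_sub_of_add_eq hw]; abel⟩
      · obtain ⟨u, hu'⟩ := hfix₁ d
        refine ⟨u + signAut d • oddVec none - oddVec none, ?_⟩
        rw [smul_add_co0, smul_add_co0, hu']
        abel
      · rw [coordVec_add, coordVec_add]; have := hodd p; omega
      · intro h
        have h1 : coordVec f₁ (some 0) % 4 = 2 := mem_twoSet.1 (hu ▸ Finset.mem_univ _)
        have h3 : coordVec (f₁ + (oddVec none + oddVec none)) (some 0) % 4 = 2 :=
          mem_twoSet.1 (h ▸ Finset.mem_univ _)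
        rw [coordVec_add, coordVec_add, coordVec_oddVec, if_neg (by simp)] at h3
        omega
    · exact ⟨f₁, hf₁, hn1, hfix₁, hodd, hu⟩
  have hrestr : ∀ d : golayCode, ∃ u : leechLattice, ∀ p, coordVec u p =
      if (d : GolayPt → ZMod 2) p = 0 then 0 else coordVec f p := by
    intro d
    obtain ⟨u, hu⟩ := hfix d
    refine ⟨-u, fun p => ?_⟩
    have := congrArg (fun v => coordVec v p) hu
    simp only [coordVec_signAut, coordVec_add] at this
    show -coordVec u p = _
    split_ifs with h
    · rw [if_pos h] at this; omega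
    · rw [if_neg h] at this; omega
  have he : twoSet f = ∅ := by
    by_contra hne
    obtain ⟨d, hd, hcd⟩ := exists_mul_notMem (mem_supports_iff.1 (twoSet_mem f))
      (fun h => hne (Finset.eq_empty_of_forall_notMem fun i hi => by
        have := congrFun h i; simp [hi] at this))
      (fun h => huniv (Finset.eq_univ_of_forall fun i => by
        by_contra hi; have := congrFun h i; simp [hi] at this))
    obtain ⟨u, hu⟩ := hrestr ⟨d, hd⟩
    apply hcd
    convert mem_supports_iff.1 (twoSet_mem u) using 1
    funext p
    have hu' : coordVec u p = if d p = 0 then 0 else coordVec f p := hu p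
    rcases zmod2_cases (d p) with e | e <;> simp [mem_twoSet, hu', e]
  have h4 : ∀ p, coordVec f p % 4 = 0 := fun p => by
    have := heven p
    have : ¬ coordVec f p % 4 = 2 := fun h => by simpa [he] using mem_twoSet.2 h
    omega
  have hpar : parityWord f ∈ golayCode := by
    refine mem_golayCode_of_orth fun d hd => ?_
    obtain ⟨u, hu⟩ := hrestr ⟨d, hd⟩
    have hu' : ∀ p, coordVec u p = if d p = 0 then 0 else coordVec f p := hu
    have hu4 : ∀ p, coordVec u p % 4 = 0 := fun p => by rw [hu']; have := h4 p; split_ifs <;> omega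
    rw [← sum_parityWord hu4]
    refine Finset.sum_congr rfl fun p _ => ?_
    show _ = ((coordVec u p / 4 : ℤ) : ZMod 2)
    rw [hu']
    rcases zmod2_cases (d p) with e | e <;> simp [e, parityWord]
  rcases congTwo_of_parity h4 hpar with h | h
  · exact absurd h hn
  · exact mem_of_congTwo h2 h.symm hf

theorem short_mem (hA : vecA ∈ W) {v : leechLattice} (hv : sqNorm (coordVec v) = 32) : v ∈ W := by
  classical
  let c : GolayPt := some 2
  let d : GolayPt := some 3
  let e : GolayPt := some 4
  have h64 : ∀ k : GolayPt, k ≠ none → k ≠ some 1 → k ≠ c →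
      pairVec none (some 1) + pairVec c k ∈ W := by
    intro k h0 h1 hc
    have hn : sqNorm (coordVec (pairVec none (some 1) + pairVec c k)) = 64 := by
      show sqNorm ((pairVec none (some 1) : GolayPt → ℤ) + (pairVec c k : GolayPt → ℤ)) = 64
      have e1 := sqNorm_pairVec (show (none : GolayPt) ≠ some 1 by simp)
      have e2 := sqNorm_pairVec (Ne.symm hc)
      have e3 : dotInt (coordVec (pairVec none (some 1))) (coordVec (pairVec c k)) = 0 := by
        refine Finset.sum_eq_zero fun p _ => ?_
        by_cases hp : p = none ∨ p = some 1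
        · rw [coordVec_pair_other (k := c) (l := k) (p := p) (by rcases hp with rfl | rfl <;> decide)
            (by rcases hp with rfl | rfl; exacts [h0.symm, h1.symm]), mul_zero]
        · rw [not_or] at hp
          rw [coordVec_pair_other hp.1 hp.2, zero_mul]
      rw [sqNorm_add]
      simp only [coordVec] at e1 e2 e3 ⊢
      omega
    obtain ⟨g, hg⟩ := isAxisClass_norm64 _ hn
    have h3 := hinv g⁻¹ _ (mem_of_congTwo h2 hg hA)
    rwa [inv_smul_smul] at h3
  have hw := W.sub_mem (h64 d (by simp [d]) (by decide) (by decide))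
    (h64 e (by simp [e]) (by decide) (by decide))
  set w := pairVec none (some 1) + pairVec c d - (pairVec none (some 1) + pairVec c e) with hwdef
  have hwv : ∀ p, coordVec w p = coordVec (pairVec c d) p - coordVec (pairVec c e) p := by
    intro p
    show coordVec (pairVec none (some 1)) p + coordVec (pairVec c d) p -
      (coordVec (pairVec none (some 1)) p + coordVec (pairVec c e) p) = _
    ring
  have hde : d ≠ e := by decide
  have hn : sqNorm (coordVec w) = 32 := by
    have key : ∀ p, coordVec w p ^ 2 = (if p = d then (16 : ℤ) else 0) + (if p = e then 16 else 0) := by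
      intro p
      rw [hwv, coordVec_pairVec, coordVec_pairVec]
      by_cases hd : p = d
      · subst hd; rw [if_pos rfl, if_neg hde]; simp [hde, show d ≠ c by decide]
      · by_cases he : p = e
        · subst he; rw [if_neg hd, if_pos rfl]; simp [hd, show e ≠ c by decide]
        · rw [if_neg hd, if_neg he]; simp [hd, he]
    simp only [sqNorm, key, Finset.sum_add_distrib, Finset.sum_ite_eq', Finset.mem_univ, if_true]
    norm_num
  obtain ⟨g, hg⟩ := (sameOrbit_norm32 hn hde).trans (sameOrbit_norm32 hv hde).symm
  rw [← hg]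
  exact hinv g w hw

theorem eq_top (hA : vecA ∈ W) : W = ⊤ := by
  classical
  have hshort := fun v (hv : sqNorm (coordVec v) = 32) => short_mem hinv h2 hA hv
  have hpair : ∀ k l : GolayPt, k ≠ l → pairVec k l ∈ W := fun k l h => hshort _ (sqNorm_pairVec h)
  have haxis : axisVec none ∈ W := mem_of_congTwo h2 (congTwo_axisVec none) hA
  have hfour : ∀ f : leechLattice, (∀ p, coordVec f p % 4 = 0) → f ∈ W := by
    intro f h4
    set s : leechLattice := ∑ k : ZMod 23, (coordVec f (some k) / 4) • pairVec (some k) none with hs
    have hsW : s ∈ W := sum_mem fun k _ => W.zsmul_mem (hpair _ _ (by simp)) _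
    have hval : ∀ p, coordVec s p =
        ∑ k : ZMod 23, (coordVec f (some k) / 4) * coordVec (pairVec (some k) none) p := by
      intro p
      simp only [hs, coordVec, AddSubgroup.val_finsetSum, Finset.sum_apply]
      exact Finset.sum_congr rfl fun k _ => by simp
    have hsome : ∀ j : ZMod 23, coordVec s (some j) = coordVec f (some j) := by
      intro j
      rw [hval, Finset.sum_eq_single j]
      · rw [coordVec_pair_left (by simp)]; have := h4 (some j); omega
      · intro k _ hk
        rw [coordVec_pair_other (by simpa using Ne.symm hk) (by simp), mul_zero]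
      · simp
    have hnone : coordVec s none = 4 * ∑ k : ZMod 23, coordVec f (some k) / 4 := by
      rw [hval, Finset.mul_sum]
      exact Finset.sum_congr rfl fun k _ => by rw [coordVec_pair_right (by simp)]; ring
    have hsum := sum_mod_eight f fun p => by have := h4 p; omega
    rw [Fintype.sum_option] at hsum
    have h4' : ∑ k : ZMod 23, coordVec f (some k) = 4 * ∑ k : ZMod 23, coordVec f (some k) / 4 := by
      rw [Finset.mul_sum]
      exact Finset.sum_congr rfl fun k _ => by have := h4 (some k); omega
    have h8 : (8 : ℤ) ∣ coordVec f none - coordVec s none := by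
      have := h4 none
      omega
    obtain ⟨t, ht⟩ := h8
    have e : f = s + t • axisVec none := by
      refine Subtype.ext (funext fun p => ?_)
      show coordVec f p = coordVec s p + coordVec (t • axisVec none) p
      have hz : coordVec (t • axisVec none) p = t * coordVec (axisVec none) p := by
        simp [coordVec]
      rw [hz, coordVec_axisVec]
      rcases p with _ | j
      · rw [if_pos rfl]; omega
      · rw [hsome, if_neg (by simp)]; ring
    rw [e]
    exact W.add_mem hsW (W.zsmul_mem haxis _)
  let C : AddSubgroup (GolayPt → ZMod 2) :=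
    { carrier := {c | c ∈ golayCode ∧ ∃ w ∈ W, ∀ p, coordVec w p % 4 = 2 * bitVec c p}
      zero_mem' := ⟨golayCode.zero_mem, 0, W.zero_mem, fun p => by simp [bitVec_zero, coordVec]⟩
      add_mem' := by
        rintro a b ⟨ha, w, hw, hwa⟩ ⟨hb, x, hx, hxb⟩
        refine ⟨golayCode.add_mem ha hb, w + x, W.add_mem hw hx, fun p => ?_⟩
        have k1 := hwa p
        have k2 := hxb p
        have k3 := bitVec_add a b p
        rw [coordVec_add]
        rcases bitVec_cases a p with e | e <;> rcases bitVec_cases b p with e' | e' <;>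
          simp only [e, e'] at k1 k2 k3 ⊢ <;> omega
      neg_mem' := fun {a} ha => by
        rwa [show -a = a from funext fun p => ZMod.neg_eq_self_mod_two (a p)] }
  have hmemC : ∀ {c}, c ∈ C ↔ c ∈ golayCode ∧ ∃ w ∈ W, ∀ p, coordVec w p % 4 = 2 * bitVec c p :=
    Iff.rfl
  obtain ⟨O, hO, -⟩ := exists_octad_superset (s := (∅ : Finset GolayPt)) (by simp)
  have hOW : octVec hO ∈ W := hshort _ (by
    simp only [sqNorm, coordVec_octVec, ite_pow, zero_pow two_ne_zero, Finset.sum_ite_mem,
      Finset.univ_inter, Finset.sum_const, CfsgLib.Golay.card_eq_of_mem_octads hO]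
    norm_num)
  have hOC : (fun i => if i ∈ O then (1 : ZMod 2) else 0) ∈ C := by
    refine hmemC.2 ⟨mem_supports_iff.1 hO.1, _, hOW, fun p => ?_⟩
    rw [coordVec_octVec, bitVec_indicator]
    split_ifs <;> norm_num
  have hCinv : Cfsg.Agent.S5548.Inv (AddSubgroup.toZModSubmodule 2 C) := by
    intro σ hσ c hc
    obtain ⟨hc1, w, hw, hwc⟩ := hmemC.1 hc
    refine hmemC.2 ⟨?_, permAut ⟨σ, hσ⟩ • w, hinv _ w hw, fun p => ?_⟩
    · exact comp_mem_golayCode (inv_mem hσ) hc1
    · rw [coordVec_permAut]; exact hwc _
  have hCall : ∀ c ∈ golayCode, c ∈ C := by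
    rcases Cfsg.Agent.S5548.cases_of_le hCinv (fun c hc => (hmemC.1 hc).1) with h | h | h
    · exfalso
      have h' : (fun i => if i ∈ O then (1 : ZMod 2) else 0) ∈ AddSubgroup.toZModSubmodule 2 C := hOC
      rw [h, Submodule.mem_bot] at h'
      obtain ⟨a, ha⟩ : O.Nonempty := Finset.card_pos.1
        (by rw [CfsgLib.Golay.card_eq_of_mem_octads hO]; norm_num)
      have := congrFun h' a
      simp [ha] at this
    · exfalso
      have h' : (fun i => if i ∈ O then (1 : ZMod 2) else 0) ∈ AddSubgroup.toZModSubmodule 2 C := hOC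
      rw [h, Submodule.mem_span_singleton] at h'
      obtain ⟨k, hk⟩ := h'
      obtain ⟨a, ha⟩ : O.Nonempty := Finset.card_pos.1
        (by rw [CfsgLib.Golay.card_eq_of_mem_octads hO]; norm_num)
      obtain ⟨b, -, hb⟩ := Finset.exists_mem_notMem_of_card_lt_card (s := O) (t := Finset.univ)
        (by rw [CfsgLib.Golay.card_eq_of_mem_octads hO, card_univ_golayPt]; norm_num)
      have h1 := congrFun hk a
      have h3 := congrFun hk b
      simp [ha] at h1
      simp [hb] at h3
      rw [h3] at h1
      exact zero_ne_one h1
    · intro c hc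
      have : c ∈ AddSubgroup.toZModSubmodule 2 C := h.symm ▸ hc
      exact this
  have heven : ∀ v : leechLattice, (∀ p, coordVec v p % 2 = 0) → v ∈ W := by
    intro v he
    obtain ⟨-, w, hw, hwc⟩ := hmemC.1 (hCall _ (mem_supports_iff.1 (twoSet_mem v)))
    have := hfour (v - w) fun p => by
      show (coordVec v p - coordVec w p) % 4 = 0
      have := he p; have := hwc p
      rw [bitVec_indicator] at this
      by_cases hp : p ∈ twoSet v
      · rw [if_pos hp] at this; have := mem_twoSet.1 hp; omega
      · rw [if_neg hp] at this; have : ¬ coordVec v p % 4 = 2 := fun h => hp (mem_twoSet.2 h)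
        omega
    have h3 := W.add_mem this hw
    rwa [sub_add_cancel] at h3
  rw [AddSubgroup.eq_top_iff']
  intro v
  rcases even_or_odd_coords v with h | h
  · exact heven v h
  · have := W.add_mem (heven (v - oddVec none) fun p => by
      show (coordVec v p - coordVec (oddVec none) p) % 2 = 0
      have := h p; rw [coordVec_oddVec]; split_ifs <;> omega) (hshort _ (sqNorm_oddVec none))
    rwa [sub_add_cancel] at this

end Irred

end CfsgLib.Fischer.LeechIrred
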