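import Cfsg.Agent.Lib.Fischer.Spaces

/-!
The line system of a class of 3-transpositions is a Fischer space.
-/
set_option autoImplicit false

namespace CfsgLib.Fischer.Lines

open Cfsg CfsgLib.Fischer.Spaces

section Plane

variable {G : Type*} [Group G]

/-- The powers with exponent modulo three of an element of order dividing three. -/
def pw (g : G) (i : ZMod 3) : G := g ^ i.val

theorem pw_add {g : G} (h : g ^ 3 = 1) (i j : ZMod 3) : pw g (i + j) = pw g i * pw g j := by
  unfold pw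
  rw [ZMod.val_add, ← pow_eq_pow_mod _ h, pow_add]

theorem pw_neg {g : G} (h : g ^ 3 = 1) (i : ZMod 3) : pw g (-i) = (pw g i)⁻¹ :=
  eq_inv_of_mul_eq_one_left (by rw [← pw_add h, neg_add_cancel]; simp [pw])

theorem pw_zero (g : G) : pw g 0 = 1 := by simp [pw]

theorem pw_one (g : G) : pw g 1 = g := by simp [pw, ZMod.val_one]

variable {x y : G}

theorem commute_conj (hx : x ^ 3 = 1) (h1 : (x * y) ^ 3 = 1) (h2 : (x * y⁻¹) ^ 3 = 1) :
    Commute y (x * y * x⁻¹) := by
  simp only [pow_succ, pow_zero, one_mul] at hx h1 h2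
  have e1 : x * y * x = y⁻¹ * x⁻¹ * y⁻¹ := by
    calc x * y * x = (x * y * (x * y) * (x * y)) * (y⁻¹ * x⁻¹ * y⁻¹) := by group
      _ = _ := by rw [h1, one_mul]
  have hxi : x⁻¹ = x * x := inv_eq_of_mul_eq_one_right (by rw [← mul_assoc]; exact hx)
  have e2 : y * x⁻¹ = x * (y⁻¹ * x * y⁻¹) := by
    calc y * x⁻¹ = (x * y⁻¹)⁻¹ := by group
      _ = x * y⁻¹ * (x * y⁻¹) := inv_eq_of_mul_eq_one_right (by rw [← mul_assoc]; exact h2)
      _ = _ := by group
  show y * (x * y * x⁻¹) = x * y * x⁻¹ * y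
  calc y * (x * y * x⁻¹) = y * (x * y * (x * x)) := by rw [hxi]
    _ = y * (x * y * x) * x := by group
    _ = y * (y⁻¹ * x⁻¹ * y⁻¹) * x := by rw [e1]
    _ = x⁻¹ * y⁻¹ * x := by group
    _ = x * x * y⁻¹ * x := by rw [hxi]
    _ = x * (x * (y⁻¹ * x * y⁻¹)) * y := by group
    _ = x * (y * x⁻¹) * y := by rw [← e2]
    _ = _ := by group

/-- The element with coordinates `i, j, k` of an exponent three group generated by `x, y`. -/
def nf (x y z : G) (i j k : ZMod 3) : G := pw x i * pw y j * pw z k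

/-- Nine members of a class of 3-transpositions forming an affine plane. -/
theorem exists_affine {a : G} (ha : a * a = 1) (hx : x ^ 3 = 1) (hy : y ^ 3 = 1)
    (hxy : (x * y) ^ 3 = 1) (hxy' : (x * y⁻¹) ^ 3 = 1) (hax : a * x * a = x⁻¹)
    (hay : a * y * a = y⁻¹) :
    ∃ φ : (Fin 2 → ZMod 3) → G, φ 0 = a ∧ φ ![1, 0] = x * a ∧ φ ![0, 1] = y * a ∧
      ∀ u v, φ (affFlip u v) = φ u * φ v * (φ u)⁻¹ := by
  set z := x * y * x⁻¹ * y⁻¹ with hz
  have hyx : (y * x) ^ 3 = 1 := by
    rw [show y * x = y * (x * y) * y⁻¹ by group, conj_pow, hxy, mul_one, mul_inv_cancel]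
  have hyx' : (y * x⁻¹) ^ 3 = 1 := by
    rw [show y * x⁻¹ = (x * y⁻¹)⁻¹ by group, inv_pow, hxy', inv_one]
  have c1 := commute_conj hx hxy hxy'
  have c2 := commute_conj hy hyx hyx'
  have zy : Commute z y := (c1.symm.mul_left ((Commute.refl y).inv_left))
  have zx : Commute z x := by
    have : z = x * (y * x * y⁻¹)⁻¹ := by rw [hz]; group
    rw [this]
    exact (Commute.refl x).mul_left c2.symm.inv_left
  have hz3 : z ^ 3 = 1 := by
    have e : (z * y) ^ 3 = 1 := by
      rw [show z * y = x * y * x⁻¹ by rw [hz]; group, conj_pow, hy, mul_one, mul_inv_cancel]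
    rwa [zy.mul_pow, hy, mul_one] at e
  have hai : a⁻¹ = a := inv_eq_of_mul_eq_one_right ha
  let σ : G →* G := (MulAut.conj a).toMonoidHom
  have hσ : ∀ g, σ g = a * g * a := fun g => by
    show a * g * a⁻¹ = a * g * a
    rw [hai]
  have σx : σ x = x⁻¹ := (hσ x).trans hax
  have σy : σ y = y⁻¹ := (hσ y).trans hay
  have σz : σ z = z := by
    rw [hz, map_mul, map_mul, map_mul, map_inv, map_inv, σx, σy, inv_inv, inv_inv]
    calc x⁻¹ * y⁻¹ * x * y = y⁻¹ * (y * x⁻¹ * y⁻¹ * x) * y := by group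
      _ = y⁻¹ * (x⁻¹ * z * x) * y := by rw [hz]; group
      _ = y⁻¹ * z * y := by rw [mul_assoc x⁻¹ z x, zx.eq, inv_mul_cancel_left]
      _ = z := by rw [mul_assoc, zy.eq, inv_mul_cancel_left]
      _ = _ := hz
  have pcx : ∀ k i : ZMod 3, Commute (pw z k) (pw x i) := fun k i => zx.pow_pow _ _
  have pcy : ∀ k i : ZMod 3, Commute (pw z k) (pw y i) := fun k i => zy.pow_pow _ _
  have swap : ∀ i j : ZMod 3, pw y j * pw x i = pw x i * pw y j * pw z (-(i * j)) := by
    have hw : ∀ i j : ℕ, y ^ j * x ^ i = x ^ i * y ^ j * (z⁻¹) ^ (i * j) := by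
      have h1 : SemiconjBy y x (x * z⁻¹) := by
        show y * x = x * z⁻¹ * y
        rw [mul_assoc, (zy.inv_left).eq, ← mul_assoc, ← ((zx.mul_right zy).inv_left).eq, hz]
        group
      intro i j
      have hzx' : Commute x z⁻¹ := zx.symm.inv_right
      have hi : SemiconjBy y (x ^ i) (x ^ i * (z⁻¹) ^ i) := by
        rw [← hzx'.mul_pow]; exact h1.pow_right i
      induction j with
      | zero => simp
      | succ j ih =>
        have hc1 : Commute ((z⁻¹) ^ (i * j)) y := (zy.inv_left).pow_left _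
        have hc2 : Commute ((z⁻¹) ^ i) y := (zy.inv_left).pow_left _
        calc y ^ (j + 1) * x ^ i = y * (y ^ j * x ^ i) := by rw [pow_succ' y j, mul_assoc]
          _ = y * x ^ i * y ^ j * (z⁻¹) ^ (i * j) := by rw [ih]; group
          _ = x ^ i * (z⁻¹) ^ i * y * y ^ j * (z⁻¹) ^ (i * j) := by rw [hi.eq]
          _ = x ^ i * ((z⁻¹) ^ i * y ^ (j + 1)) * (z⁻¹) ^ (i * j) := by rw [pow_succ' y j]; group
          _ = x ^ i * y ^ (j + 1) * ((z⁻¹) ^ i * (z⁻¹) ^ (i * j)) := by
                rw [((zy.inv_left).pow_pow i (j + 1)).eq]; simp only [mul_assoc]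
          _ = _ := by rw [← pow_add, Nat.mul_succ, add_comm (i * j) i]
    intro i j
    rw [pw_neg hz3]
    unfold pw
    rw [hw, inv_pow, ZMod.val_mul, ← pow_eq_pow_mod _ hz3]
  have nmul : ∀ i j k i' j' k', nf x y z i j k * nf x y z i' j' k' =
      nf x y z (i + i') (j + j') (k + k' - i' * j) := by
    intro i j k i' j' k'
    unfold nf
    calc pw x i * pw y j * pw z k * (pw x i' * pw y j' * pw z k')
        = pw x i * pw y j * (pw z k * pw x i') * pw y j' * pw z k' := by group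
      _ = pw x i * (pw y j * pw x i') * pw z k * pw y j' * pw z k' := by
          rw [(pcx k i').eq]; group
      _ = pw x i * (pw x i' * pw y j * pw z (-(i' * j))) * pw z k * pw y j' * pw z k' := by rw [swap]
      _ = pw x i * pw x i' * pw y j * (pw z (-(i' * j)) * pw z k * pw y j') * pw z k' := by group
      _ = pw x i * pw x i' * pw y j * (pw y j' * (pw z (-(i' * j)) * pw z k)) * pw z k' := by
          rw [← pw_add hz3, (pcy _ _).eq]
      _ = (pw x i * pw x i') * (pw y j * pw y j') * (pw z (-(i' * j)) * pw z k * pw z k') := by group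
      _ = _ := by
          rw [← pw_add hz3, ← pw_add hz3, ← pw_add hx, ← pw_add hy]
          congr 2
          ring
  have σpx : ∀ i, σ (pw x i) = pw x (-i) := fun i => by
    rw [pw_neg hx, show σ (pw x i) = pw (σ x) i from map_pow σ x _, σx]
    exact inv_pow x _
  have σpy : ∀ i, σ (pw y i) = pw y (-i) := fun i => by
    rw [pw_neg hy, show σ (pw y i) = pw (σ y) i from map_pow σ y _, σy]
    exact inv_pow y _
  have σnf : ∀ i j k, a * nf x y z i j k * a = nf x y z (-i) (-j) k := fun i j k => by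
    rw [← hσ]
    unfold nf
    rw [map_mul, map_mul, σpx, σpy, show σ (pw z k) = pw (σ z) k from map_pow σ z _, σz]
  refine ⟨fun v => nf x y z (v 0) (v 1) (v 0 * v 1) * a, ?_, ?_, ?_, fun u v => ?_⟩
  · simp [nf, pw_zero]
  · simp [nf, pw_zero, pw_one]
  · simp [nf, pw_zero, pw_one]
  · dsimp only
    rw [mul_inv_rev, hai]
    have hinv : ∀ i j k, (nf x y z i j k)⁻¹ = nf x y z (-i) (-j) (-k - i * j) := fun i j k => by
      refine inv_eq_of_mul_eq_one_right ?_
      rw [nmul]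
      unfold nf
      rw [show k + (-k - i * j) - -i * j = 0 by ring, add_neg_cancel, add_neg_cancel]
      simp [pw_zero]
    rw [hinv]
    symm
    calc nf x y z (u 0) (u 1) (u 0 * u 1) * a * (nf x y z (v 0) (v 1) (v 0 * v 1) * a) *
          (a * nf x y z (-u 0) (-u 1) (-(u 0 * u 1) - u 0 * u 1))
        = nf x y z (u 0) (u 1) (u 0 * u 1) * (a * nf x y z (v 0) (v 1) (v 0 * v 1) * a) *
            (a * nf x y z (-u 0) (-u 1) (-(u 0 * u 1) - u 0 * u 1) * a) * a⁻¹ := by group
      _ = nf x y z (u 0) (u 1) (u 0 * u 1) * nf x y z (-v 0) (-v 1) (v 0 * v 1) *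
            nf x y z (- -u 0) (- -u 1) (-(u 0 * u 1) - u 0 * u 1) * a := by rw [σnf, σnf, hai]
      _ = nf x y z (affFlip u v 0) (affFlip u v 1) (affFlip u v 0 * affFlip u v 1) * a := by
          rw [nmul, nmul]
          simp only [affFlip, Pi.neg_apply, Pi.add_apply]
          have key : ∀ i j k l : ZMod 3, i + -k + - -i = -(i + k) ∧ j + -l + - -j = -(j + l) ∧
              i * j + k * l - -k * j + (-(i * j) - i * j) - - -i * (j + -l) = -(i + k) * -(j + l) := by
            decide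
          obtain ⟨k1, k2, k3⟩ := key (u 0) (u 1) (v 0) (v 1)
          rw [k1, k2, k3]

end Plane

section Lines

variable {G : Type*} [Group G] {D : Set G}

/-- The line through two members. -/
def lineThrough (x y : D) : Set D :=
  {w : D | (w : G) = x ∨ (w : G) = y ∨ (w : G) = (y : G) * (x : G) * (y : G)⁻¹}

theorem lineThrough_eq_of_mem (hS : Cfsg.IsThreeTranspositionSet D) {x y p q : D}
    (h : ¬ Commute (x : G) (y : G)) (hp : p ∈ lineThrough x y) (hq : q ∈ lineThrough x y)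
    (hne : p ≠ q) : ¬ Commute (p : G) (q : G) ∧ lineThrough p q = lineThrough x y := by
  obtain ⟨x, hx⟩ := x
  obtain ⟨y, hy⟩ := y
  obtain ⟨p, hp'⟩ := p
  obtain ⟨q, hq'⟩ := q
  simp only [lineThrough, Set.mem_setOf_eq, conj_eq hS hy] at hp hq
  simp only [ne_eq, Subtype.mk.injEq] at hne
  have h' : ¬ Commute y x := fun c => h c.symm
  have hb : y * x * y = x * y * x := (braid hS hx hy h).symm
  have hxx := sq_eq_one hS hx
  have hyy := sq_eq_one hS hy
  have e1 : (y * x * y) * x * (y * x * y) = y := by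
    rw [hb]
    calc (x * y * x) * x * (x * y * x) = x * y * (x * x) * (x * (y * x)) := by group
      _ = x * (y * x * y) * x := by rw [hxx]; group
      _ = x * (x * y * x) * x := by rw [hb]
      _ = (x * x) * y * (x * x) := by group
      _ = y := by rw [hxx, one_mul, mul_one]
  have e2 : (y * x * y) * y * (y * x * y) = x := by
    calc (y * x * y) * y * (y * x * y) = y * x * (y * y) * (y * (x * y)) := by group
      _ = y * (x * y * x) * y := by rw [hyy]; group
      _ = y * (y * x * y) * y := by rw [hb]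
      _ = (y * y) * x * (y * y) := by group
      _ = x := by rw [hyy, one_mul, mul_one]
  have e3 : x * (y * x * y) * x = y := by
    rw [hb]
    calc x * (x * y * x) * x = (x * x) * y * (x * x) := by group
      _ = y := by rw [hxx, one_mul, mul_one]
  have e4 : y * (y * x * y) * y = x := by
    calc y * (y * x * y) * y = (y * y) * x * (y * y) := by group
      _ = x := by rw [hyy, one_mul, mul_one]
  have n1 : ¬ Commute x (y * x * y) := by
    rw [hb]; exact not_commute_third_left hS hx hy h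
  have n2 : ¬ Commute y (y * x * y) := not_commute_third_left hS hy hx h'
  have n1' : ¬ Commute (y * x * y) x := fun c => n1 c.symm
  have n2' : ¬ Commute (y * x * y) y := fun c => n2 c.symm
  refine ⟨?_, ?_⟩
  · rcases hp with rfl | rfl | rfl <;> rcases hq with rfl | rfl | rfl <;>
      first | exact absurd rfl hne | assumption
  · ext w
    simp only [lineThrough, Set.mem_setOf_eq, conj_eq hS hy, conj_eq hS hq']
    rcases hp with rfl | rfl | rfl <;> rcases hq with rfl | rfl | rfl <;>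
      first
      | exact absurd rfl hne
      | (simp only [e1, e2, e3, e4, ← hb] <;> tauto)

variable (hD : Cfsg.IsThreeTranspositionGroup D)
include hD

theorem line_of_mem {l : Set D} (hl : l ∈ Cfsg.threeTranspositionLines D) {p q : D}
    (hp : p ∈ l) (hq : q ∈ l) (hne : p ≠ q) :
    ¬ Commute (p : G) (q : G) ∧ l = lineThrough p q := by
  obtain ⟨x, y, h, rfl⟩ := hl
  obtain ⟨h1, h2⟩ := lineThrough_eq_of_mem hD.1 h hp hq hne
  exact ⟨h1, h2.symm⟩

theorem lines_partialLinear : LineSystem.IsPartialLinear (Cfsg.threeTranspositionLines D) :=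
  fun _ hl _ hm _ _ hne h1 h2 h3 h4 =>
    (line_of_mem hD hl h1 h2 hne).2.trans (line_of_mem hD hm h3 h4 hne).2.symm

theorem lines_ncard : ∀ l ∈ Cfsg.threeTranspositionLines D, l.ncard = 3 := by
  rintro l ⟨⟨x, hx⟩, ⟨y, hy⟩, h, rfl⟩
  refine Set.ncard_eq_three.2
    ⟨⟨x, hx⟩, ⟨y, hy⟩, ⟨y * x * y⁻¹, hD.2.1 y x hx⟩, ?_, ?_, ?_, ?_⟩
  · intro e; exact ne_of_not_commute hD.1 h (congrArg Subtype.val e)
  · intro e
    have e' : x = y * x * y⁻¹ := congrArg Subtype.val e
    exact h (mul_inv_eq_iff_eq_mul.1 e'.symm).symm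
  · intro e
    have e' : y = y * x * y⁻¹ := congrArg Subtype.val e
    rw [eq_mul_inv_iff_mul_eq] at e'
    exact ne_of_not_commute hD.1 h (mul_left_cancel e').symm
  · ext w; simp [Subtype.ext_iff]

variable {Y : Type*}

/-- A parametrised plane in the line system of `D`. -/
theorem isomorphic_span {M : Set (Set Y)} {f : Y → Y → Y} (hf : IsPlane M f) (φ : Y → D)
    (hinj : Function.Injective φ)
    (hcomm : ∀ p q, f p q = q → Commute (φ p : G) (φ q : G))
    (hflip : ∀ p q, f p q ≠ q → ¬ Commute (φ p : G) (φ q : G) ∧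
      (φ (f p q) : G) = φ p * φ q * (φ p : G)⁻¹)
    {E : Set D} (hE : E ⊆ Set.range φ)
    (hgen : ∀ T : Set D, E ⊆ T →
      (∀ p q, f p q ≠ q → φ p ∈ T → φ q ∈ T → φ (f p q) ∈ T) → Set.range φ ⊆ T) :
    LineSystem.Isomorphic (LineSystem.restrict (Cfsg.threeTranspositionLines D)
      (LineSystem.span (Cfsg.threeTranspositionLines D) E)) M := by
  have himg : ∀ p q, f p q ≠ q → lineThrough (φ q) (φ p) = φ '' {p, q, f p q} := by
    intro p q h
    ext w
    simp only [lineThrough, Set.mem_setOf_eq, Set.image_insert_eq, Set.image_singleton,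
      Set.mem_insert_iff, Set.mem_singleton_iff, Subtype.ext_iff, (hflip p q h).2]
    tauto
  have hlines : ∀ l ∈ Cfsg.threeTranspositionLines D, ∀ x ∈ Set.range φ, ∀ y ∈ Set.range φ, x ≠ y →
      x ∈ l → y ∈ l → ∃ p q, f p q ≠ q ∧ l = φ '' {p, q, f p q} := by
    rintro l hl _ ⟨p, rfl⟩ _ ⟨q, rfl⟩ hne hp hq
    obtain ⟨hnc, rfl⟩ := line_of_mem hD hl hq hp hne.symm
    exact ⟨p, q, fun h => hnc (hcomm p q h).symm, himg p q fun h => hnc (hcomm p q h).symm⟩
  have hsub : LineSystem.IsSubspace (Cfsg.threeTranspositionLines D) (Set.range φ) := by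
    intro l hl x hx y hy hne hxl hyl
    obtain ⟨p, q, -, rfl⟩ := hlines l hl x hx y hy hne hxl hyl
    exact Set.image_subset_range _ _
  have hspan : LineSystem.span (Cfsg.threeTranspositionLines D) E = Set.range φ := by
    refine subset_antisymm (Set.sInter_subset_of_mem ⟨hE, hsub⟩) ?_
    refine hgen _ (subset_span _ _) fun p q h hp hq => ?_
    exact isSubspace_span _ E (lineThrough (φ q) (φ p))
      (show lineThrough (φ q) (φ p) ∈ Cfsg.threeTranspositionLines D from
        ⟨_, _, fun c => (hflip p q h).1 c.symm, rfl⟩) _ hp _ hq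
      (fun e => (hflip p q h).1 (congrArg Subtype.val e ▸ Commute.refl _))
      (by simp [lineThrough]) (by simp [lineThrough])
      (by rw [himg p q h]; exact ⟨f p q, by simp, rfl⟩)
  rw [hspan]
  refine ⟨(Equiv.ofInjective φ hinj).symm, fun m => ⟨?_, ?_⟩⟩
  · rintro ⟨l, hl, hls, rfl⟩
    obtain ⟨x, y, z, hxy, -, -, hl3⟩ := Set.ncard_eq_three.1 (lines_ncard hD l hl)
    obtain ⟨p, q, h, rfl⟩ := hlines l hl x (hls (by simp [hl3])) y (hls (by simp [hl3])) hxy
      (by simp [hl3]) (by simp [hl3])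
    convert (hf.mem p q h).2.2 using 1
    ext w
    rw [Equiv.image_eq_preimage_symm, Equiv.symm_symm, Set.mem_preimage]
    exact hinj.mem_set_image
  · intro hm
    obtain ⟨p, q, h, hpq⟩ := hf.cover _ hm
    refine ⟨lineThrough (φ q) (φ p), ⟨_, _, fun c => (hflip p q h).1 c.symm, rfl⟩, ?_, ?_⟩
    · rw [himg p q h]; exact Set.image_subset_range _ _
    · ext ⟨w, r, rfl⟩
      rw [himg p q h, ← hpq, Set.mem_setOf_eq, hinj.mem_set_image,
        Equiv.image_eq_preimage_symm, Equiv.symm_symm, Set.mem_preimage]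
      exact Iff.of_eq (congrArg (· ∈ m) (Subtype.ext rfl))

/-- The transposition attached to a two-element subset of four letters. -/
def pairPerm (s : DualAffinePoint) : Equiv.Perm (Fin 4) :=
  if (0 : Fin 4) ∈ s.1 then
    (if (1 : Fin 4) ∈ s.1 then Equiv.swap 0 1
      else if (2 : Fin 4) ∈ s.1 then Equiv.swap 0 2 else Equiv.swap 0 3)
  else if (1 : Fin 4) ∈ s.1 then
    (if (2 : Fin 4) ∈ s.1 then Equiv.swap 1 2 else Equiv.swap 1 3)
  else Equiv.swap 2 3

omit hD in
theorem pairPerm_facts : ∀ p q : DualAffinePoint,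
    (pairPerm p = pairPerm q → p = q) ∧
    (dualFlip p q = q → pairPerm p * pairPerm q = pairPerm q * pairPerm p) ∧
    (dualFlip p q ≠ q → pairPerm p * pairPerm q ≠ pairPerm q * pairPerm p ∧
      pairPerm (dualFlip p q) = pairPerm p * pairPerm q * (pairPerm p)⁻¹) := by
  decide +kernel

omit hD in
theorem pairPerm_images : (∀ p : DualAffinePoint, pairPerm p = Equiv.swap 0 1 *
      Equiv.swap 2 3 → False) ∧
    ∀ s : DualAffinePoint, pairPerm s = Equiv.swap 0 3 → ∃ p q : DualAffinePoint,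
      pairPerm p = Equiv.swap 0 1 ∧ pairPerm q = Equiv.swap 1 2 * Equiv.swap 2 3 * Equiv.swap 1 2 ∧
        dualFlip p q ≠ q ∧ dualFlip p q = s := by
  decide +kernel

omit hD in
theorem pairPerm_cases : ∀ s : DualAffinePoint, pairPerm s = Equiv.swap 0 1 ∨
    pairPerm s = Equiv.swap 1 2 ∨ pairPerm s = Equiv.swap 2 3 ∨
    pairPerm s = Equiv.swap 1 2 * Equiv.swap 0 1 * (Equiv.swap 1 2)⁻¹ ∨
    pairPerm s = Equiv.swap 1 2 * Equiv.swap 2 3 * (Equiv.swap 1 2)⁻¹ ∨
    pairPerm s = Equiv.swap 0 3 := by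
  decide +kernel

omit hD in
theorem pairPerm_exists : (∃ s, pairPerm s = Equiv.swap 0 1) ∧ (∃ s, pairPerm s = Equiv.swap 1 2) ∧
    (∃ s, pairPerm s = Equiv.swap 2 3) ∧
    (∃ s, pairPerm s = Equiv.swap 1 2 * Equiv.swap 0 1 * (Equiv.swap 1 2)⁻¹) ∧
    (∃ s, pairPerm s = Equiv.swap 1 2 * Equiv.swap 2 3 * (Equiv.swap 1 2)⁻¹) := by
  decide +kernel

theorem span_dual {a b c : D} (hab : ¬ Commute (a : G) (b : G)) (hac : ¬ Commute (a : G) (c : G))
    (hbc : Commute (b : G) (c : G)) (hne : b ≠ c) :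
    LineSystem.Isomorphic (LineSystem.restrict (Cfsg.threeTranspositionLines D)
      (LineSystem.span (Cfsg.threeTranspositionLines D) (lineThrough b a ∪ lineThrough c a)))
      Cfsg.dualAffinePlaneTwo := by
  obtain ⟨ψ, hinj, h1, h2, h3⟩ := SymFour.exists_injective_of_string hD.1 b.2 a.2 c.2
    (fun e => hne (Subtype.ext e)) hbc (fun h => hab h.symm) hac
  have hmem : ∀ s : DualAffinePoint, ψ (pairPerm s) ∈ D := by
    intro s
    rcases pairPerm_cases s with h | h | h | h | h | h <;> rw [h]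
    · rw [h1]; exact b.2
    · rw [h2]; exact a.2
    · rw [h3]; exact c.2
    · rw [map_mul, map_mul, map_inv, h1, h2]; exact hD.2.1 _ _ b.2
    · rw [map_mul, map_mul, map_inv, h3, h2]; exact hD.2.1 _ _ c.2
    · rw [show Equiv.swap (0 : Fin 4) 3 = (Equiv.swap 2 3 * Equiv.swap 1 2) * Equiv.swap 0 1 *
        (Equiv.swap 2 3 * Equiv.swap 1 2)⁻¹ by decide, map_mul, map_mul, map_inv, h1]
      exact hD.2.1 _ _ b.2
  let φ : DualAffinePoint → D := fun s => ⟨ψ (pairPerm s), hmem s⟩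
  refine isomorphic_span hD isPlane_dual φ
    (fun p q h => (pairPerm_facts p q).1 (hinj (congrArg Subtype.val h)))
    (fun p q h => Commute.map ((pairPerm_facts p q).2.1 h) ψ) (fun p q h => ⟨fun hc => ?_, ?_⟩)
    ?_ ?_
  · apply ((pairPerm_facts p q).2.2 h).1
    apply hinj
    rw [map_mul, map_mul]
    exact hc
  · show ψ (pairPerm (dualFlip p q)) = ψ (pairPerm p) * ψ (pairPerm q) * (ψ (pairPerm p))⁻¹
    rw [((pairPerm_facts p q).2.2 h).2, map_mul, map_mul, map_inv]
  · obtain ⟨⟨s1, e1⟩, ⟨s2, e2⟩, ⟨s3, e3⟩, ⟨s4, e4⟩, ⟨s5, e5⟩⟩ := pairPerm_exists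
    rintro w ((hw | hw | hw) | (hw | hw | hw))
    · exact ⟨s1, Subtype.ext (by simp [φ, e1, h1, hw])⟩
    · exact ⟨s2, Subtype.ext (by simp [φ, e2, h2, hw])⟩
    · exact ⟨s4, Subtype.ext (by simp [φ, e4, h1, h2, hw, map_mul, inv_eq hD.1 a.2])⟩
    · exact ⟨s3, Subtype.ext (by simp [φ, e3, h3, hw])⟩
    · exact ⟨s2, Subtype.ext (by simp [φ, e2, h2, hw])⟩
    · exact ⟨s5, Subtype.ext (by simp [φ, e5, h3, h2, hw, map_mul, inv_eq hD.1 a.2])⟩
  · intro T hT hcl
    have known : ∀ s : DualAffinePoint, pairPerm s ≠ Equiv.swap 0 3 → φ s ∈ T := by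
      intro s hs
      apply hT
      rcases pairPerm_cases s with h | h | h | h | h | h
      · exact Or.inl (Or.inl (by simp [φ, h, h1]))
      · exact Or.inl (Or.inr (Or.inl (by simp [φ, h, h2])))
      · exact Or.inr (Or.inl (by simp [φ, h, h3]))
      · exact Or.inl (Or.inr (Or.inr (by simp [φ, h, h1, h2, map_mul, inv_eq hD.1 a.2])))
      · exact Or.inr (Or.inr (Or.inr (by simp [φ, h, h2, h3, map_mul, inv_eq hD.1 a.2])))
      · exact absurd h hs
    rintro _ ⟨s, rfl⟩
    by_cases hs : pairPerm s = Equiv.swap 0 3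
    · obtain ⟨p, q, hp, hq, h, rfl⟩ := pairPerm_images.2 s hs
      exact hcl p q h (known p (by rw [hp]; decide)) (known q (by rw [hq]; decide))
    · exact known s hs

theorem span_affine {a b c : D} (hab : ¬ Commute (a : G) (b : G)) (hac : ¬ Commute (a : G) (c : G))
    (hbc : ¬ Commute (b : G) (c : G)) (habc : ¬ Commute ((a : G) * b * (a : G)⁻¹) (c : G)) :
    LineSystem.Isomorphic (LineSystem.restrict (Cfsg.threeTranspositionLines D)
      (LineSystem.span (Cfsg.threeTranspositionLines D) (lineThrough b a ∪ lineThrough c a)))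
      Cfsg.affinePlaneThree := by
  obtain ⟨a, ha⟩ := a
  obtain ⟨b, hb⟩ := b
  obtain ⟨c, hc⟩ := c
  have hS := hD.1
  have haa := sq_eq_one hS ha
  have hbb := sq_eq_one hS hb
  have hcc := sq_eq_one hS hc
  have hai := inv_eq hS ha
  have habD : a * b * a⁻¹ ∈ D := hD.2.1 a b hb
  obtain ⟨ψ, h0, h10, h01, hψ⟩ := exists_affine (x := b * a) (y := c * a) haa
    (cube_of_not_commute hS hb ha fun h => hab h.symm)
    (cube_of_not_commute hS hc ha fun h => hac h.symm)
    (by
      rw [show b * a * (c * a) = a * ((a * b * a⁻¹) * c) * a⁻¹ * (a * a⁻¹⁻¹⁻¹)⁻¹ by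
        simp only [hai, inv_inv, mul_inv_rev, mul_assoc]
        simp [← mul_assoc a a, haa]]
      simp only [inv_inv, mul_inv_cancel, inv_one, mul_one, conj_pow,
        cube_of_not_commute hS habD hc habc])
    (by
      rw [show b * a * (c * a)⁻¹ = b * c⁻¹ by group, inv_eq hS hc]
      exact cube_of_not_commute hS hb hc hbc)
    (by rw [mul_inv_rev, inv_eq hS hb, hai, mul_assoc, mul_assoc b a a, haa, mul_one])
    (by rw [mul_inv_rev, inv_eq hS hc, hai, mul_assoc, mul_assoc c a a, haa, mul_one])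
  rw [mul_assoc, haa, mul_one] at h10 h01
  have h20 : ψ ![2, 0] = a * b * a⁻¹ := by
    rw [show (![2, 0] : Fin 2 → ZMod 3) = affFlip 0 ![1, 0] by decide, hψ, h0, h10]
  have h02 : ψ ![0, 2] = a * c * a⁻¹ := by
    rw [show (![0, 2] : Fin 2 → ZMod 3) = affFlip 0 ![0, 1] by decide, hψ, h0, h01]
  have cases9 : ∀ v : Fin 2 → ZMod 3, v = 0 ∨ v = ![1, 0] ∨ v = ![2, 0] ∨ v = ![0, 1] ∨
      v = ![0, 2] ∨ v = affFlip ![1, 0] ![0, 1] ∨ v = affFlip ![1, 0] ![0, 2] ∨
      v = affFlip ![2, 0] ![0, 1] ∨ v = affFlip ![2, 0] ![0, 2] := by decide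
  have hmem : ∀ v, ψ v ∈ D := by
    intro v
    rcases cases9 v with rfl | rfl | rfl | rfl | rfl | rfl | rfl | rfl | rfl <;>
      simp only [hψ, h0, h10, h20, h01, h02] <;>
      first | assumption | exact hD.2.1 _ _ (by first | assumption | exact hD.2.1 _ _ (by assumption))
  have hshift : ∀ u v t, ψ u = ψ v → ψ (u + t) = ψ (v + t) := by
    intro u v t h
    have e : ∀ u, u + t = affFlip 0 (affFlip t u) := fun u => by unfold affFlip; abel
    rw [e, e, hψ, hψ, hψ 0, hψ t, h]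
  have hdis : ψ 0 ≠ ψ ![1, 0] ∧ ψ 0 ≠ ψ ![0, 1] ∧ ψ ![1, 0] ≠ ψ ![0, 1] ∧ ψ ![2, 0] ≠ ψ ![0, 1] := by
    rw [h0, h10, h01, h20]
    exact ⟨ne_of_not_commute hS hab, ne_of_not_commute hS hac, ne_of_not_commute hS hbc,
      ne_of_not_commute hS habc⟩
  have hinj : Function.Injective ψ := by
    intro u v h
    by_contra hne
    have key : ∀ d : Fin 2 → ZMod 3, d ≠ 0 → ∃ t,
        (t = 0 ∧ d + t = ![1, 0]) ∨ (d + t = 0 ∧ t = ![1, 0]) ∨
        (t = 0 ∧ d + t = ![0, 1]) ∨ (d + t = 0 ∧ t = ![0, 1]) ∨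
        (t = ![1, 0] ∧ d + t = ![0, 1]) ∨ (d + t = ![1, 0] ∧ t = ![0, 1]) ∨
        (t = ![2, 0] ∧ d + t = ![0, 1]) ∨ (d + t = ![2, 0] ∧ t = ![0, 1]) := by decide
    obtain ⟨t, ht⟩ := key (v - u) (sub_ne_zero.2 (Ne.symm hne))
    have h' := hshift u v (-u + t) h
    rw [← add_assoc, add_neg_cancel, zero_add, ← add_assoc, ← sub_eq_add_neg] at h'
    rcases ht with ⟨e1, e2⟩ | ⟨e1, e2⟩ | ⟨e1, e2⟩ | ⟨e1, e2⟩ | ⟨e1, e2⟩ | ⟨e1, e2⟩ | ⟨e1, e2⟩ |
      ⟨e1, e2⟩ <;> (first | rw [e2, e1] at h' | rw [e1, e2] at h') <;>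
      first
      | exact hdis.1 h' | exact hdis.1 h'.symm | exact hdis.2.1 h' | exact hdis.2.1 h'.symm
      | exact hdis.2.2.1 h' | exact hdis.2.2.1 h'.symm | exact hdis.2.2.2 h'
      | exact hdis.2.2.2 h'.symm
  let φ : (Fin 2 → ZMod 3) → D := fun v => ⟨ψ v, hmem v⟩
  refine isomorphic_span hD isPlane_affine φ (fun p q h => hinj (congrArg Subtype.val h))
    (fun p q h => by rw [(affFlip_eq_iff p q).1 h]) (fun p q h => ⟨fun hcm => ?_, hψ p q⟩) ?_ ?_
  · have hcm' : Commute (ψ p) (ψ q) := hcm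
    apply h
    apply hinj
    rw [hψ, hcm'.eq, mul_inv_cancel_right]
  · rintro w ((hw | hw | hw) | (hw | hw | hw))
    · exact ⟨![1, 0], Subtype.ext (h10.trans hw.symm)⟩
    · exact ⟨0, Subtype.ext (h0.trans hw.symm)⟩
    · exact ⟨![2, 0], Subtype.ext (h20.trans hw.symm)⟩
    · exact ⟨![0, 1], Subtype.ext (h01.trans hw.symm)⟩
    · exact ⟨0, Subtype.ext (h0.trans hw.symm)⟩
    · exact ⟨![0, 2], Subtype.ext (h02.trans hw.symm)⟩
  · intro T hT hcl
    have k10 : φ ![1, 0] ∈ T := hT (Or.inl (Or.inl h10))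
    have k0 : φ 0 ∈ T := hT (Or.inl (Or.inr (Or.inl h0)))
    have k20 : φ ![2, 0] ∈ T := hT (Or.inl (Or.inr (Or.inr h20)))
    have k01 : φ ![0, 1] ∈ T := hT (Or.inr (Or.inl h01))
    have k02 : φ ![0, 2] ∈ T := hT (Or.inr (Or.inr (Or.inr h02)))
    rintro _ ⟨v, rfl⟩
    rcases cases9 v with rfl | rfl | rfl | rfl | rfl | rfl | rfl | rfl | rfl <;>
      first | assumption | exact hcl _ _ (by decide) (by assumption) (by assumption)

/-- The line system of a class of 3-transpositions is a Fischer space. -/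
theorem isFischerSpace : Cfsg.IsFischerSpace (Cfsg.threeTranspositionLines D) := by
  refine ⟨lines_partialLinear hD, lines_ncard hD, fun l hl m hm hlm => ?_⟩
  rintro ⟨a, hal, ham⟩
  have hp := lines_partialLinear hD
  obtain ⟨p, q, r, hpq, -, -, hl3⟩ := Set.ncard_eq_three.1 (lines_ncard hD l hl)
  obtain ⟨p', q', r', hpq', -, -, hm3⟩ := Set.ncard_eq_three.1 (lines_ncard hD m hm)
  by_cases hcross : ∃ b ∈ l, ∃ c ∈ m, b ≠ a ∧ c ≠ a ∧ Commute (b : G) (c : G)
  · obtain ⟨b, hbl, c, hcm, hba, hca, hbc⟩ := hcross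
    obtain ⟨hab, rfl⟩ := line_of_mem hD hl hbl hal hba
    obtain ⟨hac, rfl⟩ := line_of_mem hD hm hcm ham hca
    left
    refine span_dual hD (fun h => hab h.symm) (fun h => hac h.symm) hbc fun e => hlm ?_
    rw [e]
  · push Not at hcross
    obtain ⟨b, hbl, hba⟩ : ∃ b ∈ l, b ≠ a := by
      by_cases h : p = a
      · exact ⟨q, by simp [hl3], fun e => hpq (h.trans e.symm)⟩
      · exact ⟨p, by simp [hl3], h⟩
    obtain ⟨c, hcm, hca⟩ : ∃ c ∈ m, c ≠ a := by
      by_cases h : p' = a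
      · exact ⟨q', by simp [hm3], fun e => hpq' (h.trans e.symm)⟩
      · exact ⟨p', by simp [hm3], h⟩
    obtain ⟨hab, rfl⟩ := line_of_mem hD hl hbl hal hba
    obtain ⟨hac, rfl⟩ := line_of_mem hD hm hcm ham hca
    right
    refine span_affine hD (fun h => hab h.symm) (fun h => hac h.symm) (hcross b hbl c hcm hba hca) ?_
    refine hcross ⟨_, hD.2.1 a b b.2⟩ (Or.inr (Or.inr rfl)) c hcm (fun e => hba ?_) hca
    have e' : (a : G) * b * (a : G)⁻¹ = a := congrArg Subtype.val e
    rw [mul_inv_eq_iff_eq_mul] at e'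
    exact Subtype.ext (mul_left_cancel e')

end Lines

end CfsgLib.Fischer.Lines
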