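import Cfsg.Agent.Lib.Fischer.SymFour
import Cfsg.Agent.Lib.Fischer.Classes
import Cfsg.Agent.Lib.Generators.CoxeterSn

/-!
The symmetric group of degree five inside a 3-transposition set: four members in a string generate it,
and no member outside can fail to commute with all ten.
-/
set_option autoImplicit false
set_option maxRecDepth 10000
set_option synthInstance.maxSize 4000
set_option synthInstance.maxHeartbeats 200000

namespace CfsgLib.Fischer.SymFive

/-- Transpositions on five letters, indexed by increasing pairs. -/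
abbrev Pair : Type := {p : Fin 5 × Fin 5 // p.1 < p.2}

/-- The transposition of a pair. -/
def sw (p : Pair) : Equiv.Perm (Fin 5) := Equiv.swap p.1.1 p.1.2

theorem sw_conj : ∀ p : Pair, ∃ g : Equiv.Perm (Fin 5), g * Equiv.swap 0 1 * g⁻¹ = sw p := by
  intro p
  exact isConj_iff.1 (Equiv.Perm.isConj_swap (by decide) (ne_of_lt p.2))

theorem adjacent_conj : ∀ p q : Pair, p ≠ q → sw p * sw q ≠ sw q * sw p →
    ∃ g : Equiv.Perm (Fin 5), g * Equiv.swap 0 1 * g⁻¹ = sw p ∧ g * Equiv.swap 1 2 * g⁻¹ = sw q := by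
  decide +kernel

theorem separate : ∀ p q : Pair, p ≠ q → sw p * sw q = sw q * sw p →
    ∃ r : Pair, r ≠ q ∧ sw r * sw p = sw p * sw r ∧ sw r * sw q ≠ sw q * sw r := by
  decide +kernel

theorem exists_moved : ∀ σ : Equiv.Perm (Fin 5), σ ≠ 1 →
    ∃ p q : Pair, q ≠ p ∧ σ * sw p = sw q * σ := by
  decide +kernel

theorem involution_cases : ∀ σ : Equiv.Perm (Fin 5), σ * σ = 1 → σ = 1 ∨ (∃ p, σ = sw p) ∨
    ∃ p q, p ≠ q ∧ sw p * sw q = sw q * sw p ∧ σ = sw p * sw q := by
  decide +kernel

theorem three_disjoint : ∀ p : Pair, ∃ a b c : Pair, a ≠ b ∧ a ≠ c ∧ b ≠ c ∧ a ≠ p ∧ b ≠ p ∧ c ≠ p ∧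
    sw a * sw p = sw p * sw a ∧ sw b * sw p = sw p * sw b ∧ sw c * sw p = sw p * sw c := by
  decide +kernel

variable {G : Type*} [Group G]

/-- Four involutions in a string give a homomorphism from the symmetric group of degree five. -/
theorem exists_hom_four {s : Fin 4 → G} (h1 : ∀ i, s i * s i = 1)
    (hb : ∀ i j : Fin 4, (j : ℕ) + 1 = i → (s i * s j) ^ 3 = 1)
    (hc : ∀ i j : Fin 4, i ≠ j → (j : ℕ) + 1 ≠ i → (i : ℕ) + 1 ≠ j → Commute (s i) (s j)) :
    ∃ φ : Equiv.Perm (Fin 5) →* G, ∀ i : Fin 4, φ (Equiv.swap i.castSucc i.succ) = s i := by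
  obtain ⟨cs, hcs⟩ := CfsgLib.Generators.exists_coxeterSystem_perm 4
  have hlift : (CoxeterMatrix.A 4).IsLiftable s := by
    intro i j
    show (s i * s j) ^ (if i = j then 1 else
      (if (j : ℕ) + 1 = i ∨ (i : ℕ) + 1 = j then 3 else 2)) = 1
    split_ifs with e e'
    · rw [e, pow_one, h1]
    · rcases e' with e' | e'
      · exact hb i j e'
      · have hinv : ∀ k, (s k)⁻¹ = s k := fun k => inv_eq_of_mul_eq_one_right (h1 k)
        have h := congrArg (fun g => g⁻¹) (hb j i e')
        simp only [← inv_pow, mul_inv_rev, hinv, inv_one] at h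
        exact h
    · rw [not_or] at e'
      rw [(hc i j e e'.1 e'.2).mul_pow, pow_two, pow_two, h1, h1, one_mul]
  exact ⟨cs.lift ⟨s, hlift⟩, fun i => by rw [← hcs i]; exact cs.lift_apply_simple hlift i⟩

variable {D : Set G}

/-- What is used about the ten members. -/
structure Good (D : Set G) (φ : Equiv.Perm (Fin 5) →* G) : Prop where
  mem : ∀ p, φ (sw p) ∈ D
  inj : Function.Injective φ

theorem exists_good (hD : Cfsg.IsThreeTranspositionSet D)
    (hconj : ∀ g : G, ∀ d ∈ D, g * d * g⁻¹ ∈ D) {a b c e : G}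
    (ha : a ∈ D) (hb : b ∈ D) (hc : c ∈ D) (he : e ∈ D)
    (hab : ¬ Commute a b) (hbc : ¬ Commute b c) (hce : ¬ Commute c e)
    (hac : Commute a c) (hae : Commute a e) (hbe : Commute b e) :
    ∃ φ : Equiv.Perm (Fin 5) →* G, Good D φ ∧
      φ (Equiv.swap 0 1) = a ∧ φ (Equiv.swap 3 4) = e := by
  obtain ⟨φ, hφ⟩ := exists_hom_four (s := ![a, b, c, e])
    (by intro i; fin_cases i <;> first
      | exact sq_eq_one hD ha | exact sq_eq_one hD hb | exact sq_eq_one hD hc | exact sq_eq_one hD he)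
    (by intro i j h; fin_cases i <;> fin_cases j <;> first
      | (exfalso; simp at h; done)
      | exact cube_of_not_commute hD hb ha fun x => hab x.symm
      | exact cube_of_not_commute hD hc hb fun x => hbc x.symm
      | exact cube_of_not_commute hD he hc fun x => hce x.symm)
    (by intro i j h1 h2 h3; fin_cases i <;> fin_cases j <;> first
      | (exfalso; simp at h1 h2 h3; done)
      | exact hac | exact hae | exact hbe | exact hac.symm | exact hae.symm | exact hbe.symm)
  have h0 : φ (Equiv.swap 0 1) = a := hφ 0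
  have h1 : φ (Equiv.swap 1 2) = b := hφ 1
  have hmem : ∀ p, φ (sw p) ∈ D := fun p => by
    obtain ⟨g, hg⟩ := sw_conj p
    rw [← hg, map_mul, map_mul, map_inv, h0]
    exact hconj _ _ ha
  have hnc : ∀ p q : Pair, sw p * sw q ≠ sw q * sw p → ¬ Commute (φ (sw p)) (φ (sw q)) := by
    intro p q h
    obtain ⟨g, hg, hg'⟩ := adjacent_conj p q (fun e' => h (by rw [e'])) h
    rw [← hg, ← hg', map_mul, map_mul, map_mul, map_mul, map_inv, h0, h1, conj_commute_iff]
    exact hab
  have hτ : ∀ p q : Pair, φ (sw p) = φ (sw q) → p = q := by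
    intro p q h
    by_contra hne
    by_cases hc' : sw p * sw q = sw q * sw p
    · obtain ⟨r, -, hr1, hr2⟩ := separate p q hne hc'
      exact hnc r q hr2 (h ▸ (show Commute (sw r) (sw p) from hr1).map φ)
    · exact hnc p q hc' (by rw [h])
  refine ⟨φ, ⟨hmem, (injective_iff_map_eq_one φ).2 fun σ hσ => ?_⟩, h0, hφ 3⟩
  by_contra hne
  obtain ⟨p, q, hqp, hpq⟩ := exists_moved σ hne
  have := congrArg φ hpq
  rw [map_mul, map_mul, hσ, one_mul, mul_one] at this
  exact hqp (hτ p q this).symm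

namespace Good

variable {φ : Equiv.Perm (Fin 5) →* G} (hφ : Good D φ)
include hφ

theorem commute_iff (p q : Pair) :
    Commute (φ (sw p)) (φ (sw q)) ↔ sw p * sw q = sw q * sw p := by
  refine ⟨fun h => hφ.inj ?_, fun h => (show Commute (sw p) (sw q) from h).map φ⟩
  rw [map_mul, map_mul]
  exact h

/-- The three members commuting with one of the ten. -/
theorem perp_eq (hperp : ∀ d ∈ D, (perp D d).ncard ≤ 3) [Finite G] (p : Pair) :
    perp D (φ (sw p)) = {y | ∃ q : Pair, q ≠ p ∧ sw q * sw p = sw p * sw q ∧ y = φ (sw q)} := by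
  symm
  obtain ⟨a, b, c, hab, hac, hbc, hap, hbp, hcp, ha, hb, hc⟩ := three_disjoint p
  have hinj : ∀ {q q' : Pair}, q ≠ q' → φ (sw q) ≠ φ (sw q') := by
    intro q q' h e
    have e' := hφ.inj e
    have key : ∀ q q' : Pair, sw q = sw q' → q = q' := by decide +kernel
    exact h (key q q' e')
  refine Set.eq_of_subset_of_ncard_le ?_ ?_ (Set.toFinite _)
  · rintro _ ⟨q, hq, hc', rfl⟩
    exact ⟨hφ.mem q, hinj hq, ((hφ.commute_iff q p).2 hc').symm⟩
  · refine (hperp _ (hφ.mem p)).trans ?_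
    rw [← Set.ncard_eq_three.2
      ⟨φ (sw a), φ (sw b), φ (sw c), hinj hab, hinj hac, hinj hbc, rfl⟩]
    refine Set.ncard_le_ncard ?_ (Set.toFinite _)
    rintro _ (rfl | rfl | rfl)
    exacts [⟨a, hap, ha, rfl⟩, ⟨b, hbp, hb, rfl⟩, ⟨c, hcp, hc, rfl⟩]

/-- No member fails to commute with all ten. -/
theorem exists_commute (hD : Cfsg.IsThreeTranspositionSet D)
    (hconj : ∀ g : G, ∀ d ∈ D, g * d * g⁻¹ ∈ D) [Finite G]
    (hperp : ∀ d ∈ D, (perp D d).ncard ≤ 3) {x : G} (hx : x ∈ D) :
    ∃ p, Commute x (φ (sw p)) := by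
  by_contra! hall
  set S : Subgroup (Equiv.Perm (Fin 5)) := (Subgroup.centralizer {x}).comap φ with hS
  have hmemS : ∀ σ, σ ∈ S ↔ Commute (φ σ) x := fun σ => by
    simp [hS, Subgroup.mem_centralizer_singleton_iff, Commute, SemiconjBy, eq_comm]
  have col : ∀ p q : Pair, p ≠ q → sw p * sw q = sw q * sw p →
      φ (sw p * sw q) * x * (φ (sw p * sw q))⁻¹ ∈ perp D x := by
    intro p q hpq hc
    have hne : φ (sw p) ≠ φ (sw q) := fun e => by
      have key : ∀ q q' : Pair, sw q = sw q' → q = q' := by decide +kernel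
      exact hpq (key p q (hφ.inj e))
    obtain ⟨ψ, hψ, e1, e2, e3⟩ := SymFour.exists_injective_of_string hD (hφ.mem p) hx (hφ.mem q) hne
      ((show Commute (sw p) (sw q) from hc).map φ) (fun h => hall p h.symm) (hall q)
    have e : φ (sw p * sw q) * x * (φ (sw p * sw q))⁻¹ = ψ (Equiv.swap 0 3) := by
      rw [map_mul, ← e1, ← e2, ← e3, ← map_mul, ← map_inv, ← map_mul, ← map_mul]
      congr 1
      decide
    refine ⟨hconj _ _ hx, ?_, ?_⟩
    · rw [e, ← e2]
      exact fun h => absurd (hψ h) (by decide)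
    · rw [e, ← e2]
      exact (show Commute (Equiv.swap (1 : Fin 4) 2) (Equiv.swap 0 3) by
        unfold Commute SemiconjBy; decide).map ψ
  -- no involution of the ten-point group centralises `x`
  have noinv : ∀ σ ∈ S, σ * σ = 1 → σ ≠ 1 → False := by
    intro σ hσ h2 h1
    rcases involution_cases σ h2 with h | ⟨p, rfl⟩ | ⟨p, q, hpq, hc, rfl⟩
    · exact h1 h
    · exact hall p ((hmemS _).1 hσ).symm
    · exact (col p q hpq hc).2.1 (by rw [((hmemS _).1 hσ).eq, mul_inv_cancel_right])
  have same : ∀ σ τ : Equiv.Perm (Fin 5), φ σ * x * (φ σ)⁻¹ = φ τ * x * (φ τ)⁻¹ → τ⁻¹ * σ ∈ S := by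
    intro σ τ h
    rw [hmemS, map_mul, map_inv]
    show (φ τ)⁻¹ * φ σ * x = x * ((φ τ)⁻¹ * φ σ)
    calc (φ τ)⁻¹ * φ σ * x = (φ τ)⁻¹ * (φ σ * x * (φ σ)⁻¹) * φ σ := by group
      _ = (φ τ)⁻¹ * (φ τ * x * (φ τ)⁻¹) * φ σ := by rw [h]
      _ = _ := by group
  -- four commuting-pair products have two of their colours equal
  have pick : ∀ e f1 f2 f3 : Equiv.Perm (Fin 5),
      (∀ g ∈ [e, f1, f2, f3], g * g = 1 ∧ φ g * x * (φ g)⁻¹ ∈ perp D x) →
      (∀ g ∈ [f1⁻¹ * f2, f1⁻¹ * f3, f2⁻¹ * f3], g * g = 1 ∧ g ≠ 1) →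
      f1⁻¹ * e ∈ S ∨ f2⁻¹ * e ∈ S ∨ f3⁻¹ * e ∈ S := by
    intro e f1 f2 f3 hin hd
    by_contra! hcon
    have hne : ∀ σ τ : Equiv.Perm (Fin 5), (τ⁻¹ * σ) * (τ⁻¹ * σ) = 1 ∧ τ⁻¹ * σ ≠ 1 →
        φ σ * x * (φ σ)⁻¹ ≠ φ τ * x * (φ τ)⁻¹ := fun σ τ h h' => noinv _ (same σ τ h') h.1 h.2
    have h12 := hne f2 f1 (hd _ (by simp))
    have h13 := hne f3 f1 (hd _ (by simp))
    have h23 := hne f3 f2 (hd _ (by simp))
    have hsub : ({φ f1 * x * (φ f1)⁻¹, φ f2 * x * (φ f2)⁻¹, φ f3 * x * (φ f3)⁻¹} : Set G) ⊆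
        perp D x := by
      rintro _ (rfl | rfl | rfl)
      exacts [(hin f1 (by simp)).2, (hin f2 (by simp)).2, (hin f3 (by simp)).2]
    have heq := Set.eq_of_subset_of_ncard_le hsub
      ((hperp x hx).trans (Set.ncard_eq_three.2
        ⟨_, _, _, Ne.symm h12, Ne.symm h13, Ne.symm h23, rfl⟩).ge) (Set.toFinite _)
    have he := (hin e (by simp)).2
    rw [← heq] at he
    rcases he with he | he | he
    exacts [hcon.1 (same _ _ he), hcon.2.1 (same _ _ he), hcon.2.2 (same _ _ he)]
  have inD : ∀ i j k l : Fin 5, i < j → k < l → i ≠ k → i ≠ l → j ≠ k → j ≠ l →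
      (Equiv.swap i j * Equiv.swap k l) * (Equiv.swap i j * Equiv.swap k l) = 1 ∧
        φ (Equiv.swap i j * Equiv.swap k l) * x * (φ (Equiv.swap i j * Equiv.swap k l))⁻¹ ∈
          perp D x := by
    intro i j k l hij hkl h1 h2 h3 h4
    have key : ∀ i j k l : Fin 5, i ≠ k → i ≠ l → j ≠ k → j ≠ l →
        Equiv.swap i j * Equiv.swap k l = Equiv.swap k l * Equiv.swap i j := by decide +kernel
    have hc := key i j k l h1 h2 h3 h4
    refine ⟨?_, col ⟨(i, j), hij⟩ ⟨(k, l), hkl⟩ (fun e => h1 ?_) hc⟩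
    · calc _ = Equiv.swap i j * (Equiv.swap k l * Equiv.swap i j) * Equiv.swap k l := by group
        _ = Equiv.swap i j * (Equiv.swap i j * Equiv.swap k l) * Equiv.swap k l := by rw [hc]
        _ = 1 := by rw [← mul_assoc, Equiv.swap_mul_self, one_mul, Equiv.swap_mul_self]
    · exact congrArg (fun p : Pair => p.1.1) e
  have step : ∀ g : Equiv.Perm (Fin 5), g ∈ S → ∀ h : Equiv.Perm (Fin 5), h ∈ S →
      ∀ w ∈ [g * h, g * g * h, g * h * h], w * w = 1 → w ≠ 1 → False := by
    intro g hg h hh w hw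
    simp only [List.mem_cons, List.not_mem_nil, or_false] at hw
    rcases hw with rfl | rfl | rfl
    exacts [noinv _ (mul_mem hg hh), noinv _ (mul_mem (mul_mem hg hg) hh),
      noinv _ (mul_mem (mul_mem hg hh) hh)]
  let s : Fin 5 → Fin 5 → Fin 5 → Fin 5 → Equiv.Perm (Fin 5) :=
    fun i j k l => Equiv.swap i j * Equiv.swap k l
  rcases pick (s 1 2 3 4) (s 0 1 3 4) (s 0 3 1 4) (s 0 4 1 3)
      (List.forall_mem_cons.2 ⟨inD 1 2 3 4 (by decide) (by decide) (by decide) (by decide) (by decide) (by decide),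
        List.forall_mem_cons.2 ⟨inD 0 1 3 4 (by decide) (by decide) (by decide) (by decide) (by decide) (by decide),
        List.forall_mem_cons.2 ⟨inD 0 3 1 4 (by decide) (by decide) (by decide) (by decide) (by decide) (by decide),
        List.forall_mem_cons.2 ⟨inD 0 4 1 3 (by decide) (by decide) (by decide) (by decide) (by decide) (by decide),
        by simp⟩⟩⟩⟩)
      (by decide +kernel) with hg | hg | hg
  · rcases pick (s 1 3 2 4) (s 0 1 2 3) (s 0 2 1 3) (s 0 3 1 2)
        (List.forall_mem_cons.2 ⟨inD 1 3 2 4 (by decide) (by decide) (by decide) (by decide) (by decide) (by decide),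
          List.forall_mem_cons.2 ⟨inD 0 1 2 3 (by decide) (by decide) (by decide) (by decide) (by decide) (by decide),
          List.forall_mem_cons.2 ⟨inD 0 2 1 3 (by decide) (by decide) (by decide) (by decide) (by decide) (by decide),
          List.forall_mem_cons.2 ⟨inD 0 3 1 2 (by decide) (by decide) (by decide) (by decide) (by decide) (by decide),
          by simp⟩⟩⟩⟩)
        (by decide +kernel) with hh | hh | hh
    · exact step _ hg _ hh _ (List.mem_cons_of_mem _ (List.mem_cons_of_mem _ (List.mem_cons_self ..)))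
        (by decide +kernel) (by decide +kernel)
    · exact step _ hg _ hh _ (List.mem_cons_of_mem _ (List.mem_cons_self ..))
        (by decide +kernel) (by decide +kernel)
    · exact step _ hg _ hh _ (List.mem_cons_self ..) (by decide +kernel) (by decide +kernel)
  · rcases pick (s 1 4 2 3) (s 0 1 3 4) (s 0 3 1 4) (s 0 4 1 3)
        (List.forall_mem_cons.2 ⟨inD 1 4 2 3 (by decide) (by decide) (by decide) (by decide) (by decide) (by decide),
          List.forall_mem_cons.2 ⟨inD 0 1 3 4 (by decide) (by decide) (by decide) (by decide) (by decide) (by decide),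
          List.forall_mem_cons.2 ⟨inD 0 3 1 4 (by decide) (by decide) (by decide) (by decide) (by decide) (by decide),
          List.forall_mem_cons.2 ⟨inD 0 4 1 3 (by decide) (by decide) (by decide) (by decide) (by decide) (by decide),
          by simp⟩⟩⟩⟩)
        (by decide +kernel) with hh | hh | hh
    · exact step _ hg _ hh _ (List.mem_cons_self ..) (by decide +kernel) (by decide +kernel)
    · exact step _ hg _ hh _ (List.mem_cons_of_mem _ (List.mem_cons_of_mem _ (List.mem_cons_self ..)))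
        (by decide +kernel) (by decide +kernel)
    · exact step _ hg _ hh _ (List.mem_cons_of_mem _ (List.mem_cons_self ..))
        (by decide +kernel) (by decide +kernel)
  · rcases pick (s 1 3 2 4) (s 0 1 3 4) (s 0 3 1 4) (s 0 4 1 3)
        (List.forall_mem_cons.2 ⟨inD 1 3 2 4 (by decide) (by decide) (by decide) (by decide) (by decide) (by decide),
          List.forall_mem_cons.2 ⟨inD 0 1 3 4 (by decide) (by decide) (by decide) (by decide) (by decide) (by decide),
          List.forall_mem_cons.2 ⟨inD 0 3 1 4 (by decide) (by decide) (by decide) (by decide) (by decide) (by decide),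
          List.forall_mem_cons.2 ⟨inD 0 4 1 3 (by decide) (by decide) (by decide) (by decide) (by decide) (by decide),
          by simp⟩⟩⟩⟩)
        (by decide +kernel) with hh | hh | hh
    · exact step _ hg _ hh _ (List.mem_cons_self ..) (by decide +kernel) (by decide +kernel)
    · exact step _ hg _ hh _ (List.mem_cons_of_mem _ (List.mem_cons_self ..))
        (by decide +kernel) (by decide +kernel)
    · exact step _ hg _ hh _ (List.mem_cons_of_mem _ (List.mem_cons_of_mem _ (List.mem_cons_self ..)))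
        (by decide +kernel) (by decide +kernel)

end Good

end CfsgLib.Fischer.SymFive
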