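import Cfsg.Agent.Lib.Fischer.Classes
import Cfsg.Agent.Lib.Fischer.SymFive
import Cfsg.Prelude.Def_FischerSpaces

/-!
3-transposition sets in which the members commuting with a member generate a symmetric group of degree three.
-/
set_option autoImplicit false

namespace CfsgLib.Fischer.LocalThree

variable {G : Type*} [Group G] {D : Set G} {d a b v : G}

/-- The members commuting with a member form one line. -/
def HasLines (D : Set G) : Prop :=
  ∀ d ∈ D, ∃ a ∈ perp D d, ∃ b ∈ perp D d, ¬ Commute a b ∧ perp D d = {a, b, a * b * a}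

theorem perm_three_involutions : ∀ p q r : Equiv.Perm (Fin 3), p * p = 1 → q * q = 1 → r * r = 1 →
    r ≠ 1 → p * q ≠ q * p → r = p ∨ r = q ∨ r = p * q * p := by
  decide +kernel

theorem perm_three_noncomm : ∃ p q : Equiv.Perm (Fin 3), p * q ≠ q * p := by decide

theorem hasLines (hD : Cfsg.IsThreeTranspositionSet D)
    (hconj : ∀ g : G, ∀ d ∈ D, g * d * g⁻¹ ∈ D)
    (hloc : ∀ d ∈ D, Nonempty (↥(Subgroup.closure (perp D d)) ≃* Equiv.Perm (Fin 3))) :
    HasLines D := by
  intro d hd
  obtain ⟨e⟩ := hloc d hd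
  set K := Subgroup.closure (perp D d)
  obtain ⟨a, ha, b, hb, hab⟩ : ∃ a ∈ perp D d, ∃ b ∈ perp D d, ¬ Commute a b := by
    by_contra! h
    haveI := Subgroup.isMulCommutative_closure (k := perp D d) fun x hx y hy => (h x hx y hy).eq
    obtain ⟨p, q, hpq⟩ := perm_three_noncomm
    apply hpq
    have h' := congrArg e (mul_comm' (e.symm p) (e.symm q))
    simpa using h'
  have hac : Commute d a := ha.2.2
  have hbc : Commute d b := hb.2.2
  have hz : a * b * a ∈ perp D d := by
    refine ⟨?_, fun h => ?_, (hac.mul_right hbc).mul_right hac⟩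
    · have := hconj a b hb.1
      rwa [inv_eq hD ha.1] at this
    · have h' : a * (a * b * a) * a = a * d * a := by rw [h]
      rw [show a * (a * b * a) * a = a * a * b * (a * a) by group, sq_eq_one hD ha.1, one_mul,
        mul_one, hac.symm.eq, mul_assoc, sq_eq_one hD ha.1, mul_one] at h'
      exact hb.2.1 h'
  refine ⟨a, ha, b, hb, hab, subset_antisymm (fun r hr => ?_) ?_⟩
  · let lift : ∀ x ∈ perp D d, K := fun x hx => ⟨x, Subgroup.subset_closure hx⟩
    have sq : ∀ x (hx : x ∈ perp D d), e (lift x hx) * e (lift x hx) = 1 := fun x hx => by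
      rw [← map_mul, ← map_one e]
      exact congrArg e (Subtype.ext (sq_eq_one hD hx.1))
    rcases perm_three_involutions _ _ _ (sq a ha) (sq b hb) (sq r hr)
      (fun h => ne_one hD hr.1 (congrArg Subtype.val (e.injective (h.trans (map_one e).symm))))
      (fun h => hab (by
        rw [← map_mul, ← map_mul] at h
        exact congrArg Subtype.val (e.injective h))) with h | h | h
    · exact Or.inl (congrArg Subtype.val (e.injective h))
    · exact Or.inr (Or.inl (congrArg Subtype.val (e.injective h)))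
    · rw [← map_mul, ← map_mul] at h
      exact Or.inr (Or.inr (congrArg Subtype.val (e.injective h)))
  · rintro _ (rfl | rfl | rfl)
    exacts [ha, hb, hz]

variable (hD : Cfsg.IsThreeTranspositionSet D) (hconj : ∀ g : G, ∀ d ∈ D, g * d * g⁻¹ ∈ D)
  (hL : HasLines D)
include hD hconj hL

omit hconj in
theorem line_of_two (hd : d ∈ D) {p q : G} (hp : p ∈ perp D d) (hq : q ∈ perp D d) (hne : p ≠ q) :
    ¬ Commute p q ∧ perp D d = {p, q, p * q * p} := by
  obtain ⟨a, ha, b, hb, hab, he⟩ := hL d hd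
  have haa := sq_eq_one hD ha.1
  have hbb := sq_eq_one hD hb.1
  have hbr := braid hD ha.1 hb.1 hab
  have n1 := not_commute_third_left hD ha.1 hb.1 hab
  have n2 := not_commute_third_right hD ha.1 hb.1 hab
  have n1' : ¬ Commute (a * b * a) a := fun c => n1 c.symm
  have n2' : ¬ Commute (a * b * a) b := fun c => n2 c.symm
  have hba : ¬ Commute b a := fun c => hab c.symm
  have e1 : a * (a * b * a) * a = b := by
    calc a * (a * b * a) * a = a * a * b * (a * a) := by group
      _ = b := by rw [haa, one_mul, mul_one]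
  have e2 : b * (a * b * a) * b = a := by
    calc b * (a * b * a) * b = b * (b * a * b) * b := by rw [hbr]
      _ = b * b * a * (b * b) := by group
      _ = a := by rw [hbb, one_mul, mul_one]
  have e3 : a * b * a * a * (a * b * a) = b := by
    calc a * b * a * a * (a * b * a) = a * b * (a * a) * (a * (b * a)) := by group
      _ = a * (b * a * b) * a := by rw [haa]; group
      _ = a * (a * b * a) * a := by rw [hbr]
      _ = b := e1
  have e4 : a * b * a * b * (a * b * a) = a := by
    calc a * b * a * b * (a * b * a) = b * a * b * b * (b * a * b) := by rw [hbr]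
      _ = b * a * (b * b) * (b * (a * b)) := by group
      _ = b * (a * b * a) * b := by rw [hbb]; group
      _ = a := e2
  rw [he] at hp hq ⊢
  simp only [Set.mem_insert_iff, Set.mem_singleton_iff] at hp hq
  refine ⟨?_, ?_⟩
  · rcases hp with rfl | rfl | rfl <;> rcases hq with rfl | rfl | rfl <;>
      first | exact absurd rfl hne | assumption
  · ext w
    simp only [Set.mem_insert_iff, Set.mem_singleton_iff]
    rcases hp with rfl | rfl | rfl <;> rcases hq with rfl | rfl | rfl <;>
      first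
      | exact absurd rfl hne
      | (simp only [e1, e2, e3, e4, ← hbr] <;> tauto)

omit hconj in
theorem perp_ncard (hd : d ∈ D) : (perp D d).ncard ≤ 3 := by
  obtain ⟨a, -, b, -, -, he⟩ := hL d hd
  rw [he]
  exact (Set.ncard_insert_le ..).trans (Nat.succ_le_succ
    ((Set.ncard_insert_le ..).trans (by rw [Set.ncard_singleton])))

variable [Finite G]

omit hL in
theorem perp_subset_of_mul_mem {P : Subgroup G} [P.Normal] (hP : IsPGroup 3 P) (hd : d ∈ D)
    (hv : v ∈ D) (h : d * v ∈ P) : perp D d ⊆ perp D v := by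
  rintro e ⟨he, hne, hc⟩
  have hev : e ≠ v := by
    rintro rfl
    exact hne (eq_of_isPGroup_three hD hP hd he h hc).symm
  refine ⟨he, hev, ?_⟩
  by_contra hnc
  have hnc' : ¬ Commute e v := fun c => hnc c.symm
  let π := QuotientGroup.mk' P
  have hdv : π d * π v = 1 := by
    rw [← map_mul]
    exact (QuotientGroup.eq_one_iff _).2 h
  have hv' : π v = π d := by
    rw [eq_inv_of_mul_eq_one_right hdv, ← map_inv, inv_eq hD hd]
  have h2 : (π (e * v)) ^ 2 = 1 := by
    rw [map_mul, hv', ← map_mul, ← map_pow, (sq_mul_iff hD he hd).2 hc.symm, map_one]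
  have h3 : (π (e * v)) ^ 3 = 1 := by
    rw [← map_pow, cube_of_not_commute hD he hv hnc', map_one]
  have h1 : π (e * v) = 1 := by
    rwa [pow_succ, h2, one_mul] at h3
  have hed : e * d ∈ P := by
    rw [← QuotientGroup.eq_one_iff]
    show π (e * d) = 1
    rw [map_mul, ← hv', ← map_mul, h1]
  exact hne (eq_of_isPGroup_three hD hP he hd hed hc.symm)

omit hL in
theorem mul_mem_pCore_of_perp_eq (hd : d ∈ D) (hv : v ∈ D) (h : perp D d = perp D v) :
    d * v ∈ Cfsg.pCore 3 G := by
  set H := Subgroup.closure D with hH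
  set D' : Set H := {x : H | (x : G) ∈ D} with hD'
  have hg : Cfsg.IsThreeTranspositionGroup D' :=
    ⟨restrict hD H, fun g x hx => hconj g x hx, Subgroup.closure_closure_coe_preimage⟩
  haveI : H.Normal := ⟨fun n hn g => by
    induction hn using Subgroup.closure_induction with
    | mem x hx => exact Subgroup.subset_closure (hconj g x hx)
    | one => simp
    | mul p q _ _ hp hq =>
      rw [show g * (p * q) * g⁻¹ = g * p * g⁻¹ * (g * q * g⁻¹) by group]
      exact mul_mem hp hq
    | inv p _ hp =>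
      rw [show g * p⁻¹ * g⁻¹ = (g * p * g⁻¹)⁻¹ by group]
      exact inv_mem hp⟩
  let d' : H := ⟨d, Subgroup.subset_closure hd⟩
  let v' : H := ⟨v, Subgroup.subset_closure hv⟩
  have hiff : ∀ (u : H) (x : H), x ∈ perp D' u ↔ (x : G) ∈ perp D (u : G) := fun u x =>
    ⟨fun hx => ⟨hx.1, fun e => hx.2.1 (Subtype.ext e), hx.2.2.map H.subtype⟩,
      fun hx => ⟨hx.1, fun e => hx.2.1 (congrArg Subtype.val e), Subtype.ext hx.2.2⟩⟩
  have hW : SameW D' d' v' := ⟨hv, Set.ext fun x => by rw [hiff, hiff, show (d' : G) = d from rfl, h]⟩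
  exact CfsgLib.Cores.map_subtype_pCore_le (Subgroup.Normal.isSubnormal inferInstance)
    ⟨d' * v', hW.mem_pCore hg hd, rfl⟩

/-- In the bipartite case nothing lies outside the six. -/
theorem six_of_shared (hcard : ∀ d ∈ D, Nat.card (Cfsg.pCore 3 ↥(Subgroup.centralizer ({d} : Set G))) = 3)
    (hd : d ∈ D) (ha : a ∈ perp D d) (hb : b ∈ perp D d) (hab : b ≠ a) (hv : v ∈ perp D a)
    (hvd : v ≠ d) (hvb : Commute v b) :
    D = perp D d ∪ perp D a ∧ (∀ p ∈ perp D d, ∀ q ∈ perp D a, Commute p q) := by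
  have had : d ∈ perp D a := ⟨hd, ha.2.1.symm, ha.2.2.symm⟩
  have hvb' : v ≠ b := by
    rintro rfl
    exact (line_of_two hD hL hd ha hb hab.symm).1 hv.2.2
  have hdv := (line_of_two hD hL hd ha hb hab.symm).2
  have hav := (line_of_two hD hL ha.1 had hv hvd.symm).2
  have hperp_v : perp D v = perp D d := by
    rw [hdv]
    exact (line_of_two hD hL hv.1 ⟨ha.1, hv.2.1.symm, hv.2.2.symm⟩
      ⟨hb.1, hvb'.symm, hvb⟩ hab.symm).2
  have hperp_b : perp D b = perp D a := by
    rw [hav]
    exact (line_of_two hD hL hb.1 ⟨hd, hb.2.1.symm, hb.2.2.symm⟩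
      ⟨hv.1, hvb', hvb.symm⟩ hvd.symm).2
  have third : ∀ {p q r : G}, r ∈ D → p ∈ perp D r → q ∈ perp D r → p ≠ q →
      Commute p q → False := fun hr hp hq hne hc => (line_of_two hD hL hr hp hq hne).1 hc
  have hL1 : ∀ u ∈ perp D a, perp D u = perp D d := by
    intro u hu
    by_cases hud : u = d
    · rw [hud]
    have hub : u ∈ perp D b := hperp_b.symm ▸ hu
    rw [hdv]
    exact (line_of_two hD hL hu.1 ⟨ha.1, hu.2.1.symm, hu.2.2.symm⟩
      ⟨hb.1, hub.2.1.symm, hub.2.2.symm⟩ hab.symm).2
  have hL2 : ∀ u ∈ perp D d, perp D u = perp D a := by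
    intro u hu
    have huv : u ∈ perp D v := hperp_v.symm ▸ hu
    rw [hav]
    exact (line_of_two hD hL hu.1 ⟨hd, hu.2.1.symm, hu.2.2.symm⟩
      ⟨hv.1, huv.2.1.symm, huv.2.2.symm⟩ hvd.symm).2
  have hcomm : ∀ p ∈ perp D d, ∀ q ∈ perp D a, Commute p q := fun p hp q hq =>
    ((hL2 p hp).symm ▸ hq : q ∈ perp D p).2.2
  refine ⟨subset_antisymm (fun x hx => ?_) ?_, hcomm⟩
  swap
  · rintro x (h | h)
    exacts [h.1, h.1]
  by_contra hout
  rw [Set.mem_union, not_or] at hout
  have hnc : ∀ u, u ∈ perp D d ∪ perp D a → ¬ Commute u x := by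
    rintro u (hu | hu) hc
    · by_cases hxu : x = u
      · exact hout.1 (hxu ▸ hu)
      · exact hout.2 ((hL2 u hu) ▸ (⟨hx, hxu, hc⟩ : x ∈ perp D u))
    · by_cases hxu : x = u
      · exact hout.2 (hxu ▸ hu)
      · exact hout.1 ((hL1 u hu) ▸ (⟨hx, hxu, hc⟩ : x ∈ perp D u))
  have hxd : ¬ Commute d x := hnc d (Or.inr had)
  have hxa : ¬ Commute a x := hnc a (Or.inl ha)
  haveI : Fact (Nat.Prime 3) := ⟨Nat.prime_three⟩
  haveI := CfsgLib.Cores.pCore_characteristic 3 G
  set P := Cfsg.pCore 3 G with hP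
  have hPg : IsPGroup 3 P := CfsgLib.Cores.isPGroup_pCore 3 G
  have haa := sq_eq_one hD ha.1
  have hdd := sq_eq_one hD hd
  have hdi := inv_eq hD hd
  have hz : d * v ∈ P := mul_mem_pCore_of_perp_eq hD hconj hd hv.1 hperp_v.symm
  have hw : a * b ∈ P := mul_mem_pCore_of_perp_eq hD hconj ha.1 hb.1 hperp_b.symm
  have hnvd : ¬ Commute d v := (line_of_two hD hL ha.1 had hv hvd.symm).1
  have hnab : ¬ Commute a b := (line_of_two hD hL hd ha hb hab.symm).1
  set z := d * v with hzdef
  set w := a * b with hwdef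
  have hz3 : z ^ 3 = 1 := cube_of_not_commute hD hd hv.1 hnvd
  have hwd : Commute w d := ha.2.2.symm.mul_left hb.2.2.symm
  have hza : Commute z a := ha.2.2.mul_left hv.2.2.symm
  have hzw : Commute z w := hza.mul_right (hb.2.2.mul_left hvb)
  have hfix : ∀ p ∈ P, Commute p d → p ∈ Subgroup.zpowers w := by
    intro p hp hpd
    set C := Subgroup.centralizer ({d} : Set G) with hC
    have hn : (P.subgroupOf C).Normal := Subgroup.Normal.subgroupOf inferInstance C
    have hle : P.subgroupOf C ≤ Cfsg.pCore 3 C := CfsgLib.Cores.le_pCore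
      (hPg.comap_of_injective C.subtype C.subtype_injective)
    have memC : ∀ q, Commute q d → q ∈ C := fun q hq =>
      Subgroup.mem_centralizer_singleton_iff.2 hq.eq
    let W : C := ⟨w, memC w hwd⟩
    have hWo : orderOf W = 3 := by
      rw [← Subgroup.orderOf_coe]
      exact orderOf_mul hD ha.1 hb.1 hnab
    have hWle : Subgroup.zpowers W ≤ Cfsg.pCore 3 C :=
      Subgroup.zpowers_le.2 (hle (Subgroup.mem_subgroupOf.2 hw))
    have heq := Subgroup.eq_of_le_of_card_ge hWle (by rw [Nat.card_zpowers, hWo, hcard d hd])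
    have hpC : (⟨p, memC p hpd⟩ : C) ∈ Subgroup.zpowers W :=
      heq ▸ hle (Subgroup.mem_subgroupOf.2 hp)
    obtain ⟨k, hk⟩ := hpC
    exact ⟨k, by simpa [W] using congrArg Subtype.val hk⟩
  have hline : perp D a = {d, v, d * v * d} := hav
  have hgen : ∀ p ∈ P, ∃ i j : ℤ, p = z ^ i * w ^ j := by
    intro p hp
    have hv'D : p * d * p⁻¹ ∈ D := hconj p d hd
    have hdP : d * (p * d * p⁻¹) ∈ P := by
      rw [show d * (p * d * p⁻¹) = d * p * d⁻¹ * p⁻¹ by rw [hdi]; group]
      exact mul_mem ((inferInstance : P.Normal).conj_mem p hp d) (inv_mem hp)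
    have hmem : p * d * p⁻¹ ∈ perp D a := by
      have := perp_subset_of_mul_mem hD hconj hPg hd hv'D hdP ha
      exact ⟨hv'D, this.2.1.symm, this.2.2.symm⟩
    have conjz : ∃ i : ℤ, p * d * p⁻¹ = z ^ i * d * (z ^ i)⁻¹ := by
      have hbr := braid hD hd hv.1 hnvd
      rw [hline] at hmem
      simp only [Set.mem_insert_iff, Set.mem_singleton_iff] at hmem
      rcases hmem with h | h | h
      · exact ⟨0, by rw [h]; simp⟩
      · refine ⟨1, ?_⟩
        rw [h, zpow_one, hzdef, mul_inv_rev, inv_eq hD hv.1, hdi]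
        calc v = d * (d * v * d) * d := by
              rw [show d * (d * v * d) * d = d * d * v * (d * d) by group, hdd, one_mul, mul_one]
          _ = d * (v * d * v) * d := by rw [hbr]
          _ = _ := by group
      · refine ⟨-1, ?_⟩
        rw [h, zpow_neg_one, inv_inv, hzdef, mul_inv_rev, inv_eq hD hv.1, hdi]
        calc d * v * d = v * d * v := hbr
          _ = v * (d * d) * (d * v) := by rw [hdd, mul_one]; group
          _ = _ := by group
    obtain ⟨i, hi⟩ := conjz
    have hq : (z ^ i)⁻¹ * p ∈ P := mul_mem (inv_mem (zpow_mem hz i)) hp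
    obtain ⟨j, hj⟩ := hfix _ hq (by
      show (z ^ i)⁻¹ * p * d = d * ((z ^ i)⁻¹ * p)
      calc (z ^ i)⁻¹ * p * d = (z ^ i)⁻¹ * (p * d * p⁻¹) * p := by group
        _ = _ := by rw [hi]; group)
    exact ⟨i, j, by rw [show w ^ j = (z ^ i)⁻¹ * p from hj, mul_inv_cancel_left]⟩
  have hdz : d * z * d = z⁻¹ := by
    rw [hzdef, mul_inv_rev, hdi, inv_eq hD hv.1]
    calc d * (d * v) * d = d * d * v * d := by group
      _ = v * d := by rw [hdd, one_mul]
  have hdw : d * w * d = w := by rw [← hwd.eq, mul_assoc, hdd, mul_one]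
  have haw : a * w * a = w⁻¹ := by
    rw [hwdef, mul_inv_rev, inv_eq hD ha.1, inv_eq hD hb.1]
    calc a * (a * b) * a = a * a * b * a := by group
      _ = b * a := by rw [haa, one_mul]
  have haz : a * z * a = z := by rw [← hza.eq, mul_assoc, haa, mul_one]
  have key : ∀ p ∈ P, a * p * a = (d * p * d)⁻¹ := by
    intro p hp
    obtain ⟨i, j, rfl⟩ := hgen p hp
    have cd : ∀ u (k : ℤ), d * u ^ k * d = (d * u * d) ^ k := fun u k => by
      have := (conj_zpow (a := d) (b := u) (i := k)).symm
      rwa [hdi] at this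
    have ca : ∀ u (k : ℤ), a * u ^ k * a = (a * u * a) ^ k := fun u k => by
      have := (conj_zpow (a := a) (b := u) (i := k)).symm
      rwa [inv_eq hD ha.1] at this
    have e1 : ∀ g h : G, a * (g * h) * a = a * g * a * (a * h * a) := fun g h => by
      calc a * (g * h) * a = a * g * (a * a) * h * a := by rw [haa]; group
        _ = _ := by group
    have e2 : ∀ g h : G, d * (g * h) * d = d * g * d * (d * h * d) := fun g h => by
      calc d * (g * h) * d = d * g * (d * d) * h * d := by rw [hdd]; group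
        _ = _ := by group
    rw [e1, e2, ca, ca, cd, cd, haz, haw, hdz, hdw, inv_zpow, inv_zpow, mul_inv_rev, inv_inv]
    exact ((hzw.zpow_zpow i j).inv_right).eq
  have hxx := sq_eq_one hD hx
  have hconjP : ∀ g, g * g = 1 → ∀ p ∈ P, g * p * g ∈ P := by
    intro g hg p hp
    have := (inferInstance : P.Normal).conj_mem p hp g
    rwa [inv_eq_of_mul_eq_one_right hg] at this
  have inv2 : ∀ g : G, g * g = 1 → ∀ p, g * p⁻¹ * g = (g * p * g)⁻¹ := fun g hg p => by
    rw [mul_inv_rev, mul_inv_rev, inv_eq_of_mul_eq_one_right hg]; group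
  have b1 : x * d * x = d * x * d := braid hD hx hd fun c => hxd c.symm
  have b2 : x * a * x = a * x * a := braid hD hx ha.1 fun c => hxa c.symm
  set q := x * (d * (x * z * x) * d) * x with hqdef
  have q1 : x * (a * (x * z * x) * a) * x = q⁻¹ := by
    rw [key _ (hconjP x hxx z hz), inv2 x hxx]
  have q2 : x * (a * (x * z * x) * a) * x = q := by
    calc x * (a * (x * z * x) * a) * x = (x * a * x) * z * (x * a * x) := by group
      _ = a * (x * (a * z * a) * x) * a := by rw [b2]; group
      _ = a * (x * (d * z * d)⁻¹ * x) * a := by rw [key z hz]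
      _ = (a * (x * (d * z * d) * x) * a)⁻¹ := by rw [inv2 x hxx, inv2 a haa]
      _ = d * (x * (d * z * d) * x) * d := by
          rw [key _ (hconjP x hxx _ (hconjP d hdd z hz)), inv_inv]
      _ = (d * x * d) * z * (d * x * d) := by group
      _ = (x * d * x) * z * (x * d * x) := by rw [b1]
      _ = q := by rw [hqdef]; group
  have hq2 : q * q = 1 := by
    nth_rw 1 [← q2]
    rw [q1, inv_mul_cancel]
  have hq3 : q ^ 3 = 1 := by
    have hc : ∀ g : G, g * g = 1 → ∀ p : G, p ^ 3 = 1 → (g * p * g) ^ 3 = 1 := by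
      intro g hg p hp
      nth_rw 2 [← inv_eq_of_mul_eq_one_right hg]
      rw [conj_pow, hp, mul_one, mul_inv_cancel]
    exact hc x hxx _ (hc d hdd _ (hc x hxx z hz3))
  have hq1 : q = 1 := by
    rwa [pow_succ, pow_two, hq2, one_mul] at hq3
  have hz1 : z = 1 := by
    have e : z = x * d * x * q * (x * d * x) := by
      rw [hqdef]
      simp only [mul_assoc]
      simp only [← mul_assoc x x, ← mul_assoc d d, hxx, hdd, one_mul]
      simp only [hxx, hdd, mul_one, ← mul_assoc x x, ← mul_assoc d d, one_mul]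
    rw [e, hq1, mul_one, mul_assoc (x * d) x, ← mul_assoc x (x * d), ← mul_assoc x x, hxx, one_mul,
      mul_assoc x d, ← mul_assoc d d, hdd, one_mul, hxx]
  have hv1 : d = v := by
    rw [hzdef, mul_eq_one_iff_inv_eq, hdi] at hz1
    exact hz1
  exact hvd hv1.symm

omit hD hconj hL [Finite G] in
theorem perm_three_center : ∀ σ : Equiv.Perm (Fin 3), (∀ τ, σ * τ = τ * σ) → σ = 1 := by
  decide +kernel

end CfsgLib.Fischer.LocalThree

namespace CfsgLib.Fischer.LocalThree

variable {G : Type*} [Group G] {D : Set G}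

/-- The subgroup generated by the class is one of the two groups. -/
theorem main [Finite G] (hD : Cfsg.IsThreeTranspositionSet D)
    (hconj : ∀ g : G, ∀ d ∈ D, g * d * g⁻¹ ∈ D) (hne : D.Nonempty)
    (hloc : ∀ d ∈ D, Nonempty (↥(Subgroup.closure (perp D d)) ≃* Equiv.Perm (Fin 3)))
    (hcard : ∀ d ∈ D, Nat.card (Cfsg.pCore 3 ↥(Subgroup.centralizer ({d} : Set G))) = 3) :
    Nonempty (↥(Subgroup.closure D) ≃* Equiv.Perm (Fin 5)) ∨
      Nonempty (↥(Subgroup.closure D) ≃* Equiv.Perm (Fin 3) × Equiv.Perm (Fin 3)) := by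
  have hL := hasLines hD hconj hloc
  obtain ⟨d, hd⟩ := hne
  obtain ⟨a, ha, b, hb, hab, -⟩ := hL d hd
  have hba : b ≠ a := fun e => hab (by rw [e])
  obtain ⟨v, hv, hvd⟩ : ∃ v ∈ perp D a, v ≠ d := by
    obtain ⟨p, hp, q, hq, hpq, -⟩ := hL a ha.1
    by_cases h : p = d
    · exact ⟨q, hq, fun e => hpq (by rw [h, e])⟩
    · exact ⟨p, hp, h⟩
  by_cases hvb : Commute v b
  · right
    obtain ⟨hDeq, hcomm⟩ := six_of_shared hD hconj hL hcard hd ha hb hba hv hvd hvb
    obtain ⟨e1⟩ := hloc d hd
    obtain ⟨e2⟩ := hloc a ha.1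
    set K1 := Subgroup.closure (perp D d) with hK1
    set K2 := Subgroup.closure (perp D a) with hK2
    have h12 : ∀ g ∈ K1, ∀ h ∈ K2, Commute g h := by
      have hle : K1 ≤ Subgroup.centralizer (K2 : Set G) := by
        rw [hK2, Subgroup.centralizer_closure, hK1, Subgroup.closure_le]
        intro p hp q hq
        exact (hcomm p hp q hq).eq.symm
      exact fun g hg h hh => (hle hg h hh).symm
    let f : ↥K1 × ↥K2 →* G :=
      MonoidHom.noncommCoprod K1.subtype K2.subtype fun g h => h12 g.1 g.2 h.1 h.2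
    have hrange : f.range = Subgroup.closure D := by
      refine (MonoidHom.noncommCoprod_range ..).trans ?_
      rw [Subgroup.range_subtype, Subgroup.range_subtype, hK1, hK2,
        ← Subgroup.closure_union, ← hDeq]
    have hf : Function.Injective f := by
      rw [injective_iff_map_eq_one]
      rintro ⟨g, h⟩ hgh
      have hgh' : (g : G) * h = 1 := hgh
      have hg2 : (g : G) ∈ K2 := by
        rw [eq_inv_of_mul_eq_one_left hgh']
        exact inv_mem h.2
      have hg1 : g = 1 := by
        apply e1.injective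
        rw [map_one]
        refine perm_three_center _ fun τ => ?_
        have hc : Commute g (e1.symm τ) :=
          Subtype.ext (h12 (e1.symm τ : G) (e1.symm τ).2 g hg2).eq.symm
        simpa using congrArg e1 hc.eq
      subst hg1
      have hh1 : h = 1 := Subtype.ext (by simpa using hgh')
      rw [hh1]
      rfl
    exact ⟨(MulEquiv.subgroupCongr hrange.symm).trans
      ((MonoidHom.ofInjective hf).symm.trans (MulEquiv.prodCongr e1 e2))⟩
  · left
    have hnvd : ¬ Commute d v := (line_of_two hD hL ha.1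
      ⟨hd, ha.2.1.symm, ha.2.2.symm⟩ hv hvd.symm).1
    have hba' : ¬ Commute b a := fun c => hab c.symm
    obtain ⟨φ, hφ, -, -⟩ := SymFive.exists_good hD hconj hd hv.1 hb.1 ha.1 hnvd hvb hba'
      hb.2.2 ha.2.2 hv.2.2.symm
    have hperp : ∀ d ∈ D, (perp D d).ncard ≤ 3 := fun d hd => perp_ncard hD hL hd
    have hrange : φ.range = Subgroup.closure D := by
      refine le_antisymm ?_ ((Subgroup.closure_le _).2 fun x hx => ?_)
      · rw [MonoidHom.range_eq_map, ← Equiv.Perm.closure_isSwap, MonoidHom.map_closure,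
          Subgroup.closure_le]
        rintro _ ⟨σ, ⟨i, j, hij, rfl⟩, rfl⟩
        apply Subgroup.subset_closure
        rcases lt_or_gt_of_ne hij with h | h
        · exact hφ.mem ⟨(i, j), h⟩
        · rw [Equiv.swap_comm]
          exact hφ.mem ⟨(j, i), h⟩
      · obtain ⟨p, hp⟩ := hφ.exists_commute hD hconj hperp hx
        by_cases hxp : x = φ (SymFive.sw p)
        · exact ⟨_, hxp.symm⟩
        · have hxm : x ∈ perp D (φ (SymFive.sw p)) := ⟨hx, hxp, hp.symm⟩
          rw [hφ.perp_eq hperp p] at hxm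
          obtain ⟨q, -, -, rfl⟩ := hxm
          exact ⟨_, rfl⟩
    exact ⟨(MulEquiv.subgroupCongr hrange.symm).trans (MonoidHom.ofInjective hφ.inj).symm⟩

end CfsgLib.Fischer.LocalThree
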