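import Cfsg.Agent.Lib.Parabolic.OrthBasic
import Mathlib.GroupTheory.Commutator.Basic

/-!
Vanishing of the first cohomology of `Ω(Q)` on the natural module over the field with two elements, from a
certificate: a list of roots reaching all non-singular vectors, a basis along which reflections move any
isometry to the identity, two generators, the first fixed-point-free, and relations between them.
Vectors are encoded as bit strings.
-/

set_option autoImplicit false
set_option linter.unusedSectionVars false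

namespace CfsgLib.Fischer.OrthCocycle

open CfsgLib.OrthGen
open scoped commutatorElement

/-- Certificate data. -/
structure Cert where
  basis : List ℕ
  s₀ : ℕ
  rest : List ℕ
  ent : List (ℕ × ℕ × ℕ)
  wa : List ℕ
  wu : List ℕ
  words : List (List Bool)
  rels : List (List Bool)

section Code

variable (n : ℕ) (q : ℕ → Bool)

/-- Polar form on codes. -/
def bb (x y : ℕ) : Bool := (q (x ^^^ y) != q x) != q y

/-- Reflection on codes. -/
def refC (v x : ℕ) : ℕ := if bb q v x then x ^^^ v else x

/-- Non-singular code. -/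
def rootb (v : ℕ) : Bool := decide (v < 2 ^ n) && q v

/-- Action of a word. -/
def actW (w : List ℕ) (x : ℕ) : ℕ := w.foldr (refC q) x

/-- Equality of two words on the unit vectors. -/
def eqw (w w' : List ℕ) : Bool := (List.range n).all fun i => actW q w (2 ^ i) == actW q w' (2 ^ i)

/-- All non-singular vectors are reached. -/
def reachOK (S : List ℕ) : List (ℕ × ℕ × ℕ) → List ℕ → Bool
  | [], known => (List.range (2 ^ n)).all fun x => !q x || known.contains x
  | (v, p, s) :: r, known =>
    rootb n q v && known.contains p && S.contains s && eqw n q [v] [s, p, s] &&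
      reachOK S r (v :: known)

/-- A reflection fixing `P` and moving `w` to `t`. -/
def mv (P : List ℕ) (w t : ℕ) : Bool :=
  rootb n q (w ^^^ t) && refC q (w ^^^ t) w == t && P.all fun p => refC q (w ^^^ t) p == p

/-- A possible image of `s`. -/
def cand (sp : List ℕ) (s w : ℕ) : Bool :=
  q w && !sp.contains w && sp.all fun p => bb q w p == bb q s p

/-- Every isometry can be moved to the identity along the basis. -/
def chainOK : List ℕ → List ℕ → Bool
  | sp, [] => (List.range n).all fun i => sp.contains (2 ^ i)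
  | sp, s :: r =>
    rootb n q s && !sp.contains s &&
      ((List.range (2 ^ n)).all fun w => !cand q sp s w || w == s || mv n q sp w s ||
        (List.range (2 ^ n)).any fun z => mv n q sp w z && mv n q sp z s) &&
      chainOK (sp ++ sp.map fun x => x ^^^ s) r

/-- A word made of adjacent pairs. -/
def adjW : List ℕ → Bool
  | [] => true
  | [_] => false
  | u :: v :: r => rootb n q u && rootb n q v && eqw n q [v, u, v, u] [u, v] && adjW r

/-- A word in the two generators as a word in roots. -/
def expand (c : Cert) (l : List Bool) : List ℕ := l.flatMap fun b => if b then c.wu else c.wa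

/-- Value of the cocycle with value `0` at the first generator and `y` at the second. -/
def val (c : Cert) (y : ℕ) : List Bool → ℕ
  | [] => 0
  | b :: r => (if b then y else 0) ^^^ actW q (if b then c.wu else c.wa) (val c y r)

/-- The whole check. -/
def checkCert (c : Cert) : Bool :=
  rootb n q c.s₀ && (c.rest.all (rootb n q)) && reachOK n q (c.s₀ :: c.rest) c.ent (c.s₀ :: c.rest) &&
  chainOK n q [0] c.basis && adjW n q c.wa && adjW n q c.wu &&
  c.rest.length == c.words.length &&
  ((c.rest.zip c.words).all fun p => eqw n q [c.s₀, p.1] (expand c p.2)) &&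
  ((List.range (2 ^ n)).all fun x => x == 0 || actW q c.wa x != x) &&
  (c.rels.all fun r => eqw n q (expand c r) []) &&
  ((List.range (2 ^ n)).all fun y => y == 0 || c.rels.any fun r => val q c y r != 0)

end Code

variable {n : ℕ} {ι : Type} [Fintype ι] [DecidableEq ι] (e : ι ≃ Fin n)

/-- A bit as a scalar. -/
def bit₂ (b : Bool) : ZMod 2 := if b then 1 else 0

/-- Decoding a bit string. -/
def dec (x : ℕ) : ι → ZMod 2 := fun i => bit₂ (x.testBit (e i))

lemma bit₂_xor (a b : Bool) : bit₂ (a != b) = bit₂ a + bit₂ b := by cases a <;> cases b <;> decide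

lemma dec_xor (x y : ℕ) : dec e (x ^^^ y) = dec e x + dec e y := by
  funext i
  simp only [dec, Pi.add_apply, Nat.testBit_xor]
  rcases x.testBit (e i) <;> rcases y.testBit (e i) <;> decide

lemma dec_zero : dec e 0 = 0 := by
  funext i; simp [dec, bit₂]

lemma exists_code (v : ι → ZMod 2) : ∃ x < 2 ^ n, dec e x = v := by
  refine ⟨Nat.ofBits fun i : Fin n => decide (v (e.symm i) = 1), Nat.ofBits_lt_two_pow _, ?_⟩
  funext i
  rw [dec, Nat.testBit_ofBits_lt _ _ (e i).isLt]
  simp only [Fin.eta, Equiv.symm_apply_apply, bit₂]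
  have : ∀ a : ZMod 2, (if decide (a = 1) = true then (1 : ZMod 2) else 0) = a := by decide
  exact this _

lemma dec_inj {x y : ℕ} (hx : x < 2 ^ n) (hy : y < 2 ^ n) (h : dec e x = dec e y) : x = y := by
  apply Nat.eq_of_testBit_eq
  intro i
  by_cases hi : i < n
  · have h' := congrFun h (e.symm ⟨i, hi⟩)
    simp only [dec, Equiv.apply_symm_apply] at h'
    revert h'
    rcases x.testBit i <;> rcases y.testBit i <;> decide
  · push Not at hi
    rw [Nat.testBit_lt_two_pow (hx.trans_le (Nat.pow_le_pow_right two_pos hi)),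
      Nat.testBit_lt_two_pow (hy.trans_le (Nat.pow_le_pow_right two_pos hi))]

lemma dec_two_pow (i : ι) : dec e (2 ^ (e i : ℕ)) = Pi.single i 1 := by
  funext j
  rcases eq_or_ne j i with rfl | h
  · simp [dec, bit₂, Nat.testBit_two_pow]
  · have : (e i : ℕ) ≠ (e j : ℕ) := fun he => h (e.injective (Fin.ext he.symm))
    simp [dec, bit₂, Nat.testBit_two_pow, h, this]

variable (Q : QuadraticForm (ZMod 2) (ι → ZMod 2))

lemma two_zero : (2 : ZMod 2) = 0 := rfl

/-- The reflection in a vector with `Q v = 1`. -/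
def reflTwo (v : ι → ZMod 2) (hv : Q v = 1) : Cfsg.isometryGroup (ZMod 2) (⇑Q) :=
  mkIso Q (1 + Matrix.vecMulVec v (Cfsg.polarVec (⇑Q) v)) (1 + Matrix.vecMulVec v (Cfsg.polarVec (⇑Q) v))
    (Matrix.ext_of_mulVec_single fun i => by
      simp only [← Matrix.mulVec_mulVec, Matrix.add_mulVec, Matrix.one_mulVec, Matrix.mulVec_add,
        Matrix.vecMulVec_mulVec, polarVec_dotProduct, op_smul_eq_smul, Matrix.mulVec_smul, pf_self,
        two_zero, zero_mul, zero_smul]
      funext j
      simp only [Pi.add_apply, Pi.zero_apply, smul_zero, add_zero]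
      grind)
    (Matrix.ext_of_mulVec_single fun i => by
      simp only [← Matrix.mulVec_mulVec, Matrix.add_mulVec, Matrix.one_mulVec, Matrix.mulVec_add,
        Matrix.vecMulVec_mulVec, polarVec_dotProduct, op_smul_eq_smul, Matrix.mulVec_smul, pf_self,
        two_zero, zero_mul, zero_smul]
      funext j
      simp only [Pi.add_apply, Pi.zero_apply, smul_zero, add_zero]
      grind)
    (fun x => by
      rw [Matrix.add_mulVec, Matrix.one_mulVec, Matrix.vecMulVec_mulVec, polarVec_dotProduct, op_smul_eq_smul,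
        Q_add, Q_smul, hv]
      simp only [pf, QuadraticMap.polar_smul_right, smul_eq_mul, QuadraticMap.polar_comm (⇑Q) x v]
      have : ∀ a b : ZMod 2, a + b * b * 1 + b * b = a := by decide
      exact this _ _)

lemma act_reflTwo (v : ι → ZMod 2) (hv : Q v = 1) (x : ι → ZMod 2) :
    act Q (reflTwo Q v hv) x = x + pf Q v x • v := by
  rw [act, reflTwo, coe_mkIso, Matrix.add_mulVec, Matrix.one_mulVec, Matrix.vecMulVec_mulVec,
    polarVec_dotProduct, op_smul_eq_smul]

open Classical in
/-- The reflection of a code. -/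
noncomputable def R (v : ℕ) : Cfsg.isometryGroup (ZMod 2) (⇑Q) :=
  if h : Q (dec e v) = 1 then reflTwo Q (dec e v) h else 1

/-- The product of a word. -/
noncomputable def RW (w : List ℕ) : Cfsg.isometryGroup (ZMod 2) (⇑Q) := (w.map (R e Q)).prod

variable {q : ℕ → Bool}

lemma refC_lt {v x : ℕ} (hv : v < 2 ^ n) (hx : x < 2 ^ n) : refC q v x < 2 ^ n := by
  unfold refC; split_ifs
  · exact Nat.xor_lt_two_pow hx hv
  · exact hx

lemma rootb_lt {v : ℕ} (hv : rootb n q v = true) : v < 2 ^ n := by
  simp only [rootb, Bool.and_eq_true, decide_eq_true_eq] at hv; exact hv.1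

variable {Q} (hq : ∀ x < 2 ^ n, Q (dec e x) = bit₂ (q x))

include hq

lemma pf_dec {x y : ℕ} (hx : x < 2 ^ n) (hy : y < 2 ^ n) :
    pf Q (dec e x) (dec e y) = bit₂ (bb q x y) := by
  rw [pf, QuadraticMap.polar, ← dec_xor, hq _ (Nat.xor_lt_two_pow hx hy), hq _ hx, hq _ hy, bb]
  rcases q (x ^^^ y) <;> rcases q x <;> rcases q y <;> decide

lemma Q_root {v : ℕ} (hv : rootb n q v = true) : Q (dec e v) = 1 := by
  simp only [rootb, Bool.and_eq_true, decide_eq_true_eq] at hv
  rw [hq v hv.1, hv.2]; rfl

lemma act_R {v x : ℕ} (hv : rootb n q v = true) (hx : x < 2 ^ n) :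
    act Q (R e Q v) (dec e x) = dec e (refC q v x) := by
  rw [R, dif_pos (Q_root e hq hv), act_reflTwo, pf_dec e hq (rootb_lt hv) hx, refC]
  rcases bb q v x
  · simp [bit₂]
  · simp [bit₂, dec_xor]

lemma act_RW {w : List ℕ} (hw : ∀ v ∈ w, rootb n q v = true) {x : ℕ} (hx : x < 2 ^ n) :
    actW q w x < 2 ^ n ∧ act Q (RW e Q w) (dec e x) = dec e (actW q w x) := by
  induction w with
  | nil => exact ⟨hx, act_one _⟩
  | cons v w ih =>
    obtain ⟨h1, h2⟩ := ih fun u hu => hw u (List.mem_cons_of_mem _ hu)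
    refine ⟨refC_lt (rootb_lt (hw v (List.mem_cons_self ..))) h1, ?_⟩
    show act Q (((v :: w).map (R e Q)).prod) _ = _
    rw [List.map_cons, List.prod_cons, act_mul, show act Q ((w.map (R e Q)).prod) (dec e x) = _ from h2,
      act_R e hq (hw v (List.mem_cons_self ..)) h1]
    rfl

lemma RW_eq {w w' : List ℕ} (hw : ∀ v ∈ w, rootb n q v = true) (hw' : ∀ v ∈ w', rootb n q v = true)
    (h : eqw n q w w' = true) : RW e Q w = RW e Q w' := by
  apply Subtype.ext
  apply Units.ext
  refine Matrix.ext_of_mulVec_single fun i => ?_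
  show act Q _ _ = act Q _ _
  have hx : 2 ^ (e i : ℕ) < 2 ^ n := Nat.pow_lt_pow_right one_lt_two (e i).isLt
  rw [← dec_two_pow e i, (act_RW e hq hw hx).2, (act_RW e hq hw' hx).2]
  simp only [eqw, List.all_eq_true, beq_iff_eq, List.mem_range] at h
  rw [h _ (e i).isLt]

omit hq in
lemma eqw_sq {v : ℕ} (hv : rootb n q v = true) : eqw n q [v, v] [] = true := by
  simp only [eqw, List.all_eq_true, beq_iff_eq, actW, List.foldr_cons, List.foldr_nil]
  intro i _
  unfold refC
  by_cases h : bb q v (2 ^ i) = true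
  · have h' : bb q v (2 ^ i ^^^ v) = true := by
      revert h
      simp only [bb, ← Nat.xor_assoc, Nat.xor_comm (2 ^ i) v]
      simp only [rootb, Bool.and_eq_true] at hv
      rw [Nat.xor_self, Nat.zero_xor, hv.2]
      rcases q (v ^^^ 2 ^ i) <;> rcases q (2 ^ i) <;> decide
    rw [if_pos h, if_pos h', Nat.xor_assoc, Nat.xor_self, Nat.xor_zero]
  · rw [if_neg h, if_neg h]

include e in
lemma actW_zero (w : List ℕ) : actW q w 0 = 0 := by
  have h0 : q 0 = false := by
    have h := hq 0 (Nat.two_pow_pos n)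
    rw [dec_zero, QuadraticMap.map_zero] at h
    revert h; rcases q 0 <;> decide
  induction w with
  | nil => rfl
  | cons v w ih =>
    show refC q v (actW q w 0) = 0
    rw [ih, refC, if_neg]
    simp only [bb, Nat.xor_zero]
    rw [h0]; rcases q v <;> decide

lemma reach_sound {S : List ℕ} {W : Subgroup (Cfsg.isometryGroup (ZMod 2) (⇑Q))} (hS : ∀ s ∈ S, rootb n q s = true ∧ R e Q s ∈ W) :
    ∀ (ent : List (ℕ × ℕ × ℕ)) (known : List ℕ), (∀ k ∈ known, rootb n q k = true ∧ R e Q k ∈ W) →
      reachOK n q S ent known = true → ∀ x, rootb n q x = true → R e Q x ∈ W := by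
  intro ent
  induction ent with
  | nil =>
    intro known hk h x hx
    simp only [reachOK, List.all_eq_true, List.mem_range] at h
    have h' := h x (rootb_lt hx)
    simp only [rootb, Bool.and_eq_true] at hx
    simp only [hx.2, Bool.not_true, Bool.false_or, List.contains_iff_mem] at h'
    exact (hk x h').2
  | cons a r ih =>
    obtain ⟨v, p, s⟩ := a
    intro known hk h
    simp only [reachOK, Bool.and_eq_true, List.contains_iff_mem] at h
    obtain ⟨⟨⟨⟨hv, hp⟩, hs⟩, he⟩, hr⟩ := h
    refine ih (v :: known) ?_ hr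
    intro k hk'
    rcases List.mem_cons.1 hk' with rfl | hk'
    · refine ⟨hv, ?_⟩
      have e1 := RW_eq e hq (w := [k]) (w' := [s, p, s]) (by simp [hv])
        (by simp [(hS s hs).1, (hk p hp).1]) he
      simp only [RW, List.map_cons, List.map_nil, List.prod_cons, List.prod_nil, mul_one] at e1
      rw [e1]
      exact mul_mem (hS s hs).2 (mul_mem (hk p hp).2 (hS s hs).2)
    · exact hk k hk'

lemma move_sound {W : Subgroup (Cfsg.isometryGroup (ZMod 2) (⇑Q))} (hW : ∀ v, rootb n q v = true → R e Q v ∈ W) {P : List ℕ}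
    (hP : ∀ p ∈ P, p < 2 ^ n) {w t : ℕ} (hw : w < 2 ^ n) (h : mv n q P w t = true) :
    ∃ r ∈ W, act Q r (dec e w) = dec e t ∧ ∀ p ∈ P, act Q r (dec e p) = dec e p := by
  simp only [mv, Bool.and_eq_true, beq_iff_eq, List.all_eq_true] at h
  obtain ⟨⟨hr, ht⟩, hp⟩ := h
  exact ⟨_, hW _ hr, by rw [act_R e hq hr hw, ht], fun p hp' => by
    rw [act_R e hq hr (hP p hp'), hp p hp']⟩

lemma chain_sound {W : Subgroup (Cfsg.isometryGroup (ZMod 2) (⇑Q))} (hW : ∀ v, rootb n q v = true → R e Q v ∈ W) :
    ∀ (B sp : List ℕ), chainOK n q sp B = true → (∀ x ∈ sp, x < 2 ^ n) →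
      ∀ g : Cfsg.isometryGroup (ZMod 2) (⇑Q), (∀ x ∈ sp, act Q g (dec e x) = dec e x) → g ∈ W := by
  intro B
  induction B with
  | nil =>
    intro sp h _ g hg
    simp only [chainOK, List.all_eq_true, List.mem_range, List.contains_iff_mem] at h
    have : g = 1 := by
      apply Subtype.ext
      apply Units.ext
      refine Matrix.ext_of_mulVec_single fun i => ?_
      show act Q g _ = act Q (1 : Cfsg.isometryGroup (ZMod 2) (⇑Q)) _
      rw [← dec_two_pow e i, act_one, hg _ (h _ (e i).isLt)]
    rw [this]; exact one_mem W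
  | cons s r ih =>
    intro sp h hsp g hgsp
    simp only [chainOK, Bool.and_eq_true, List.all_eq_true, List.mem_range, Bool.not_eq_true',
      Bool.or_eq_true, beq_iff_eq, List.any_eq_true] at h
    obtain ⟨⟨⟨hs, hssp⟩, hstep⟩, hrest⟩ := h
    have hs' := rootb_lt hs
    obtain ⟨w, hw, hwv⟩ := exists_code e (act Q g (dec e s))
    have hqw : q w = true := by
      have := Q_act g (dec e s)
      rw [← hwv, hq w hw, Q_root e hq hs] at this
      revert this; rcases q w <;> decide
    have hbbw : ∀ p ∈ sp, bb q w p = bb q s p := fun p hp => by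
      have := pf_act g (dec e s) (dec e p)
      rw [hgsp p hp, ← hwv, pf_dec e hq hw (hsp p hp), pf_dec e hq hs' (hsp p hp)] at this
      revert this; rcases bb q w p <;> rcases bb q s p <;> decide
    have hwsp : w ∉ sp := fun hm => by
      have : dec e s = dec e w := act_injective g (by rw [hgsp w hm, hwv])
      rw [dec_inj e hs' hw this] at hssp
      simp [hm] at hssp
    have hcand : cand q sp s w = true := by
      simp only [cand, Bool.and_eq_true, hqw, List.all_eq_true, beq_iff_eq, Bool.not_eq_true', true_and]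
      exact ⟨by simp [hwsp], hbbw⟩
    obtain ⟨k, hk, hks, hksp⟩ : ∃ k ∈ W, act Q k (dec e w) = dec e s ∧
        ∀ p ∈ sp, act Q k (dec e p) = dec e p := by
      rcases hstep w hw with ((h1 | h1) | h1) | ⟨z, hz, h1, h2⟩
      · simp [hcand] at h1
      · exact ⟨1, one_mem W, by rw [act_one, h1], fun p _ => act_one _⟩
      · exact move_sound e hq hW hsp hw h1
      · obtain ⟨r1, a1, b1, c1⟩ := move_sound e hq hW hsp hw h1
        obtain ⟨r2, a2, b2, c2⟩ := move_sound e hq hW hsp hz h2
        exact ⟨r2 * r1, mul_mem a2 a1, by rw [act_mul, b1, b2],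
          fun p hp => by rw [act_mul, c1 p hp, c2 p hp]⟩
    have hgk : k * g ∈ W := by
      refine ih (sp ++ sp.map fun x => x ^^^ s) hrest ?_ (k * g) ?_
      · intro x hx
        rcases List.mem_append.1 hx with hx | hx
        · exact hsp x hx
        · obtain ⟨y, hy, rfl⟩ := List.mem_map.1 hx
          exact Nat.xor_lt_two_pow (hsp y hy) hs'
      · intro x hx
        rcases List.mem_append.1 hx with hx | hx
        · rw [act_mul, hgsp x hx, hksp x hx]
        · obtain ⟨y, hy, rfl⟩ := List.mem_map.1 hx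
          rw [dec_xor, act_add, act_mul, hgsp y hy, hksp y hy, act_mul, ← hwv, hks]
    simpa using mul_mem (inv_mem hk) hgk

lemma adjW_sound : ∀ (w : List ℕ), adjW n q w = true →
    (∀ v ∈ w, rootb n q v = true) ∧ RW e Q w ∈ commutator (Cfsg.isometryGroup (ZMod 2) (⇑Q))
  | [], _ => ⟨by simp, by simp [RW]⟩
  | [_], h => by simp [adjW] at h
  | u :: v :: r, h => by
    simp only [adjW, Bool.and_eq_true] at h
    obtain ⟨⟨⟨hu, hv⟩, he⟩, hr⟩ := h
    obtain ⟨h1, h2⟩ := adjW_sound r hr
    refine ⟨by simpa [hu, hv] using h1, ?_⟩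
    have e1 := RW_eq e hq (w := [v, u, v, u]) (w' := [u, v]) (by simp [hu, hv]) (by simp [hu, hv]) he
    have ru : R e Q u * R e Q u = 1 := by
      have := RW_eq e hq (w := [u, u]) (w' := []) (by simp [hu]) (by simp) (eqw_sq hu)
      simpa [RW] using this
    have rv : R e Q v * R e Q v = 1 := by
      have := RW_eq e hq (w := [v, v]) (w' := []) (by simp [hv]) (by simp) (eqw_sq hv)
      simpa [RW] using this
    have e2 : R e Q u * R e Q v = ⁅R e Q v, R e Q u⁆ := by
      rw [commutatorElement_def, inv_eq_of_mul_eq_one_right rv, inv_eq_of_mul_eq_one_right ru]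
      simp only [RW, List.map_cons, List.map_nil, List.prod_cons, List.prod_nil, mul_one] at e1
      rw [← e1]; group
    have e3 : RW e Q (u :: v :: r) = R e Q u * R e Q v * RW e Q r := by
      simp [RW, mul_assoc]
    rw [e3, e2, commutator_def]
    exact mul_mem (Subgroup.commutator_mem_commutator (Subgroup.mem_top _) (Subgroup.mem_top _)) (commutator_def (G := Cfsg.isometryGroup (ZMod 2) (⇑Q)) ▸ h2)

lemma RW_append (w w' : List ℕ) : RW e Q (w ++ w') = RW e Q w * RW e Q w' := by
  simp [RW]

omit hq in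
lemma crossed_one {G : Type*} [Group G] {M : Type*} [AddCommGroup M] (a : G → M → M)
    (h1 : ∀ x, a 1 x = x) (f : G → M) (hf : ∀ g h, f (g * h) = f g + a g (f h)) : f 1 = 0 := by
  have h := hf 1 1
  rw [mul_one, h1] at h
  exact left_eq_add.1 h

theorem h1_eq_zero (c : Cert) (hc : checkCert n q c = true)
    (f : ↥(commutator (Cfsg.isometryGroup (ZMod 2) (⇑Q))) → ι → ZMod 2)
    (hf : ∀ g h : ↥(commutator (Cfsg.isometryGroup (ZMod 2) (⇑Q))), f (g * h) = f g + act Q (g : Cfsg.isometryGroup (ZMod 2) (⇑Q)) (f h)) :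
    ∃ v : ι → ZMod 2, ∀ g, f g = act Q (g : Cfsg.isometryGroup (ZMod 2) (⇑Q)) v - v := by
  classical
  simp only [checkCert, Bool.and_eq_true, List.all_eq_true, beq_iff_eq] at hc
  obtain ⟨⟨⟨⟨⟨⟨⟨⟨⟨⟨hs0, hrest⟩, hreach⟩, hchain⟩, hwa⟩, hwu⟩, hlen⟩, hwords⟩, hfpf⟩, hrels⟩, hy⟩ := hc
  obtain ⟨ra, ma⟩ := adjW_sound e hq _ hwa
  obtain ⟨ru, mu⟩ := adjW_sound e hq _ hwu
  set A : ↥(commutator (Cfsg.isometryGroup (ZMod 2) (⇑Q))) := ⟨RW e Q c.wa, ma⟩ with hA
  set U : ↥(commutator (Cfsg.isometryGroup (ZMod 2) (⇑Q))) := ⟨RW e Q c.wu, mu⟩ with hU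
  -- normalise at the fixed-point-free element
  have hinj : Function.Injective fun x : ι → ZMod 2 => act Q (A : Cfsg.isometryGroup (ZMod 2) (⇑Q)) x - x := by
    intro x y hxy
    obtain ⟨z, hz, hzv⟩ := exists_code e (x - y)
    have h0 : act Q (A : Cfsg.isometryGroup (ZMod 2) (⇑Q)) (x - y) = x - y := by
      rw [act_sub]; linear_combination hxy
    rw [← hzv] at h0
    rw [show act Q (A : Cfsg.isometryGroup (ZMod 2) (⇑Q)) (dec e z) = dec e (actW q c.wa z) from (act_RW e hq ra hz).2] at h0
    have h1 := dec_inj e (act_RW e hq ra hz).1 hz h0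
    have h2 := hfpf z (List.mem_range.2 hz)
    simp only [Bool.or_eq_true, beq_iff_eq, bne_iff_ne] at h2
    rcases h2 with rfl | h2
    · rw [dec_zero] at hzv; exact sub_eq_zero.1 hzv.symm
    · exact absurd h1 h2
  obtain ⟨v, hv⟩ := Finite.surjective_of_injective hinj (f A)
  refine ⟨v, ?_⟩
  set f' : ↥(commutator (Cfsg.isometryGroup (ZMod 2) (⇑Q))) → ι → ZMod 2 := fun g => f g - (act Q (g : Cfsg.isometryGroup (ZMod 2) (⇑Q)) v - v) with hf'def
  suffices h0 : ∀ g, f' g = 0 from fun g => sub_eq_zero.1 (h0 g)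
  have hf' : ∀ g h, f' (g * h) = f' g + act Q (g : Cfsg.isometryGroup (ZMod 2) (⇑Q)) (f' h) := fun g h => by
    simp only [hf'def, hf, Subgroup.coe_mul, act_mul, act_sub]
    abel
  have hA0 : f' A = 0 := by simp only [hf'def]; exact sub_eq_zero.2 hv.symm
  have hone : f' 1 = 0 := crossed_one (G := ↥(commutator (Cfsg.isometryGroup (ZMod 2) (⇑Q)))) (fun g x => act Q (g : Cfsg.isometryGroup (ZMod 2) (⇑Q)) x) (fun x => act_one x) f' hf'
  obtain ⟨y, hy', hyU⟩ := exists_code e (f' U)
  -- evaluation on words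
  have hgen : ∀ b : Bool, (∀ v ∈ (if b then c.wu else c.wa), rootb n q v = true) := fun b => by
    cases b <;> assumption
  have hexp : ∀ l : List Bool, ∀ v ∈ expand c l, rootb n q v = true := fun l v hv' => by
    obtain ⟨b, -, hb⟩ := List.mem_flatMap.1 hv'
    exact hgen b v hb
  let gl : List Bool → ↥(commutator (Cfsg.isometryGroup (ZMod 2) (⇑Q))) := fun l => (l.map fun b => if b then U else A).prod
  have hgl : ∀ l, ((gl l : ↥(commutator (Cfsg.isometryGroup (ZMod 2) (⇑Q)))) : Cfsg.isometryGroup (ZMod 2) (⇑Q)) = RW e Q (expand c l) := by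
    intro l
    induction l with
    | nil => simp [gl, expand, RW]
    | cons b l ih =>
      rw [show gl (b :: l) = (if b then U else A) * gl l by simp [gl], Subgroup.coe_mul, ih,
        show expand c (b :: l) = (if b then c.wu else c.wa) ++ expand c l from rfl, RW_append e hq]
      cases b <;> rfl
  have hval : ∀ l, val q c y l < 2 ^ n ∧ f' (gl l) = dec e (val q c y l) := by
    intro l
    induction l with
    | nil => exact ⟨Nat.two_pow_pos n, by rw [show gl [] = 1 from rfl, hone]; exact (dec_zero e).symm⟩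
    | cons b l ih =>
      obtain ⟨h1, h2⟩ := ih
      rw [show gl (b :: l) = (if b then U else A) * gl l by simp [gl], hf', h2]
      obtain ⟨a1, a2⟩ := act_RW e hq (hgen b) h1
      cases b
      · simp only [Bool.false_eq_true, if_false] at a1 a2 ⊢
        refine ⟨by simpa [val] using a1, ?_⟩
        rw [hA0, zero_add, show act Q (A : Cfsg.isometryGroup (ZMod 2) (⇑Q)) _ = _ from a2]
        simp [val]
      · simp only [if_true] at a1 a2 ⊢
        refine ⟨by simpa [val] using Nat.xor_lt_two_pow hy' a1, ?_⟩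
        rw [← hyU, show act Q (U : Cfsg.isometryGroup (ZMod 2) (⇑Q)) _ = _ from a2, ← dec_xor]
        simp [val]
  have hy0 : y = 0 := by
    have h := hy y (List.mem_range.2 hy')
    simp only [Bool.or_eq_true, beq_iff_eq, List.any_eq_true, bne_iff_ne] at h
    rcases h with h | ⟨r, hr, hne⟩
    · exact h
    exfalso
    have h1 : gl r = 1 := Subtype.ext (by
      rw [hgl]
      exact RW_eq e hq (hexp r) (by simp) (hrels r hr))
    obtain ⟨hlt, hv'⟩ := hval r
    rw [h1, hone, ← dec_zero e] at hv'
    exact hne (dec_inj e hlt (Nat.two_pow_pos n) hv'.symm)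
  rw [hy0, dec_zero] at hyU
  -- the zero set
  let Z : Subgroup ↥(commutator (Cfsg.isometryGroup (ZMod 2) (⇑Q))) :=
    { carrier := {g | f' g = 0}
      one_mem' := hone
      mul_mem' := fun {g h} hg hh => by
        show f' (g * h) = 0
        rw [hf', show f' g = 0 from hg, show f' h = 0 from hh, act_zero, add_zero]
      inv_mem' := fun {g} hg => by
        show f' g⁻¹ = 0
        have h := hf' g⁻¹ g
        rw [inv_mul_cancel, hone, show f' g = 0 from hg, act_zero, add_zero] at h
        exact h.symm }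
  -- generation
  have hrv : ∀ x, rootb n q x = true → R e Q x * R e Q x = 1 := fun x hx => by
    have := RW_eq e hq (w := [x, x]) (w' := []) (by simp [hx]) (by simp) (eqw_sq hx)
    simpa [RW] using this
  set r₀ := R e Q c.s₀ with hr₀
  set T : Set (Cfsg.isometryGroup (ZMod 2) (⇑Q)) := {g | ∃ s ∈ c.rest, g = r₀ * R e Q s} with hT
  set W := Subgroup.closure (insert r₀ {g | ∃ s ∈ c.rest, g = R e Q s}) with hW
  have hS : ∀ s ∈ c.s₀ :: c.rest, rootb n q s = true ∧ R e Q s ∈ W := fun s hs => by
    rcases List.mem_cons.1 hs with rfl | hs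
    · exact ⟨hs0, Subgroup.subset_closure (Set.mem_insert _ _)⟩
    · exact ⟨hrest s hs, Subgroup.subset_closure (Set.mem_insert_of_mem _ ⟨s, hs, rfl⟩)⟩
  have htop : W = ⊤ := eq_top_iff.2 fun g _ =>
    chain_sound e hq (reach_sound e hq hS c.ent _ hS hreach) c.basis [0] hchain
      (fun x hx => by rw [List.mem_singleton.1 hx]; exact Nat.two_pow_pos n) g
      (fun x hx => by rw [List.mem_singleton.1 hx, dec_zero, act_zero])
  set N := Subgroup.closure T with hN
  have hr00 : r₀ * r₀ = 1 := hrv _ hs0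
  have hr0i : r₀⁻¹ = r₀ := inv_eq_of_mul_eq_one_right hr00
  have hNn : N.Normal := by
    rw [← Subgroup.normalizer_eq_top_iff, eq_top_iff, ← htop, hW, Subgroup.closure_le]
    have key : r₀ ∈ Subgroup.normalizer (N : Set (Cfsg.isometryGroup (ZMod 2) (⇑Q))) := by
      have h1 : N.map (MulAut.conj r₀).toMonoidHom ≤ N := by
        rw [hN, MonoidHom.map_closure, Subgroup.closure_le]
        rintro _ ⟨_, ⟨s, hs, rfl⟩, rfl⟩
        show r₀ * (r₀ * R e Q s) * r₀⁻¹ ∈ Subgroup.closure T
        rw [← mul_assoc r₀, hr00, one_mul, ← inv_eq_of_mul_eq_one_right (hrv s (hrest s hs)), ← mul_inv_rev]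
        exact inv_mem (Subgroup.subset_closure ⟨s, hs, rfl⟩)
      rw [Subgroup.mem_normalizer_iff]
      refine fun g => ⟨fun hg => h1 (Subgroup.mem_map_of_mem _ hg), fun hg => ?_⟩
      have := h1 (Subgroup.mem_map_of_mem (MulAut.conj r₀).toMonoidHom hg)
      simpa [hr0i, mul_assoc, ← mul_assoc r₀ r₀, hr00] using this
    rintro g (rfl | ⟨s, hs, rfl⟩)
    · exact key
    · have : R e Q s = r₀ * (r₀ * R e Q s) := by rw [← mul_assoc, hr00, one_mul]
      rw [this]
      exact mul_mem key (Subgroup.le_normalizer (Subgroup.subset_closure ⟨s, hs, rfl⟩))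
  have hcomm : commutator (Cfsg.isometryGroup (ZMod 2) (⇑Q)) ≤ N := by
    refine hNn.commutator_le_of_self_sup_commutative_eq_top (H := Subgroup.zpowers r₀) ?_ inferInstance
    rw [eq_top_iff, ← htop, hW, Subgroup.closure_le]
    rintro g (rfl | ⟨s, hs, rfl⟩)
    · exact Subgroup.mem_sup_right (Subgroup.mem_zpowers _)
    · have : R e Q s = r₀ * (r₀ * R e Q s) := by rw [← mul_assoc, hr00, one_mul]
      rw [this]
      exact mul_mem (Subgroup.mem_sup_right (Subgroup.mem_zpowers _))
        (Subgroup.mem_sup_left (Subgroup.subset_closure ⟨s, hs, rfl⟩))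
  have hNZ : N ≤ Z.map (commutator (Cfsg.isometryGroup (ZMod 2) (⇑Q))).subtype := by
    rw [hN, Subgroup.closure_le]
    rintro _ ⟨s, hs, rfl⟩
    obtain ⟨i, hi, rfl⟩ := List.mem_iff_getElem.1 hs
    have hi' : i < c.words.length := hlen ▸ hi
    have hw := hwords (c.rest[i], c.words[i]) (List.mem_iff_getElem.2
      ⟨i, by rw [List.length_zip]; omega, List.getElem_zip⟩)
    refine ⟨gl c.words[i], ?_, ?_⟩
    · show f' _ = 0
      rw [(hval _).2, hy0]
      have : ∀ l, val q c 0 l = 0 := by
        intro l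
        induction l with
        | nil => rfl
        | cons b l ih =>
          simp only [val, ih, ite_self, Nat.zero_xor]
          exact actW_zero e hq _
      rw [this, dec_zero]
    · show ((gl _ : ↥(commutator (Cfsg.isometryGroup (ZMod 2) (⇑Q)))) : Cfsg.isometryGroup (ZMod 2) (⇑Q)) = _
      rw [hgl]
      have h := RW_eq e hq (w := [c.s₀, c.rest[i]]) (by simp [hs0, hrest _ hs]) (hexp _) hw
      simpa [RW, hr₀] using h.symm
  intro g
  obtain ⟨z, hz, hzg⟩ := hNZ (hcomm g.2)
  rw [← Subtype.ext hzg]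
  exact hz

end CfsgLib.Fischer.OrthCocycle
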