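import Cfsg.Agent.Lib.Fischer.OctadLattice
import Cfsg.Agent.Lib.Fischer.OrthCocycle
import Cfsg.Agent.Lib.Leech.Frame

/-!
The centraliser of the sign change on an octad in `Co0`: its representation on the octad lattice modulo two
and the kernel of that representation.
-/

set_option autoImplicit false

namespace CfsgLib.Fischer.OctadLattice

open Cfsg Finset CfsgLib.Leech CfsgLib.Fischer2
open scoped Pointwise

/-- Reduction of a lattice vector supported on the octad. -/
def pr (v : leechLattice) : Fin 4 ⊕ Fin 4 → ZMod 2 := proj (res v)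

theorem pr_add {v w : leechLattice} (hv : v ∈ Supp) : pr (v + w) = pr v + pr w := by
  rw [pr, res_add, proj_add (res_mem hv)]; rfl

theorem pr_add_self {v : leechLattice} (hv : v ∈ Supp) : pr (v + v) = 0 := by
  rw [pr_add hv]; funext a
  have : ∀ t : ZMod 2, t + t = 0 := by decide
  exact this _

theorem exists_half {v : leechLattice} (hv : v ∈ Supp) (h : pr v = 0) : ∃ u ∈ Supp, v = u + u := by
  obtain ⟨y, hy, e⟩ := exists_half_of_proj_eq_zero (res_mem hv) h
  obtain ⟨u, hu, rfl⟩ := exists_lift hy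
  exact ⟨u, hu, eq_of_res hv (add_mem hu hu) e⟩

/-- A section of the reduction. -/
noncomputable def secV (w : Fin 4 ⊕ Fin 4 → ZMod 2) : leechLattice := (exists_lift (sec8_mem w)).choose

theorem secV_mem (w : Fin 4 ⊕ Fin 4 → ZMod 2) : secV w ∈ Supp := (exists_lift (sec8_mem w)).choose_spec.1

theorem pr_secV (w : Fin 4 ⊕ Fin 4 → ZMod 2) : pr (secV w) = w := by
  rw [pr, secV, (exists_lift (sec8_mem w)).choose_spec.2, proj_sec8]

theorem pr_smul_eq {g : Co0} (hg : g ∈ C₀) {v : leechLattice} (hv : v ∈ Supp) :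
    pr (g • v) = pr (g • secV (pr v)) := by
  have h0 : pr (v - secV (pr v)) = 0 := by
    have h := pr_add (w := secV (pr v)) (sub_mem hv (secV_mem (pr v)))
    rw [sub_add_cancel, pr_secV] at h
    exact right_eq_add.1 h
  obtain ⟨u, hu, e⟩ := exists_half (sub_mem hv (secV_mem _)) h0
  rw [show v = secV (pr v) + (u + u) by rw [← e]; abel, smul_add_co0, smul_add_co0,
    pr_add (smul_mem_Supp hg (secV_mem _)), pr_add_self (smul_mem_Supp hg hu), add_zero,
    ← show v = secV (pr v) + (u + u) by rw [← e]; abel]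

/-- The linear map induced by an element of the centraliser. -/
noncomputable def lin (g : C₀) : (Fin 4 ⊕ Fin 4 → ZMod 2) →ₗ[ZMod 2] (Fin 4 ⊕ Fin 4 → ZMod 2) :=
  AddMonoidHom.toZModLinearMap 2 (AddMonoidHom.mk' (fun w => pr ((g : Co0) • secV w)) fun w w' => by
    have h := pr_smul_eq g.2 (add_mem (secV_mem w) (secV_mem w'))
    rw [pr_add (secV_mem w), pr_secV, pr_secV, smul_add_co0, pr_add (smul_mem_Supp g.2 (secV_mem w))] at h
    exact h.symm)

theorem lin_pr (g : C₀) {v : leechLattice} (hv : v ∈ Supp) : lin g (pr v) = pr ((g : Co0) • v) :=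
  (pr_smul_eq g.2 hv).symm

theorem lin_mul (g h : C₀) : lin (g * h) = (lin g).comp (lin h) := by
  refine LinearMap.ext fun w => ?_
  rw [LinearMap.comp_apply]
  conv_lhs => rw [← pr_secV w]
  conv_rhs => rw [← pr_secV w]
  rw [lin_pr _ (secV_mem w), lin_pr _ (secV_mem w), lin_pr _ (smul_mem_Supp h.2 (secV_mem w)),
    Subgroup.coe_mul, mul_smul]

theorem lin_one : lin 1 = LinearMap.id := by
  refine LinearMap.ext fun w => ?_
  conv_lhs => rw [← pr_secV w]
  rw [lin_pr _ (secV_mem w), OneMemClass.coe_one, one_smul, pr_secV]; rfl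

/-- The matrix representation. -/
noncomputable def matHom : C₀ →* Matrix (Fin 4 ⊕ Fin 4) (Fin 4 ⊕ Fin 4) (ZMod 2) where
  toFun g := LinearMap.toMatrix' (lin g)
  map_one' := by rw [lin_one, LinearMap.toMatrix'_id]
  map_mul' g h := by rw [lin_mul, LinearMap.toMatrix'_comp]

theorem matHom_mulVec (g : C₀) (w : Fin 4 ⊕ Fin 4 → ZMod 2) : Matrix.mulVec (matHom g) w = lin g w := by
  show Matrix.mulVec (LinearMap.toMatrix' (lin g)) w = _
  rw [← Matrix.toLin'_apply, Matrix.toLin'_toMatrix']

theorem form_lin (g : C₀) (w : Fin 4 ⊕ Fin 4 → ZMod 2) : qF (lin g w) = qF w := by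
  have hs := smul_mem_Supp g.2 (secV_mem w)
  conv_rhs => rw [← pr_secV w]
  conv_lhs => rw [← pr_secV w]
  rw [lin_pr _ (secV_mem w), pr, pr, (qF_proj (res_mem hs)).2, (qF_proj (res_mem (secV_mem w))).2,
    ← dotInt_eq hs, ← dotInt_eq (secV_mem w)]
  congr 2
  exact CfsgLib.Leech.dotInt_smul (g : Co0) (secV w) (secV w)

/-- The representation on the octad lattice modulo two. -/
noncomputable def psi : C₀ →* Cfsg.isometryGroup (ZMod 2) (⇑qF) :=
  MonoidHom.codRestrict (matHom.toHomUnits) _ fun g => fun u _ => by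
    show qF (Matrix.mulVec (matHom g) u) = qF u
    rw [matHom_mulVec]; exact form_lin g u

theorem act_psi (g : C₀) {v : leechLattice} (hv : v ∈ Supp) :
    CfsgLib.OrthGen.act qF (psi g) (pr v) = pr ((g : Co0) • v) := by
  show Matrix.mulVec (matHom g) (pr v) = _
  rw [matHom_mulVec, lin_pr g hv]

theorem sqNorm_eq_dot {v : leechLattice} (hv : v ∈ Supp) : sqNorm (coordVec v) = dot8 (res v) (res v) := by
  rw [← CfsgLib.Leech.dotInt_self, dotInt_eq hv]

theorem eq_zero_of_sqNorm_lt {v : leechLattice} (h : sqNorm (coordVec v) < 32) : v = 0 := by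
  by_contra hne
  have h1 := CfsgLib.Leech.leechForm_min v hne
  have h2 := CfsgLib.Leech.eight_mul_leechForm_self v
  have h3 : sqNorm (v : GolayPt → ℤ) < 32 := h
  omega

theorem eq_or_eq_neg {v w : leechLattice} (hv : v ∈ Supp) (hw : w ∈ Supp)
    (hnv : sqNorm (coordVec v) = 32) (hnw : sqNorm (coordVec w) = 32) (h : pr v = pr w) :
    w = v ∨ w = -v := by
  obtain ⟨u, hu, e⟩ := exists_half (sub_mem hw hv) (by
    have h' := pr_add (w := v) (sub_mem hw hv)
    rw [sub_add_cancel, h] at h'
    exact right_eq_add.1 h')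
  have hw' : w = v + (u + u) := by rw [← e]; abel
  have expand : ∀ a b : Fin 8 → ℤ, dot8 (a + b) (a + b) = dot8 a a + 2 * dot8 a b + dot8 b b := fun a b => by
    rw [dot8_add_left, dot8_comm a (a + b), dot8_comm b (a + b), dot8_add_left, dot8_add_left, dot8_comm b a]
    ring
  have e1 : dot8 (res w) (res w) = dot8 (res v) (res v) + 4 * dot8 (res v) (res u) + 4 * dot8 (res u) (res u) := by
    rw [hw', res_add, res_add, expand, expand, dot8_comm (res v) (_ + _), dot8_add_left, dot8_comm (res u) (res v)]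
    ring
  rw [sqNorm_eq_dot hv] at hnv
  rw [sqNorm_eq_dot hw] at hnw
  have hcase : sqNorm (coordVec u) < 32 ∨ sqNorm (coordVec (v + u)) < 32 := by
    rw [sqNorm_eq_dot hu, sqNorm_eq_dot (add_mem hv hu), res_add, expand]
    omega
  rcases hcase with h0 | h0
  · left; rw [hw', eq_zero_of_sqNorm_lt h0, add_zero, add_zero]
  · right
    have h1 := eq_zero_of_sqNorm_lt h0
    rw [eq_neg_iff_add_eq_zero, hw', show v + (u + u) + v = (v + u) + (v + u) by abel, h1, add_zero]

/-- The lattice vector of a basis element. -/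
noncomputable def vB (i : Fin 8) : leechLattice := (exists_lift (basis8_mem i)).choose

theorem vB_mem (i : Fin 8) : vB i ∈ Supp := (exists_lift (basis8_mem i)).choose_spec.1

theorem res_vB (i : Fin 8) : res (vB i) = basis8 i := (exists_lift (basis8_mem i)).choose_spec.2

theorem dot_basis_norm : ∀ i, dot8 (basis8 i) (basis8 i) = 32 := by decide

theorem sign_chain : dot8 (basis8 0) (basis8 1) ≠ 0 ∧ dot8 (basis8 1) (basis8 2) ≠ 0 ∧
    dot8 (basis8 2) (basis8 3) ≠ 0 ∧ dot8 (basis8 3) (basis8 4) ≠ 0 ∧ dot8 (basis8 4) (basis8 5) ≠ 0 ∧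
    dot8 (basis8 4) (basis8 6) ≠ 0 ∧ dot8 (basis8 6) (basis8 7) ≠ 0 := by decide

theorem smul_Supp_of_psi_eq_one (g : C₀) (h : psi g = 1) :
    ∃ s : ℤ, (s = 1 ∨ s = -1) ∧ ∀ v ∈ Supp, (g : Co0) • v = s • v := by
  have hone : ∀ i, ∃ s : ℤ, (s = 1 ∨ s = -1) ∧ (g : Co0) • vB i = s • vB i := by
    intro i
    have e := act_psi g (vB_mem i)
    rw [h, CfsgLib.OrthGen.act_one] at e
    have hn : sqNorm (coordVec (vB i)) = 32 := by rw [sqNorm_eq_dot (vB_mem i), res_vB, dot_basis_norm]
    rcases eq_or_eq_neg (vB_mem i) (smul_mem_Supp g.2 (vB_mem i)) hn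
      ((CfsgLib.Leech.sqNorm_smul (g : Co0) (vB i)).trans hn) e with e' | e'
    · exact ⟨1, Or.inl rfl, by rw [e', one_zsmul]⟩
    · exact ⟨-1, Or.inr rfl, by rw [e', neg_one_zsmul]⟩
  choose s hs hgs using hone
  have hsq : ∀ i, s i * s i = 1 := fun i => by rcases hs i with e | e <;> rw [e] <;> norm_num
  have hres : ∀ i, res ((g : Co0) • vB i) = s i • basis8 i := fun i => by
    rw [hgs i]
    funext j
    show (s i • (vB i : leechLattice)).1 (pts j) = _
    simp only [AddSubgroup.coe_zsmul, Pi.smul_apply, ← res_vB]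
    rfl
  have hadj : ∀ i j, dot8 (basis8 i) (basis8 j) ≠ 0 → s i = s j := by
    intro i j hne
    have e : dot8 (res ((g : Co0) • vB i)) (res ((g : Co0) • vB j)) = dot8 (res (vB i)) (res (vB j)) := by
      rw [← dotInt_eq (smul_mem_Supp g.2 (vB_mem i)), ← dotInt_eq (vB_mem i)]
      exact CfsgLib.Leech.dotInt_smul (g : Co0) _ _
    rw [hres, hres, res_vB, res_vB, dot8_smul_left, dot8_comm, dot8_smul_left, dot8_comm (basis8 j)] at e
    have : s i * s j = 1 := by
      have := mul_right_cancel₀ hne ((mul_assoc _ _ _).trans (e.trans (one_mul _).symm))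
      exact this
    calc s i = s i * (s j * s j) := by rw [hsq, mul_one]
      _ = s i * s j * s j := (mul_assoc _ _ _).symm
      _ = s j := by rw [this, one_mul]
  obtain ⟨c0, c1, c2, c3, c4, c5, c6⟩ := sign_chain
  have e01 := hadj _ _ c0
  have e12 := hadj _ _ c1
  have e23 := hadj _ _ c2
  have e34 := hadj _ _ c3
  have e45 := hadj _ _ c4
  have e46 := hadj _ _ c5
  have e67 := hadj _ _ c6
  have hall : ∀ i, s i = s 0 := by
    intro i
    fin_cases i <;> simp [e01, e12, e23, e34, e45, ← e46, ← e67]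
  refine ⟨s 0, hs 0, fun v hv => ?_⟩
  have key : ∀ x ∈ L8, ∀ v ∈ Supp, res v = x → (g : Co0) • v = s 0 • v := by
    intro x hx
    induction hx using Submodule.span_induction with
    | mem a ha =>
      obtain ⟨i, rfl⟩ := ha
      intro v hv e
      rw [eq_of_res hv (vB_mem i) (e.trans (res_vB i).symm), hgs i, hall i]
    | zero =>
      intro v hv e
      rw [eq_of_res hv (zero_mem _) (e.trans rfl), smul_zero_co0, zsmul_zero]
    | add a b hma hmb ha hb =>
      intro v hv e
      obtain ⟨v1, h1, rfl⟩ := exists_lift hma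
      obtain ⟨v2, h2, rfl⟩ := exists_lift hmb
      rw [eq_of_res hv (add_mem h1 h2) e, smul_add_co0, ha v1 h1 rfl, hb v2 h2 rfl, zsmul_add]
    | smul n a hma ha =>
      intro v hv e
      obtain ⟨v1, h1, rfl⟩ := exists_lift hma
      have hr : res (n • v1) = n • res v1 := by funext j; simp [res, coordVec]
      rw [eq_of_res hv (zsmul_mem h1 n) (e.trans hr.symm), smul_zsmul_co0, ha v1 h1 rfl, zsmul_comm]
  exact key _ (res_mem hv) v hv rfl

/-- The pointwise stabiliser of the octad lattice in the centraliser. -/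
def K₀ : Subgroup Co0 where
  carrier := {g | g ∈ C₀ ∧ ∀ v ∈ Supp, g • v = v}
  one_mem' := ⟨one_mem _, fun v _ => one_smul _ v⟩
  mul_mem' := fun {g h} hg hh => ⟨mul_mem hg.1 hh.1, fun v hv => by rw [mul_smul, hh.2 v hv, hg.2 v hv]⟩
  inv_mem' := fun {g} hg => ⟨inv_mem hg.1, fun v hv => by
    conv_lhs => rw [← hg.2 v hv]
    rw [inv_smul_smul]⟩

theorem negAut_mem_C₀ : negAut ∈ C₀ :=
  Subgroup.mem_centralizer_singleton_iff.2 ((Subgroup.mem_center_iff.1 negAut_mem_center eps).symm)

theorem negAut_sq : negAut * negAut = (1 : Co0) :=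
  co0_ext fun v p => by rw [mul_smul, coordVec_negAut, coordVec_negAut, neg_neg, one_smul]

theorem psi_eq_one_iff (g : C₀) : psi g = 1 ↔ (g : Co0) ∈ K₀ ∨ negAut * (g : Co0) ∈ K₀ := by
  constructor
  · intro h
    obtain ⟨s, hs, hall⟩ := smul_Supp_of_psi_eq_one g h
    rcases hs with rfl | rfl
    · exact Or.inl ⟨g.2, fun v hv => by rw [hall v hv, one_zsmul]⟩
    · exact Or.inr ⟨mul_mem negAut_mem_C₀ g.2, fun v hv => by
        rw [mul_smul, hall v hv, neg_one_zsmul, negAut_apply, neg_neg]⟩
  · intro h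
    refine CfsgLib.OrthGen.ext_act fun w => ?_
    rw [← pr_secV w, act_psi g (secV_mem w), CfsgLib.OrthGen.act_one]
    rcases h with h | h
    · rw [h.2 _ (secV_mem w)]
    · have e : (g : Co0) • secV w = -secV w := by
        have := h.2 _ (secV_mem w)
        rw [mul_smul, negAut_apply] at this
        exact neg_eq_iff_eq_neg.1 this
      rw [e]
      have h2 := pr_add (v := -secV w) (w := secV w) (neg_mem (secV_mem w))
      rw [neg_add_cancel, show pr 0 = 0 from proj_zero] at h2
      funext a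
      have := congrFun h2 a
      revert this
      simp only [Pi.zero_apply, Pi.add_apply]
      generalize pr (-secV w) a = x
      generalize pr (secV w) a = y
      revert x y; decide

theorem axisVec_none : axisVec none = vecA := Subtype.ext (funext fun _ => rfl)

theorem axisVec_mem {p : GolayPt} (hp : p ∈ octad) : axisVec p ∈ Supp := fun q hq => by
  rw [coordVec_axisVec, if_neg fun h : q = p => hq (h ▸ hp)]

theorem monomial_mem_C₀ (d : golayCode) {σ : M24}
    (hσ : ∀ p, (σ : Equiv.Perm GolayPt) p ∈ octad ↔ p ∈ octad) : signAut d * permAut σ ∈ C₀ := by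
  refine Subgroup.mem_centralizer_singleton_iff.2 (co0_ext fun v p => ?_)
  have h := hσ ((σ : Equiv.Perm GolayPt).symm p)
  rw [Equiv.apply_symm_apply] at h
  simp only [mul_smul, coordVec_signAut, coordVec_permAut, coordVec_eps]
  by_cases hp : p ∈ octad <;> simp only [hp, ← h, if_true, if_false] <;> split_ifs <;> rfl

theorem mem_K₀_iff {g : Co0} : g ∈ K₀ ↔ ∃ (d : golayCode) (σ : M24), g = signAut d * permAut σ ∧
    (∀ p ∈ octad, (d : GolayPt → ZMod 2) p = 0) ∧ ∀ p ∈ octad, (σ : Equiv.Perm GolayPt) p = p := by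
  constructor
  · intro hg
    have hnone : (none : GolayPt) ∈ octad := by decide
    obtain ⟨d, σ, rfl⟩ := exists_monomial (g := g) (by
      have e : g • vecA = vecA := axisVec_none ▸ hg.2 _ (axisVec_mem hnone)
      rw [e]; exact CongTwo.refl _)
    have key : ∀ p ∈ octad, (σ : Equiv.Perm GolayPt) p = p ∧ (d : GolayPt → ZMod 2) p = 0 := by
      intro p hp
      have h := congrArg (fun w => coordVec w p) (hg.2 _ (axisVec_mem hp))
      simp only [mul_smul, coordVec_signAut, coordVec_permAut, coordVec_axisVec, if_true] at h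
      by_cases hσ : (σ : Equiv.Perm GolayPt).symm p = p
      · refine ⟨by conv_lhs => rw [← hσ, Equiv.apply_symm_apply], ?_⟩
        rcases CfsgLib.Leech.zmod2_cases ((d : GolayPt → ZMod 2) p) with e | e
        · exact e
        · rw [e, if_neg one_ne_zero, if_pos hσ] at h; omega
      · rw [if_neg hσ] at h; split_ifs at h <;> omega
    exact ⟨d, σ, rfl, fun p hp => (key p hp).2, fun p hp => (key p hp).1⟩
  · rintro ⟨d, σ, rfl, hd, hσ⟩
    have hiff : ∀ p, (σ : Equiv.Perm GolayPt) p ∈ octad ↔ p ∈ octad := fun p =>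
      CfsgLib.GolayStructure.octad_mem_iff (CfsgLib.GolayStructure.octadKernel_le octad
        (CfsgLib.GolayStructure.mem_octadKernel.2 ⟨σ.2, hσ⟩)) p
    refine ⟨monomial_mem_C₀ d hiff, fun v hv => Subtype.ext (funext fun p => ?_)⟩
    show coordVec ((signAut d * permAut σ) • v) p = coordVec v p
    simp only [mul_smul, coordVec_signAut, coordVec_permAut]
    by_cases hp : p ∈ octad
    · rw [hd p hp, if_pos rfl]
      conv_rhs => rw [← (σ : Equiv.Perm GolayPt).symm_apply_apply p, hσ p hp]
    · have h := hiff ((σ : Equiv.Perm GolayPt).symm p)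
      rw [Equiv.apply_symm_apply] at h
      rw [hv p hp, hv _ (mt h.2 hp)]
      simp

end CfsgLib.Fischer.OctadLattice
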