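import Cfsg.Agent.Lib.Fischer.OctadKernel
import Cfsg.Agent.Lib.ClassicalForms.Ortho.Index
import Cfsg.Agent.Lib.ClassicalForms.Ortho.POmega
import Cfsg.Agent.Lib.StronglyPEmbedded.Helpers
import Cfsg.Agent.Lib.PGroups.Frattini
import Cfsg.Agent.Lib.PGroups.Extraspecial
import Cfsg.Prelude.Def_Spor_Conway
import Cfsg.Prelude.Def_Local

/-!
The centraliser of an octad involution in `Co1`: its generalised Fitting subgroup is extraspecial of order
`2 ^ 9`, with the commutator subgroup of the orthogonal group of plus type in dimension eight as quotient.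
-/

set_option autoImplicit false

namespace CfsgLib.Fischer.OctadLattice

open Cfsg Finset CfsgLib.Leech CfsgLib.Fischer2
open CfsgLib.ClassicalForms
open scoped Pointwise commutatorElement

/-- A finite simple commutator subgroup with trivial centre has no nontrivial normal two-subgroup. -/
theorem omega_normal_two {N : Subgroup (Cfsg.Omega (ZMod 2) (Cfsg.quadFormPlus 4 (ZMod 2)))} (hN : N.Normal)
    (h2 : IsPGroup 2 N) : N = ⊥ := by
  classical
  have hfin : Module.finrank (ZMod 2) (Fin 4 ⊕ Fin 4 → ZMod 2) = 8 := by simp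
  have e := (commutatorCongr (isoMat (qPlus 4 (ZMod 2)) (qPlus_apply 4))).trans (MulEquiv.subgroupCongr
    (commutator_eq_siegelGroup (nondeg_qPlus 4) (by rw [hfin]; norm_num) (isGen_qPlus 4)))
  have hc : Nat.card (Subgroup.center (Cfsg.Omega (ZMod 2) (Cfsg.quadFormPlus 4 (ZMod 2)))) = 1 := by
    rw [Nat.card_congr (Subgroup.centerCongr e).toEquiv]
    exact card_center_siegelGroup_even (by decide) (nondeg_qPlus 4) (by simp)
  have hbot : Subgroup.center (Cfsg.Omega (ZMod 2) (Cfsg.quadFormPlus 4 (ZMod 2))) = ⊥ :=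
    Subgroup.card_eq_one.1 hc
  have hs : IsSimpleGroup (Cfsg.POmega (ZMod 2) (Cfsg.quadFormPlus 4 (ZMod 2))) :=
    isSimpleGroup_pOmega_plus 4 le_rfl
  have e2 : Cfsg.POmega (ZMod 2) (Cfsg.quadFormPlus 4 (ZMod 2)) ≃*
      Cfsg.Omega (ZMod 2) (Cfsg.quadFormPlus 4 (ZMod 2)) :=
    (QuotientGroup.quotientMulEquivOfEq hbot).trans QuotientGroup.quotientBot
  have := e2.symm.isSimpleGroup
  rcases hN.eq_bot_or_eq_top with h | h
  · exact h
  · exfalso
    subst h
    have : Fact (Nat.Prime 2) := ⟨Nat.prime_two⟩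
    have hG : IsPGroup 2 (Cfsg.Omega (ZMod 2) (Cfsg.quadFormPlus 4 (ZMod 2))) :=
      h2.of_equiv Subgroup.topEquiv
    have := hG.center_nontrivial
    rw [Subgroup.nontrivial_iff_ne_bot] at this
    exact this hbot

/-- The image of the octad sign change in `Co1`. -/
noncomputable def zC : Spor.Co1 := QuotientGroup.mk' (Subgroup.center Co0) eps

theorem mk_eq_iff {g h : Co0} : QuotientGroup.mk' (Subgroup.center Co0) g = QuotientGroup.mk' _ h ↔
    h = g ∨ h = negAut * g := by
  rw [QuotientGroup.mk'_apply, QuotientGroup.mk'_apply, QuotientGroup.eq]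
  constructor
  · intro hc
    rcases center_co0 hc with e | e
    · exact Or.inl (inv_mul_eq_one.1 e).symm
    · right
      rw [inv_mul_eq_iff_eq_mul.1 e]
      exact Subgroup.mem_center_iff.1 negAut_mem_center g
  · rintro (rfl | rfl)
    · rw [inv_mul_cancel]; exact one_mem _
    · rw [← Subgroup.mem_center_iff.1 negAut_mem_center g, inv_mul_cancel_left]
      exact negAut_mem_center

theorem eps_none : eps • axisVec none = -axisVec none :=
  mem_Supp_iff.1 (axisVec_mem (by decide))

theorem eps_one (p : GolayPt) (hp : p ∉ octad) : eps • axisVec p = axisVec p :=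
  Subtype.ext (funext fun r => by
    show coordVec (eps • axisVec p) r = coordVec (axisVec p) r
    rw [coordVec_eps]
    split_ifs with hr
    · rw [coordVec_axisVec, if_neg (fun h : r = p => hp (h ▸ hr)), neg_zero]
    · rfl)

theorem axisVec_ne_neg (p : GolayPt) : axisVec p ≠ -axisVec p := fun h => by
  have := congrArg (fun v => coordVec v p) h
  simp only [coordVec_axisVec, if_true] at this
  have h2 : coordVec (-axisVec p) p = -coordVec (axisVec p) p := rfl
  rw [h2, coordVec_axisVec, if_pos rfl] at this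
  omega

theorem one_not_mem_octad : (some 1 : GolayPt) ∉ octad := by decide

theorem eps_ne_one : eps ≠ 1 := fun h => by
  have := eps_none
  rw [h, one_smul] at this
  exact axisVec_ne_neg none this

theorem eps_ne_negAut : eps ≠ negAut := fun h => by
  have := eps_one _ one_not_mem_octad
  rw [h, negAut_apply] at this
  exact axisVec_ne_neg _ this.symm

theorem orderOf_zC : orderOf zC = 2 := by
  have : Fact (Nat.Prime 2) := ⟨Nat.prime_two⟩
  refine orderOf_eq_prime ?_ ?_
  · have : eps ^ 2 = 1 := by rw [pow_two, eps]; exact signAut_sq d₀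
    rw [zC, ← map_pow, this, map_one]
  · intro h
    rw [zC, ← map_one (QuotientGroup.mk' (Subgroup.center Co0)), mk_eq_iff] at h
    rcases h with h | h
    · exact eps_ne_one h.symm
    · refine eps_ne_negAut ?_
      calc eps = negAut * (negAut * eps) := by rw [← mul_assoc, negAut_sq, one_mul]
        _ = negAut := by rw [← h, mul_one]

/-- The sign change is not conjugate to its negative. -/
theorem conj_ne_neg (g : Co0) : g * eps ≠ negAut * eps * g := by
  classical
  intro h
  have hsupp : ∀ p : {p : GolayPt // p ∉ octad}, g⁻¹ • axisVec p.1 ∈ Supp := by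
    rintro ⟨p, hp⟩
    rw [mem_Supp_iff]
    have e : eps * g⁻¹ = g⁻¹ * (negAut * eps) := by
      calc eps * g⁻¹ = g⁻¹ * (g * eps) * g⁻¹ := by group
        _ = g⁻¹ * (negAut * eps * g) * g⁻¹ := by rw [h]
        _ = g⁻¹ * (negAut * eps) := by group
    rw [← mul_smul, e, mul_smul, mul_smul, eps_one p hp, negAut_apply, smul_neg_co0]
  let u : {p : GolayPt // p ∉ octad} → Fin 8 → ℤ := fun p => res (g⁻¹ • axisVec p.1)
  have hdot : ∀ p q, dot8 (u p) (u q) = if q = p then 64 else 0 := by
    intro p q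
    rw [← dotInt_eq (hsupp p)]
    have := CfsgLib.Leech.dotInt_smul g⁻¹ (axisVec p.1) (axisVec q.1)
    refine this.trans ?_
    show ∑ r, _ * _ = _
    rw [Finset.sum_eq_single p.1 (fun r _ hr => by
      have e : coordVec (axisVec p.1) r = 0 := by rw [coordVec_axisVec, if_neg hr]
      exact mul_eq_zero_of_left e _) (fun h => absurd (Finset.mem_univ _) h)]
    show coordVec (axisVec p.1) p.1 * coordVec (axisVec q.1) p.1 = _
    rw [coordVec_axisVec, coordVec_axisVec, if_pos rfl]
    by_cases hqp : q = p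
    · subst hqp; simp
    · rw [if_neg hqp, if_neg fun e => hqp (Subtype.ext e.symm), mul_zero]
  have hli : LinearIndependent ℤ u := by
    rw [Fintype.linearIndependent_iff]
    intro c hc p
    have h0 : dot8 (∑ q, c q • u q) (u p) = 0 := by rw [hc]; simp [dot8]
    have hlin : ∀ (s : Finset {p : GolayPt // p ∉ octad}),
        dot8 (∑ q ∈ s, c q • u q) (u p) = ∑ q ∈ s, c q * dot8 (u q) (u p) := fun s => by
      induction s using Finset.induction with
      | empty => simp [dot8]
      | @insert a s ha ih => rw [Finset.sum_insert ha, Finset.sum_insert ha, dot8_add_left, dot8_smul_left, ih]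
    rw [hlin, Finset.sum_congr rfl fun q _ => by rw [hdot q p]] at h0
    simpa using h0
  have hle := hli.fintype_card_le_finrank
  rw [Module.finrank_fintype_fun_eq_card] at hle
  have h16 : Fintype.card {p : GolayPt // p ∉ octad} = 16 := by decide +kernel
  simp [h16] at hle

/-- The centraliser in `Co1`. -/
abbrev CC : Subgroup Spor.Co1 := Subgroup.centralizer ({zC} : Set Spor.Co1)

/-- The projection of the centraliser. -/
noncomputable def phi : C₀ →* CC :=
  MonoidHom.codRestrict ((QuotientGroup.mk' (Subgroup.center Co0)).comp C₀.subtype) _ fun g =>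
    Subgroup.mem_centralizer_singleton_iff.2 (by
      show QuotientGroup.mk' _ (g : Co0) * zC = zC * QuotientGroup.mk' _ (g : Co0)
      rw [zC, ← map_mul, ← map_mul, Subgroup.mem_centralizer_singleton_iff.1 g.2])

theorem coe_phi (g : C₀) : ((phi g : CC) : Spor.Co1) = QuotientGroup.mk' _ (g : Co0) := rfl

theorem phi_surjective : Function.Surjective phi := by
  rintro ⟨x, hx⟩
  obtain ⟨g, rfl⟩ := QuotientGroup.mk'_surjective _ x
  have h := Subgroup.mem_centralizer_singleton_iff.1 hx
  rw [zC, ← map_mul, ← map_mul, eq_comm, mk_eq_iff] at h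
  rcases h with h | h
  · exact ⟨⟨g, Subgroup.mem_centralizer_singleton_iff.2 h⟩, rfl⟩
  · exact absurd (by rw [h, mul_assoc]) (conj_ne_neg g)

theorem phi_eq_iff {g h : C₀} : phi g = phi h ↔ (h : Co0) = g ∨ (h : Co0) = negAut * g := by
  rw [Subtype.ext_iff, coe_phi, coe_phi, mk_eq_iff]

/-- The commutator subgroups for the two descriptions of the form. -/
noncomputable def omegaEquiv : commutator OG ≃* Cfsg.Omega (ZMod 2) (Cfsg.quadFormPlus 4 (ZMod 2)) :=
  commutatorCongr (MulEquiv.subgroupCongr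
    (show Cfsg.isometryGroup (ZMod 2) (⇑qF) = Cfsg.isometryGroup (ZMod 2) (Cfsg.quadFormPlus 4 (ZMod 2)) from
      congrArg _ qF_coe))

/-- The representation with codomain the frozen commutator subgroup. -/
noncomputable def psiO : C₀ →* Cfsg.Omega (ZMod 2) (Cfsg.quadFormPlus 4 (ZMod 2)) :=
  omegaEquiv.toMonoidHom.comp
    (MonoidHom.codRestrict psi (commutator OG) fun g => range_psi.le ⟨g, rfl⟩)

theorem psiO_eq_one_iff (g : C₀) : psiO g = 1 ↔ (g : Co0) ∈ K₀ ∨ negAut * (g : Co0) ∈ K₀ := by
  rw [psiO, MonoidHom.comp_apply, MulEquiv.coe_toMonoidHom, MulEquiv.map_eq_one_iff, Subtype.ext_iff]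
  exact psi_eq_one_iff g

theorem psiO_surjective : Function.Surjective psiO := by
  refine omegaEquiv.surjective.comp ?_
  rintro ⟨y, hy⟩
  obtain ⟨g, rfl⟩ := range_psi.ge hy
  exact ⟨g, rfl⟩

theorem ker_phi_le : phi.ker ≤ psiO.ker := fun g hg => by
  rw [MonoidHom.mem_ker, psiO_eq_one_iff]
  rw [MonoidHom.mem_ker, ← map_one phi, phi_eq_iff, OneMemClass.coe_one] at hg
  rcases hg with h | h
  · left; rw [← h]; exact one_mem _
  · right; rw [← h]; exact one_mem _

/-- The action of the centraliser on the octad lattice modulo two. -/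
noncomputable def theta : CC →* Cfsg.Omega (ZMod 2) (Cfsg.quadFormPlus 4 (ZMod 2)) :=
  phi.liftOfSurjective phi_surjective ⟨psiO, ker_phi_le⟩

theorem theta_phi (g : C₀) : theta (phi g) = psiO g :=
  MonoidHom.liftOfRightInverse_comp_apply phi _ (Function.rightInverse_surjInv phi_surjective) ⟨psiO, ker_phi_le⟩ g

theorem theta_surjective : Function.Surjective theta := fun y => by
  obtain ⟨g, rfl⟩ := psiO_surjective y
  exact ⟨phi g, theta_phi g⟩

theorem K₀_le : K₀ ≤ C₀ := fun _ h => h.1

/-- The kernel mapped into the centraliser. -/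
noncomputable def iotaK : K₀ →* CC := phi.comp (Subgroup.inclusion K₀_le)

theorem negAut_not_mem : negAut ∉ K₀ := fun h => by
  have := h.2 _ (axisVec_mem (p := none) (by decide))
  rw [negAut_apply] at this
  exact axisVec_ne_neg _ this.symm

theorem iotaK_injective : Function.Injective iotaK := by
  intro a b h
  rcases phi_eq_iff.1 h with e | e
  · exact Subgroup.inclusion_injective K₀_le (Subtype.ext e).symm
  · refine absurd ?_ negAut_not_mem
    have : negAut = (b : Co0) * (a : Co0)⁻¹ := by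
      rw [eq_mul_inv_iff_mul_eq]; exact e.symm
    rw [this]
    exact mul_mem b.2 (inv_mem a.2)

theorem mem_ker_theta {x : CC} : x ∈ theta.ker ↔ x ∈ iotaK.range := by
  constructor
  · intro hx
    obtain ⟨g, rfl⟩ := phi_surjective x
    rw [MonoidHom.mem_ker, theta_phi, psiO_eq_one_iff] at hx
    rcases hx with h | h
    · exact ⟨⟨g, h⟩, rfl⟩
    · refine ⟨⟨_, h⟩, ?_⟩
      exact phi_eq_iff.2 (Or.inr (by
        show (g : Co0) = negAut * (negAut * g)
        rw [← mul_assoc, negAut_sq, one_mul]))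
  · rintro ⟨k, rfl⟩
    show theta (phi _) = 1
    rw [theta_phi, psiO_eq_one_iff]
    exact Or.inl k.2

theorem ker_theta_eq : theta.ker = iotaK.range := Subgroup.ext fun _ => mem_ker_theta

/-- The kernel is a copy of `K₀`. -/
noncomputable def kerEquiv : K₀ ≃* theta.ker :=
  (MonoidHom.ofInjective iotaK_injective).trans (MulEquiv.subgroupCongr ker_theta_eq.symm)

theorem eps_not_mem : eps ∉ K₀ := fun h => by
  have := h.2 _ (axisVec_mem (p := none) (by decide))
  rw [eps_none] at this
  exact axisVec_ne_neg _ this.symm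

theorem zK_ne_one : zK ≠ 1 := fun h => by
  refine eps_ne_negAut ?_
  calc eps = negAut * zK := by rw [zK, ← mul_assoc, negAut_sq, one_mul]
    _ = negAut := by rw [h, mul_one]

theorem center_K₀ {k : K₀} : k ∈ Subgroup.center K₀ ↔ (k : Co0) = 1 ∨ (k : Co0) = zK := by
  constructor
  · intro h
    rcases centralizer_K₀ k.2.1 (fun l hl => (congrArg Subtype.val
      (Subgroup.mem_center_iff.1 h ⟨l, hl⟩)).symm) with e | e | e | e
    · exact Or.inl e
    · exact absurd (e ▸ k.2) negAut_not_mem
    · exact absurd (e ▸ k.2) eps_not_mem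
    · exact Or.inr e
  · intro h
    refine Subgroup.mem_center_iff.2 fun l => Subtype.ext ?_
    show (l : Co0) * k = k * l
    rcases h with e | e <;> rw [e]
    · rw [one_mul, mul_one]
    · exact (zK_comm l.2.1).symm

theorem card_center_K₀ : Nat.card (Subgroup.center K₀) = 2 := by
  rw [Nat.card_eq_two_iff]
  refine ⟨1, ⟨⟨zK, zK_mem⟩, center_K₀.2 (Or.inr rfl)⟩, fun h => zK_ne_one ?_, ?_⟩
  · exact (congrArg (fun x : Subgroup.center K₀ => ((x : K₀) : Co0)) h).symm
  · refine Set.eq_univ_iff_forall.2 fun x => ?_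
    rcases center_K₀.1 x.2 with e | e
    · exact Or.inl (Subtype.ext (Subtype.ext e))
    · exact Or.inr (Subtype.ext (Subtype.ext e))

theorem isExtraspecial_K₀ : Cfsg.IsExtraspecial 2 K₀ := by
  have : Fact (Nat.Prime 2) := ⟨Nat.prime_two⟩
  have := CfsgLib.Leech.finite_Co0
  have hp : IsPGroup 2 K₀ := IsPGroup.of_card (n := 9) (by rw [card_K₀]; norm_num)
  have hcomm : commutator K₀ ≤ Subgroup.center K₀ := by
    rw [commutator_def, Subgroup.commutator_le]
    intro a _ b _
    rw [center_K₀]
    obtain ⟨⟨ζ, hζ, e⟩, -⟩ := comm_mem a.2 b.2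
    have : ((⁅a, b⁆ : K₀) : Co0) = ζ := by
      simp only [commutatorElement_def, Subgroup.coe_mul, Subgroup.coe_inv]
      rw [e]; group
    rw [this]; exact hζ
  have hne : commutator K₀ ≠ ⊥ := fun h => by
    have htop : Subgroup.center K₀ = ⊤ := by
      rw [eq_top_iff]
      intro a _
      rw [Subgroup.mem_center_iff]
      intro b
      exact commutatorElement_eq_one_iff_mul_comm.1 ((Subgroup.mem_bot).1 (h ▸
        Subgroup.commutator_mem_commutator (Subgroup.mem_top b) (Subgroup.mem_top a)))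
    have := card_center_K₀
    rw [htop, Subgroup.card_top, card_K₀] at this
    omega
  have hceq : commutator K₀ = Subgroup.center K₀ := by
    refine Subgroup.eq_of_le_of_card_ge hcomm ?_
    rw [card_center_K₀]
    exact (Subgroup.one_lt_card_iff_ne_bot _).2 hne
  refine ⟨⟨hp, le_antisymm (CfsgLib.PGroups.frattini_le_of (p := 2) hcomm fun x => ?_) ?_, hceq⟩, card_center_K₀⟩
  · rw [center_K₀, pow_two, Subgroup.coe_mul]
    exact (comm_mem x.2 x.2).2
  · rw [← hceq]; exact CfsgLib.PGroups.commutator_le_frattini hp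

theorem centralizer_ker_le : Subgroup.centralizer (theta.ker : Set CC) ≤ theta.ker := by
  intro x hx
  obtain ⟨g, rfl⟩ := phi_surjective x
  have hc : ∀ k ∈ K₀, (g : Co0) * k = k * g := by
    intro k hk
    have h := Subgroup.mem_centralizer_iff.1 hx (iotaK ⟨k, hk⟩) (mem_ker_theta.2 ⟨_, rfl⟩)
    rw [iotaK, MonoidHom.comp_apply, ← map_mul, ← map_mul, phi_eq_iff] at h
    rcases h with h | h
    · exact h
    · exfalso
      have hv : axisVec none ∈ Supp := axisVec_mem (by decide)
      have h' := congrArg (fun a : Co0 => a • axisVec none) h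
      simp only [Subgroup.coe_mul, Subgroup.coe_inclusion, mul_smul, negAut_apply] at h'
      rw [hk.2 _ (smul_mem_Supp g.2 hv), hk.2 _ hv] at h'
      have h2 := congrArg (fun a => (g : Co0)⁻¹ • a) h'
      simp only [smul_neg_co0, inv_smul_smul] at h2
      exact axisVec_ne_neg _ h2
  rw [mem_ker_theta]
  rcases centralizer_K₀ g.2 hc with e | e | e | e
  · exact ⟨1, phi_eq_iff.2 (Or.inl (by rw [e]; rfl))⟩
  · exact ⟨1, phi_eq_iff.2 (Or.inr (by rw [e]; exact (mul_one _).symm))⟩
  · refine ⟨⟨zK, zK_mem⟩, phi_eq_iff.2 (Or.inr ?_)⟩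
    rw [e]
    show eps = negAut * zK
    rw [zK, ← mul_assoc, negAut_sq, one_mul]
  · exact ⟨⟨zK, zK_mem⟩, phi_eq_iff.2 (Or.inl (by rw [e]; rfl))⟩

theorem genFitting_eq : Cfsg.generalizedFittingSubgroup CC = theta.ker := by
  have : Fact (Nat.Prime 2) := ⟨Nat.prime_two⟩
  have := CfsgLib.Leech.finite_Co0
  have hp : IsPGroup 2 theta.ker :=
    (IsPGroup.of_card (p := 2) (n := 9) (by rw [card_K₀]; norm_num) : IsPGroup 2 K₀).of_equiv kerEquiv
  have heq : Cfsg.pCore 2 CC = theta.ker := by
    refine le_antisymm ?_ (CfsgLib.StronglyPEmbedded.le_pCore' inferInstance hp)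
    have hn : ((Cfsg.pCore 2 CC).map theta).Normal :=
      (CfsgLib.StronglyPEmbedded.normal_pCore' (p := 2)).map theta theta_surjective
    have := omega_normal_two hn (CfsgLib.StronglyPEmbedded.isPGroup_pCore'.map theta)
    rwa [Subgroup.map_eq_bot_iff] at this
  rw [← heq]
  exact CfsgLib.StronglyPEmbedded.generalizedFittingSubgroup_eq_pCore (heq ▸ centralizer_ker_le)

theorem exists_conj : ∃ g : Spor.Co1, (∃ hq : g * zC * g⁻¹ ∈ CC, (⟨g * zC * g⁻¹, hq⟩ : CC) ∈ theta.ker) ∧
    g * zC * g⁻¹ ≠ zC := by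
  classical
  obtain ⟨o', ho', hdisj, p, hpo, hpo'⟩ := disjoint_octad
  obtain ⟨σ, hσ⟩ := CfsgLib.GolayStructure.exists_smul_baseOctad ho'
  rw [← octad_eq] at hσ
  set d' : golayCode := ⟨fun i => (d₀ : GolayPt → ZMod 2) ((σ : Equiv.Perm GolayPt).symm i),
    comp_mem_golayCode (M24.inv_mem σ.2) d₀.2⟩
  have hd' : ∀ q ∉ o', (d' : GolayPt → ZMod 2) q = 0 := fun q hq => by
    show indWord octad ((σ : Equiv.Perm GolayPt).symm q) = 0
    have : (σ : Equiv.Perm GolayPt).symm q ∉ octad := fun h => hq (by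
      rw [← hσ]
      have := Finset.smul_mem_smul_finset (a := σ) h
      rwa [show σ • (σ : Equiv.Perm GolayPt).symm q = q from Equiv.apply_symm_apply _ q] at this)
    simp [indWord, this]
  have hk : signAut d' ∈ K₀ := signAut_mem_K₀ fun q hq => hd' q fun h => Finset.disjoint_left.1 hdisj h hq
  have hconj : permAut σ * eps * (permAut σ)⁻¹ = signAut d' := by
    rw [eps, permAut_mul_signAut, mul_inv_cancel_right]
  refine ⟨QuotientGroup.mk' _ (permAut σ), ?_⟩
  rw [zC, ← map_mul, ← map_inv, ← map_mul, hconj]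
  refine ⟨⟨(phi ⟨_, hk.1⟩).2, mem_ker_theta.2 ⟨⟨_, hk⟩, rfl⟩⟩, fun h => ?_⟩
  rw [mk_eq_iff] at h
  rcases h with h | h
  · exact eps_not_mem (h ▸ hk)
  · have := congrArg (fun a : Co0 => coordVec (a • axisVec p) p) h
    simp only [mul_smul, coordVec_negAut, coordVec_signAut, coordVec_eps, if_neg hpo, hd' p hpo',
      if_true, coordVec_axisVec] at this
    omega

/-- The large extraspecial hypothesis for `Co1`. -/
theorem co1_large_extraspecial : ∃ z : Spor.Co1, orderOf z = 2 ∧
    ∃ (Q : Subgroup (Subgroup.centralizer ({z} : Set Spor.Co1))) (_ : Q.Normal),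
      Cfsg.generalizedFittingSubgroup (Subgroup.centralizer ({z} : Set Spor.Co1)) = Q ∧
      Cfsg.IsExtraspecial 2 Q ∧ Nat.card Q = 2 ^ 9 ∧
      Nonempty ((Subgroup.centralizer ({z} : Set Spor.Co1)) ⧸ Q ≃*
        Cfsg.Omega (ZMod 2) (Cfsg.quadFormPlus 4 (ZMod 2))) ∧
      ∃ g : Spor.Co1, (∃ hq : g * z * g⁻¹ ∈ Subgroup.centralizer ({z} : Set Spor.Co1),
        (⟨g * z * g⁻¹, hq⟩ : Subgroup.centralizer ({z} : Set Spor.Co1)) ∈ Q) ∧ g * z * g⁻¹ ≠ z :=
  ⟨zC, orderOf_zC, theta.ker, inferInstance, genFitting_eq,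
    CfsgLib.PGroups.IsExtraspecial.of_mulEquiv kerEquiv isExtraspecial_K₀,
    by rw [← Nat.card_congr kerEquiv.toEquiv, card_K₀]; norm_num,
    ⟨QuotientGroup.quotientKerEquivOfSurjective theta theta_surjective⟩, exists_conj⟩

end CfsgLib.Fischer.OctadLattice
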