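import Cfsg.Agent.Lib.Fischer.OctadCentralizer
import Cfsg.Agent.Lib.Leech.Order

/-!
The centraliser of the octad sign change maps onto the commutator subgroup of the orthogonal group of the
octad lattice modulo two.
-/

set_option autoImplicit false

namespace CfsgLib.Fischer.OctadLattice

open Cfsg Finset CfsgLib.Leech CfsgLib.Fischer2
open CfsgLib.Fischer.OrthCocycle
open scoped Pointwise

/-- The hyperbolic form on codes. -/
def qp8 (x : ℕ) : Bool :=
  let y := x &&& (x >>> 4) &&& 15
  ((y.testBit 0 != y.testBit 1) != y.testBit 2) != y.testBit 3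

/-- Certificate for the hyperbolic form in dimension 8. -/
def certO : Cert where
  basis := [140, 184, 113, 227, 76, 47, 188, 21]
  s₀ := 50
  rest := [184, 247, 38, 139, 58, 200, 145]
  ent := [(138, 50, 184), (197, 50, 247), (163, 50, 145), (79, 184, 247), (158, 184, 38), (209, 247, 38), (124, 247, 139), (173, 38, 139), (238, 38, 200), (177, 139, 58), (242, 58, 200), (89, 200, 145), (172, 138, 38), (27, 138, 145), (227, 197, 38), (78, 197, 139), (84, 197, 145), (107, 163, 200), (196, 79, 139), (21, 158, 139), (86, 158, 200), (25, 209, 200), (70, 124, 58), (151, 173, 58), (101, 173, 200), (212, 238, 58), (127, 238, 145), (121, 177, 200), (99, 242, 145), (91, 172, 247), (39, 172, 139), (100, 172, 200), (61, 172, 145), (211, 27, 200), (43, 227, 200), (114, 227, 145), (116, 78, 58), (223, 78, 145), (156, 84, 200), (77, 107, 38), (81, 107, 58), (226, 196, 38), (254, 196, 58), (47, 21, 58), (221, 21, 200), (108, 86, 58), (199, 86, 145), (35, 25, 58), (136, 25, 145), (142, 70, 200), (244, 101, 145), (69, 212, 145), (232, 121,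 145), (147, 91, 200), (202, 91, 145), (29, 39, 58), (239, 39, 200), (182, 39, 145), (94, 100, 58), (233, 211, 58), (17, 43, 58), (188, 116, 200), (229, 116, 145), (23, 223, 200), (166, 156, 58), (198, 77, 139), (119, 77, 58), (218, 81, 139), (216, 226, 58), (42, 226, 200), (54, 254, 200), (251, 221, 38), (76, 221, 145), (253, 108, 145), (168, 35, 139), (178, 35, 145), (31, 142, 145), (141, 69, 200), (181, 147, 38), (169, 147, 58), (248, 202, 50), (140, 29, 145), (201, 239, 38), (98, 233, 139), (154, 17, 139), (49, 23, 38), (191, 119, 200), (83, 216, 139), (187, 42, 145), (167, 54, 145), (106, 251, 145), (53, 253, 200), (57, 168, 145), (122, 178, 200), (62, 181, 139), (143, 181, 58), (34, 169, 139), (68, 140, 200), (113, 201, 184), (149, 98, 247), (109, 154, 247), (137, 49, 184), (46, 191, 145), (162, 106, 200), (19, 53, 38), (241, 57, 200), (92, 122, 38), (71, 143, 200), (152, 162, 58), (228, 19, 247), (203, 241, 58), (214, 71, 145)]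
  wa := [143, 57, 254, 138, 23, 42, 81, 248]
  wu := [138, 38]
  words := [[false, false, false, false, false, false, false, false, false, false, false, false, false, false, true, false], [true, false, true, false, false, false, true, false, true, false, false, false, false, false, true, false, true, false, false, false, true, false, true, true, false], [false, false, false, false, false, false, false, false, false, false, false, false, false, false, true, true, false, true], [false, false, false, false, true, false, false, true, false, false, true, false, false, true, false, false, false, false, true, false, false, true, false, true, true, false, false, false, true], [false, true, false, false, false, false, false, true, false, true, false, false, false, true, false, true, false, false, false, true, false, false, true], [true, false, true, true, false, true, true, false, true, true, false, true, true, false, true, true, false, true, false, true, true, false, true, false, true], [false, false, true, false, false, false,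 false, false, false, false, true, false, false, true, false, false, true, false, false, false, false, false, false, false, false, true]]
  rels := []

set_option maxRecDepth 100000 in
theorem hq8 : ∀ x : Fin (2 ^ (4 + 4)),
    Cfsg.quadFormPlus 4 (ZMod 2) (dec finSumFinEquiv x) = bit₂ (qp8 x) := by decide +kernel

set_option maxRecDepth 100000 in
theorem certO_reach : reachOK (4 + 4) qp8 (certO.s₀ :: certO.rest) certO.ent (certO.s₀ :: certO.rest) = true := by
  decide +kernel

set_option maxRecDepth 100000 in
theorem certO_chain : OrthCocycle.chainOK (4 + 4) qp8 [0] certO.basis = true := by decide +kernel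

set_option maxRecDepth 100000 in
theorem certO_small : (rootb (4 + 4) qp8 certO.s₀ && certO.rest.all (rootb (4 + 4) qp8) && adjW (4 + 4) qp8 certO.wa &&
    adjW (4 + 4) qp8 certO.wu && (certO.rest.length == certO.words.length) &&
    ((certO.rest.zip certO.words).all fun p =>
      eqw (4 + 4) qp8 [certO.s₀, p.1] (OrthCocycle.expand certO p.2))) = true := by decide +kernel

/-- The generator of the three-cycle. -/
def cyc3 : Equiv.Perm (Fin 8) := Equiv.swap 0 1 * Equiv.swap 1 2

/-- The generator of the seven-cycle. -/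
def cyc7 : Equiv.Perm (Fin 8) :=
  Equiv.swap 1 2 * Equiv.swap 2 3 * Equiv.swap 3 4 * Equiv.swap 4 5 * Equiv.swap 5 6 * Equiv.swap 6 7

/-- Action of a permutation on the restricted lattice. -/
def permMap (π : Equiv.Perm (Fin 8)) (x : Fin 8 → ℤ) : Fin 8 → ℤ := fun i => x (π.symm i)

/-- Sign change at the first two points. -/
def signMap (x : Fin 8 → ℤ) : Fin 8 → ℤ := fun i => if i < 2 then -x i else x i

/-- The tetrad map. -/
def xiMap (x : Fin 8 → ℤ) : Fin 8 → ℤ := fun i =>
  if i < 4 then x i - (x 0 + x 1 + x 2 + x 3) / 2 else x i - (x 4 + x 5 + x 6 + x 7) / 2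

/-- The generators on the restricted lattice. -/
def genMap : Fin 4 → (Fin 8 → ℤ) → Fin 8 → ℤ
  | 0 => permMap cyc3
  | 1 => permMap cyc7
  | 2 => signMap
  | 3 => xiMap

/-- A word in the generators. -/
def wordMap (w : List (Fin 4)) (x : Fin 8 → ℤ) : Fin 8 → ℤ := w.foldr genMap x

/-- The word giving the first generator. -/
def wordA : List (Fin 4) := [0, 0, 1, 3, 1, 3, 2, 1, 3, 1, 1, 2, 0, 2, 3, 2, 0, 3, 0]

/-- The word giving the second generator. -/
def wordU : List (Fin 4) := [0, 1, 1, 0, 0, 1, 1, 3, 2, 0, 3, 1, 1, 2, 1, 2, 1, 0]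

/-- Vector to list, for evaluation. -/
def evalList (w : List (Fin 4)) (x : Fin 8 → ℤ) : List ℤ :=
  w.foldr (fun j l => List.ofFn (genMap j fun i => l.getD i 0)) (List.ofFn x)

theorem evalList_eq (w : List (Fin 4)) (x : Fin 8 → ℤ) : evalList w x = List.ofFn (wordMap w x) := by
  induction w with
  | nil => rfl
  | cons j w ih =>
    show List.ofFn (genMap j fun i : Fin 8 => (evalList w x).getD i 0) = List.ofFn (genMap j (wordMap w x))
    rw [ih]
    congr 2
    funext i
    fin_cases i <;> simp [List.getD_eq_getElem?_getD]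

set_option maxRecDepth 100000 in
theorem word_check : ∀ a : Fin 4 ⊕ Fin 4,
    proj (fun i : Fin 8 => (evalList wordA (sec8 (Pi.single a 1))).getD i 0) =
        dec finSumFinEquiv (actW qp8 certO.wa (2 ^ (finSumFinEquiv a : ℕ))) ∧
      proj (fun i : Fin 8 => (evalList wordU (sec8 (Pi.single a 1))).getD i 0) =
        dec finSumFinEquiv (actW qp8 certO.wu (2 ^ (finSumFinEquiv a : ℕ))) := by
  decide +kernel

theorem wordMap_list (w : List (Fin 4)) (x : Fin 8 → ℤ) :
    (fun i : Fin 8 => (evalList w x).getD i 0) = wordMap w x := by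
  funext i
  rw [evalList_eq]
  fin_cases i <;> simp [List.getD_eq_getElem?_getD]

/-- An element of the centraliser realising a map of the restricted lattice. -/
def Realises (g : Co0) (L : (Fin 8 → ℤ) → Fin 8 → ℤ) : Prop :=
  g ∈ C₀ ∧ ∀ v ∈ Supp, res (g • v) = L (res v)

theorem exists_perm (π : Equiv.Perm (Fin 8)) (hπ : Equiv.Perm.sign π = 1) :
    ∃ g, Realises g (permMap π) := by
  let e : Fin 8 ≃ ↥octad := Equiv.ofBijective (fun i => ⟨pts i, Finset.mem_image_of_mem _ (Finset.mem_univ i)⟩)
    ⟨fun a b h => pts_injective (congrArg Subtype.val h), fun ⟨p, hp⟩ => by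
      obtain ⟨i, -, rfl⟩ := Finset.mem_image.1 hp
      exact ⟨i, rfl⟩⟩
  have hmem : e.permCongr π ∈ alternatingGroup ↥octad := by
    rw [Equiv.Perm.mem_alternatingGroup, Equiv.Perm.sign_permCongr, hπ]
  rw [← CfsgLib.GolayStructure.octadRestrict_range octad_mem] at hmem
  obtain ⟨⟨σ, hσ⟩, hres⟩ := hmem
  have hσp : ∀ i, σ (pts i) = pts (π i) := fun i => by
    have h := congrArg Subtype.val (DFunLike.congr_fun hres (e i))
    rw [Equiv.permCongr_apply, Equiv.symm_apply_apply] at h
    exact h
  let σ' : M24 := ⟨σ, (CfsgLib.GolayStructure.mem_octadGroup.1 hσ).1⟩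
  refine ⟨permAut σ', ?_, fun v hv => funext fun i => ?_⟩
  · have := monomial_mem_C₀ (0 : golayCode) (σ := σ') fun p => CfsgLib.GolayStructure.octad_mem_iff hσ p
    rwa [show signAut (0 : golayCode) = 1 from map_one signHom, one_mul] at this
  · show coordVec (permAut σ' • v) (pts i) = coordVec v (pts (π.symm i))
    rw [coordVec_permAut]
    congr 1
    rw [Equiv.symm_apply_eq]
    show pts i = σ (pts (π.symm i))
    rw [hσp, Equiv.apply_symm_apply]

theorem exists_sign : ∃ g, Realises g signMap := by
  classical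
  obtain ⟨d, hd, hval⟩ := exists_code_on (T := octad.erase (pts 7))
    (by decide)
    (fun p => if p = pts 0 ∨ p = pts 1 then 1 else 0)
  have hsum := CfsgLib.Leech.sum_mul_eq_zero indWord_mem hd
  have hv : ∀ i : Fin 8, i ≠ 7 → d (pts i) = if i < 2 then 1 else 0 := by
    intro i hi
    rw [hval (pts i) (Finset.mem_erase.2 ⟨fun h => hi (pts_injective h),
      Finset.mem_image_of_mem _ (Finset.mem_univ i)⟩)]
    simp only [pts_injective.eq_iff]
    revert i; decide
  have h7 : d (pts 7) = 0 := by
    have e : ∑ p, indWord octad p * d p = ∑ i, d (pts i) := by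
      rw [← Finset.sum_subset (Finset.subset_univ octad) (fun p _ hp => by simp [indWord, hp]),
        Finset.sum_congr rfl (fun p hp => show indWord octad p * d p = d p by simp [indWord, hp]),
        octad, Finset.sum_image fun a _ b _ h => pts_injective h]
    rw [e, Fin.sum_univ_eight, hv 0 (by decide), hv 1 (by decide), hv 2 (by decide), hv 3 (by decide),
      hv 4 (by decide), hv 5 (by decide), hv 6 (by decide)] at hsum
    revert hsum
    generalize d (pts 7) = t
    revert t; decide
  refine ⟨signAut ⟨d, hd⟩, ?_, fun v _ => funext fun i => ?_⟩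
  · have := monomial_mem_C₀ ⟨d, hd⟩ (σ := 1) fun p => Iff.rfl
    rwa [show permAut (1 : M24) = 1 from map_one permHom, mul_one] at this
  · show coordVec (signAut ⟨d, hd⟩ • v) (pts i) = signMap (res v) i
    rw [coordVec_signAut]
    show (if d (pts i) = 0 then _ else _) = _
    by_cases hi : i = 7
    · subst hi; rw [h7, if_pos rfl]; rfl
    · rw [hv i hi, signMap]
      by_cases h2 : i < 2 <;> simp [h2, res]

/-- The first four points. -/
def tet : Finset GolayPt := (Finset.univ.filter fun i : Fin 8 => i < 4).image pts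

/-- The last four points. -/
def tet' : Finset GolayPt := (Finset.univ.filter fun i : Fin 8 => 4 ≤ i).image pts

theorem exists_xi8 : ∃ g, Realises g xiMap := by
  have hT : tet.card = 4 := by decide
  have hS := CfsgLib.GolayStructure.sextetOf_mem hT
  have hTS : tet ∈ CfsgLib.GolayStructure.sextetOf tet := Finset.mem_insert_self _ _
  have hUS : tet' ∈ CfsgLib.GolayStructure.sextetOf tet :=
    Finset.mem_insert_of_mem (CfsgLib.GolayStructure.mem_partners.2
      ⟨octad, octad_mem, by decide, by decide⟩)
  obtain ⟨T₀, hT₀, hne⟩ : ∃ T₀ ∈ CfsgLib.GolayStructure.sextetOf tet, T₀ ∉ ({tet, tet'} : Finset _) := by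
    refine Finset.exists_mem_notMem_of_card_lt_card ?_
    rw [hS.1]
    exact lt_of_le_of_lt Finset.card_le_two (by norm_num)
  simp only [Finset.mem_insert, Finset.mem_singleton, not_or] at hne
  have hval : ∀ (v : leechLattice) (i : Fin 8), coordVec (xiAut hS hT₀ • v) (pts i) = xiMap (res v) i := by
    intro v i
    by_cases hi : i < 4
    · have hp : pts i ∈ tet := Finset.mem_image_of_mem _ (by simpa using hi)
      show xiFun hS T₀ v (pts i) = _
      rw [xiFun_apply hS T₀ _ hTS hp, if_neg (fun h => hne.1 ((sign_tetrad hS hT₀ hTS hp).1 h).symm),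
        one_mul, xiMap, if_pos hi]
      rw [tet, Finset.sum_image fun a _ b _ h => pts_injective h,
        show (Finset.univ.filter fun i : Fin 8 => i < 4) = {0, 1, 2, 3} by decide]
      simp [res, coordVec, add_assoc]
    · have hp : pts i ∈ tet' := Finset.mem_image_of_mem _ (by simpa using not_lt.1 hi)
      show xiFun hS T₀ v (pts i) = _
      rw [xiFun_apply hS T₀ _ hUS hp, if_neg (fun h => hne.2 ((sign_tetrad hS hT₀ hUS hp).1 h).symm),
        one_mul, xiMap, if_neg hi]
      rw [tet', Finset.sum_image fun a _ b _ h => pts_injective h,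
        show (Finset.univ.filter fun i : Fin 8 => 4 ≤ i) = {4, 5, 6, 7} by decide]
      simp [res, coordVec, add_assoc]
  refine ⟨xiAut hS hT₀, ?_, fun v _ => funext (hval v)⟩
  refine Subgroup.mem_centralizer_singleton_iff.2 (co0_ext fun v p => ?_)
  have hpart : ∀ (U : Finset GolayPt), U ∈ CfsgLib.GolayStructure.sextetOf tet → ∀ q ∈ U,
      (q ∈ octad ↔ (U = tet ∨ U = tet')) := by
    intro U hU q hq
    constructor
    · intro hqo
      have : q ∈ tet ∨ q ∈ tet' := by
        obtain ⟨j, -, rfl⟩ := Finset.mem_image.1 hqo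
        by_cases hj : j < 4
        · exact Or.inl (Finset.mem_image_of_mem _ (by simpa using hj))
        · exact Or.inr (Finset.mem_image_of_mem _ (by simpa using not_lt.1 hj))
      rcases this with h | h
      · exact Or.inl ((sign_tetrad hS hTS hU hq).1 h)
      · exact Or.inr ((sign_tetrad hS hUS hU hq).1 h)
    · rintro (rfl | rfl) <;> obtain ⟨j, -, rfl⟩ := Finset.mem_image.1 hq <;>
        exact Finset.mem_image_of_mem _ (Finset.mem_univ j)
  obtain ⟨U, hU, hpU⟩ := exists_tetrad hS p
  simp only [mul_smul, coordVec_eps]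
  show xiFun hS T₀ (eps • v : leechLattice) p = if p ∈ octad then -xiFun hS T₀ v p else xiFun hS T₀ v p
  rw [xiFun_apply hS T₀ _ hU hpU, xiFun_apply hS T₀ _ hU hpU]
  by_cases hp : p ∈ octad
  · have hs : ∀ q ∈ U, ((eps • v : leechLattice) : GolayPt → ℤ) q = -(v : GolayPt → ℤ) q := fun q hq => by
      have := coordVec_eps v q
      rw [if_pos ((hpart U hU q hq).2 ((hpart U hU p hpU).1 hp))] at this
      exact this
    rw [Finset.sum_congr rfl hs, hs p hpU, Finset.sum_neg_distrib,
      Int.neg_ediv_of_dvd (tetrad_even hS v.2 hU), if_pos hp]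
    ring
  · have hs : ∀ q ∈ U, ((eps • v : leechLattice) : GolayPt → ℤ) q = (v : GolayPt → ℤ) q := fun q hq => by
      have := coordVec_eps v q
      rw [if_neg fun h => hp ((hpart U hU p hpU).2 ((hpart U hU q hq).1 h))] at this
      exact this
    rw [Finset.sum_congr rfl hs, hs p hpU, if_neg hp]

theorem exists_gen : ∀ j : Fin 4, ∃ g, Realises g (genMap j)
  | 0 => exists_perm cyc3 (by decide)
  | 1 => exists_perm cyc7 (by decide)
  | 2 => exists_sign
  | 3 => exists_xi8

theorem exists_word : ∀ w : List (Fin 4), ∃ g, Realises g (wordMap w)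
  | [] => ⟨1, one_mem _, fun v _ => by rw [one_smul]; rfl⟩
  | j :: w => by
    obtain ⟨g, hg, hgv⟩ := exists_gen j
    obtain ⟨h, hh, hhv⟩ := exists_word w
    refine ⟨g * h, mul_mem hg hh, fun v hv => ?_⟩
    rw [mul_smul, hgv _ (smul_mem_Supp hh hv), hhv v hv]
    rfl

theorem hq8' : ∀ x < 2 ^ (4 + 4), qF (dec finSumFinEquiv x) = bit₂ (qp8 x) := fun x hx => by
  rw [qF_coe]; exact hq8 ⟨x, hx⟩

theorem psi_word {g : Co0} {w : List (Fin 4)} (hg : Realises g (wordMap w)) {r : List ℕ}
    (hr : ∀ v ∈ r, rootb (4 + 4) qp8 v = true)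
    (h : ∀ a, proj (wordMap w (sec8 (Pi.single a 1))) =
      dec finSumFinEquiv (actW qp8 r (2 ^ (finSumFinEquiv a : ℕ)))) :
    psi ⟨g, hg.1⟩ = RW finSumFinEquiv qF r := by
  apply Subtype.ext
  apply Units.ext
  refine Matrix.ext_of_mulVec_single fun a => ?_
  show CfsgLib.OrthGen.act qF _ _ = CfsgLib.OrthGen.act qF _ _
  have hpa : pr (secV (Pi.single a 1)) = Pi.single a 1 := pr_secV _
  conv_lhs => rw [← hpa]
  rw [act_psi _ (secV_mem _), pr, hg.2 _ (secV_mem _), ← dec_two_pow finSumFinEquiv a,
    (act_RW finSumFinEquiv hq8' hr (Nat.pow_lt_pow_right one_lt_two (finSumFinEquiv a).isLt)).2]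
  have e : res (secV (Pi.single a 1)) = sec8 (Pi.single a 1) :=
    (exists_lift (sec8_mem (Pi.single a 1))).choose_spec.2
  rw [dec_two_pow finSumFinEquiv a, e]
  exact h a

theorem gens_mem_range :
    RW finSumFinEquiv qF certO.wa ∈ psi.range ∧ RW finSumFinEquiv qF certO.wu ∈ psi.range := by
  have h := certO_small
  simp only [Bool.and_eq_true] at h
  obtain ⟨⟨⟨⟨-, hwa⟩, hwu⟩, -⟩, -⟩ := h
  obtain ⟨g, hg⟩ := exists_word wordA
  obtain ⟨k, hk⟩ := exists_word wordU
  exact ⟨⟨_, psi_word hg (adjW_sound finSumFinEquiv hq8' _ hwa).1 fun a => by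
      rw [← wordMap_list]; exact (word_check a).1⟩,
    ⟨_, psi_word hk (adjW_sound finSumFinEquiv hq8' _ hwu).1 fun a => by
      rw [← wordMap_list]; exact (word_check a).2⟩⟩

/-- The orthogonal group of the octad lattice modulo two. -/
abbrev OG : Type := ↥(Cfsg.isometryGroup (ZMod 2) (⇑qF))

/-- The first reflection. -/
noncomputable def r₀ : OG := R finSumFinEquiv qF certO.s₀

theorem commutator_le_range : commutator OG ≤ psi.range ∧
    ∀ x : OG, x ∈ commutator OG ∨ x * r₀ ∈ commutator OG := by
  classical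
  have h := certO_small
  simp only [Bool.and_eq_true, List.all_eq_true, beq_iff_eq] at h
  obtain ⟨⟨⟨⟨⟨hs0, hrest⟩, hwa⟩, hwu⟩, hlen⟩, hwords⟩ := h
  obtain ⟨ra, ma⟩ := adjW_sound finSumFinEquiv hq8' _ hwa
  obtain ⟨ru, mu⟩ := adjW_sound finSumFinEquiv hq8' _ hwu
  obtain ⟨hA, hU⟩ := gens_mem_range
  have hsq : ∀ x, rootb (4 + 4) qp8 x = true →
      R finSumFinEquiv qF x * R finSumFinEquiv qF x = 1 := fun x hx => by
    have := RW_eq finSumFinEquiv hq8' (w := [x, x]) (w' := []) (by simp [hx]) (by simp) (eqw_sq hx)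
    simpa [RW] using this
  have hpair : ∀ s ∈ certO.rest, r₀ * R finSumFinEquiv qF s ∈ commutator OG ⊓ psi.range := by
    intro s hs
    obtain ⟨i, hi, rfl⟩ := List.mem_iff_getElem.1 hs
    have hi' : i < certO.words.length := hlen ▸ hi
    have hw := hwords (certO.rest[i], certO.words[i]) (List.mem_iff_getElem.2
      ⟨i, by rw [List.length_zip]; omega, List.getElem_zip⟩)
    have hexp : ∀ l : List Bool, (∀ v ∈ OrthCocycle.expand certO l, rootb (4 + 4) qp8 v = true) ∧
        RW finSumFinEquiv qF (OrthCocycle.expand certO l) ∈ commutator OG ⊓ psi.range := by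
      intro l
      induction l with
      | nil => exact ⟨by simp [OrthCocycle.expand], by simp [OrthCocycle.expand, RW, one_mem]⟩
      | cons b l ih =>
        rw [show OrthCocycle.expand certO (b :: l) =
          (if b then certO.wu else certO.wa) ++ OrthCocycle.expand certO l from rfl,
          RW_append finSumFinEquiv hq8']
        cases b
        · exact ⟨fun v hv => (List.mem_append.1 hv).elim (ra v) (ih.1 v), mul_mem ⟨ma, hA⟩ ih.2⟩
        · exact ⟨fun v hv => (List.mem_append.1 hv).elim (ru v) (ih.1 v), mul_mem ⟨mu, hU⟩ ih.2⟩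
    have e := RW_eq finSumFinEquiv hq8' (w := [certO.s₀, certO.rest[i]]) (by intro v hv; simp only [List.mem_cons, List.not_mem_nil, or_false] at hv; rcases hv with rfl | rfl; exacts [hs0, hrest _ (List.getElem_mem _)])
      (hexp _).1 hw
    have h2 := (hexp certO.words[i]).2
    rw [← e] at h2
    have e2 : RW finSumFinEquiv qF [certO.s₀, certO.rest[i]] = r₀ * R finSumFinEquiv qF certO.rest[i] := by
      simp only [RW, List.map_cons, List.map_nil, List.prod_cons, List.prod_nil, mul_one, r₀]
    exact e2 ▸ h2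
  set W := Subgroup.closure (insert r₀ {g : OG | ∃ s ∈ certO.rest, g = R finSumFinEquiv qF s}) with hW
  have hS : ∀ s ∈ certO.s₀ :: certO.rest, rootb (4 + 4) qp8 s = true ∧ R finSumFinEquiv qF s ∈ W := fun s hs => by
    rcases List.mem_cons.1 hs with rfl | hs
    · exact ⟨hs0, Subgroup.subset_closure (Set.mem_insert _ _)⟩
    · exact ⟨hrest s hs, Subgroup.subset_closure (Set.mem_insert_of_mem _ ⟨s, hs, rfl⟩)⟩
  have htop : W = ⊤ := eq_top_iff.2 fun g _ =>
    chain_sound finSumFinEquiv hq8' (reach_sound finSumFinEquiv hq8' hS certO.ent _ hS certO_reach)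
      certO.basis [0] certO_chain (fun x hx => by rw [List.mem_singleton.1 hx]; exact Nat.two_pow_pos _) g
      (fun x hx => by rw [List.mem_singleton.1 hx, dec_zero, CfsgLib.OrthGen.act_zero])
  have hr0 : r₀ * r₀ = 1 := hsq _ hs0
  have hri : r₀⁻¹ = r₀ := inv_eq_of_mul_eq_one_right hr0
  set T := {g : OG | ∃ s ∈ certO.rest, g = r₀ * R finSumFinEquiv qF s}
  set N := Subgroup.closure T
  have hNle : N ≤ commutator OG ⊓ psi.range := (Subgroup.closure_le _).2 (by
    rintro _ ⟨s, hs, rfl⟩; exact hpair s hs)
  have hgenr : ∀ s ∈ certO.rest, r₀ * (r₀ * R finSumFinEquiv qF s) * r₀ ∈ N := fun s hs => by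
    have e : r₀ * (r₀ * R finSumFinEquiv qF s) * r₀ = (r₀ * R finSumFinEquiv qF s)⁻¹ := by
      rw [← mul_assoc r₀, hr0, one_mul, mul_inv_rev, hri,
        inv_eq_of_mul_eq_one_right (hsq s (hrest s hs))]
    rw [e]
    exact inv_mem (Subgroup.subset_closure ⟨s, hs, rfl⟩)
  have hconj : ∀ n ∈ N, r₀ * n * r₀ ∈ N := by
    intro n hn
    induction hn using Subgroup.closure_induction with
    | mem x hx => obtain ⟨s, hs, rfl⟩ := hx; exact hgenr s hs
    | one => rw [mul_one, hr0]; exact one_mem N
    | mul a b _ _ ha hb =>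
      have e : r₀ * (a * b) * r₀ = r₀ * a * r₀ * (r₀ * b * r₀) := by
        calc r₀ * (a * b) * r₀ = r₀ * a * (r₀ * r₀) * b * r₀ := by rw [hr0]; group
          _ = _ := by group
      rw [e]; exact mul_mem ha hb
    | inv a _ ha =>
      have e : r₀ * a⁻¹ * r₀ = (r₀ * a * r₀)⁻¹ := by rw [mul_inv_rev, mul_inv_rev, hri, mul_assoc]
      rw [e]; exact inv_mem ha
  have hcos : ∀ x ∈ W, x ∈ N ∨ x * r₀ ∈ N := by
    intro x hx
    induction hx using Subgroup.closure_induction with
    | mem x hx =>
      rcases hx with rfl | ⟨s, hs, rfl⟩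
      · exact Or.inr (by rw [hr0]; exact one_mem N)
      · right
        have := hconj _ (Subgroup.subset_closure (show r₀ * R finSumFinEquiv qF s ∈ T from ⟨s, hs, rfl⟩))
        rwa [← mul_assoc r₀ r₀, hr0, one_mul] at this
    | one => exact Or.inl (one_mem N)
    | mul a b _ _ ha hb =>
      rcases ha with ha | ha <;> rcases hb with hb | hb
      · exact Or.inl (mul_mem ha hb)
      · exact Or.inr (by rw [mul_assoc]; exact mul_mem ha hb)
      · refine Or.inr ?_
        have e : a * b * r₀ = a * r₀ * (r₀ * b * r₀) := by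
          rw [← mul_assoc, ← mul_assoc, mul_assoc a r₀ r₀, hr0, mul_one]
        rw [e]; exact mul_mem ha (hconj _ hb)
      · refine Or.inl ?_
        have e : a * b = a * r₀ * (r₀ * (b * r₀) * r₀) := by
          calc a * b = a * 1 * b * 1 := by rw [mul_one, mul_one]
            _ = a * (r₀ * r₀) * b * (r₀ * r₀) := by rw [hr0]
            _ = _ := by group
        rw [e]; exact mul_mem ha (hconj _ hb)
    | inv a _ ha =>
      rcases ha with ha | ha
      · exact Or.inl (inv_mem ha)
      · refine Or.inr ?_
        have := hconj _ (inv_mem ha)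
        rwa [mul_inv_rev, hri, ← mul_assoc r₀ r₀, hr0, one_mul] at this
  have hNn : N.Normal := ⟨fun n hn g => by
    rcases hcos g (htop ▸ Subgroup.mem_top g) with hg | hg
    · exact mul_mem (mul_mem hg hn) (inv_mem hg)
    · have e : g * n * g⁻¹ = g * r₀ * (r₀ * n * r₀) * (g * r₀)⁻¹ := by
        rw [mul_inv_rev]
        calc g * n * g⁻¹ = g * 1 * n * 1 * g⁻¹ := by rw [mul_one, mul_one]
          _ = g * (r₀ * r₀) * n * (r₀ * r₀⁻¹) * g⁻¹ := by rw [hr0, mul_inv_cancel]
          _ = _ := by group
      rw [e]; exact mul_mem (mul_mem hg (hconj n hn)) (inv_mem hg)⟩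
  have hcomm : commutator OG ≤ N := by
    refine hNn.commutator_le_of_self_sup_commutative_eq_top (H := Subgroup.zpowers r₀) ?_ inferInstance
    refine eq_top_iff.2 fun g _ => ?_
    rcases hcos g (htop ▸ Subgroup.mem_top g) with hg | hg
    · exact Subgroup.mem_sup_left hg
    · have : g = g * r₀ * r₀ := by rw [mul_assoc, hr0, mul_one]
      rw [this]
      exact mul_mem (Subgroup.mem_sup_left hg) (Subgroup.mem_sup_right (Subgroup.mem_zpowers _))
  exact ⟨fun x hx => (hNle (hcomm hx)).2,
    fun x => (hcos x (htop ▸ Subgroup.mem_top x)).imp (fun h => (hNle h).1) fun h => (hNle h).1⟩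

/-- The sign of a Boolean. -/
def sgn (s : Bool) : ℤ := if s then 1 else -1

/-- Twice the sum of two signed coordinate vectors. -/
def pairX (a b : Fin 8) (s : Bool) : Fin 8 → ℤ := fun j =>
  4 * ((if j = a then 1 else 0) + if j = b then sgn s else 0)

/-- The lattice vector with restriction `pairX`. -/
def pairV (a b : Fin 8) (s : Bool) : leechLattice :=
  ⟨fun p => 4 * ((if p = pts a then 1 else 0) + if p = pts b then sgn s else 0), four_mul_mem (by
    rw [Finset.sum_add_distrib, Finset.sum_ite_eq', Finset.sum_ite_eq']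
    cases s <;> simp [sgn])⟩

theorem pairV_mem (a b : Fin 8) (s : Bool) : pairV a b s ∈ Supp := fun p hp => by
  have h : ∀ j, p ≠ pts j := fun j e => hp (e ▸ Finset.mem_image_of_mem _ (Finset.mem_univ j))
  show 4 * _ = (0 : ℤ)
  rw [if_neg (h a), if_neg (h b)]; rfl

theorem res_pairV (a b : Fin 8) (s : Bool) : res (pairV a b s) = pairX a b s := funext fun j => by
  show 4 * _ = pairX a b s j
  simp only [pts_injective.eq_iff]; rfl

theorem pairX_norm : ∀ (a b : Fin 8) (s : Bool), a ≠ b → dot8 (pairX a b s) (pairX a b s) = 32 := by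
  decide

theorem permMap_pairX (π : Equiv.Perm (Fin 8)) (a b : Fin 8) (s : Bool) :
    permMap π (pairX a b s) = pairX (π a) (π b) s := funext fun j => by
  simp only [permMap, pairX, Equiv.symm_apply_eq]

theorem no_swap {g : Co0} (hg : g ∈ C₀)
    (hrot : ∀ (a b : Fin 8) (s : Bool), a ≠ b → ∃ t : ℤ, (t = 1 ∨ t = -1) ∧
      ∀ j, res (g • pairV a b s) j = t * pairX (Equiv.swap 0 1 a) (Equiv.swap 0 1 b) s j) : False := by
  classical
  have haxis : axisVec (pts 2) = pairV 2 3 true + pairV 2 3 false := by
    refine eq_of_res (axisVec_mem (by decide)) (add_mem (pairV_mem _ _ _) (pairV_mem _ _ _)) ?_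
    rw [res_add, res_pairV, res_pairV]
    funext j
    show coordVec (axisVec (pts 2)) (pts j) = _
    rw [coordVec_axisVec]
    simp only [pts_injective.eq_iff]
    revert j; decide
  -- first: `g` is monomial
  obtain ⟨t1, h1, e1⟩ := hrot 2 3 true (by decide)
  obtain ⟨t2, h2, e2⟩ := hrot 2 3 false (by decide)
  obtain ⟨t3, h3, e3⟩ := hrot 2 4 true (by decide)
  obtain ⟨t4, h4, e4⟩ := hrot 2 4 false (by decide)
  have haxis' : axisVec (pts 2) = pairV 2 4 true + pairV 2 4 false := by
    refine eq_of_res (axisVec_mem (by decide)) (add_mem (pairV_mem _ _ _) (pairV_mem _ _ _)) ?_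
    rw [res_add, res_pairV, res_pairV]
    funext j
    show coordVec (axisVec (pts 2)) (pts j) = _
    rw [coordVec_axisVec]
    simp only [pts_injective.eq_iff]
    revert j; decide
  have hr : ∀ j, res (g • axisVec (pts 2)) j = t1 * pairX 2 3 true j + t2 * pairX 2 3 false j := fun j => by
    rw [haxis, smul_add_co0, res_add, Pi.add_apply, e1, e2]; rfl
  have hr' : ∀ j, res (g • axisVec (pts 2)) j = t3 * pairX 2 4 true j + t4 * pairX 2 4 false j := fun j => by
    rw [haxis', smul_add_co0, res_add, Pi.add_apply, e3, e4]; rfl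
  have ht : t2 = t1 := by
    have := (hr 3).symm.trans (hr' 3)
    simp [pairX, sgn] at this
    omega
  have hfix : res (g • axisVec (pts 2)) = res (t1 • axisVec (pts 2)) := by
    funext j
    rw [hr j, ht]
    show _ = (t1 • (axisVec (pts 2) : leechLattice)).1 (pts j)
    rw [AddSubgroup.coe_zsmul, Pi.smul_apply, smul_eq_mul, show (axisVec (pts 2)).1 (pts j) =
      if pts j = pts 2 then 8 else 0 from coordVec_axisVec _ _]
    simp only [pts_injective.eq_iff, pairX, sgn]
    split_ifs <;> simp_all <;> ring
  have hv := eq_of_res (smul_mem_Supp hg (axisVec_mem (by decide)))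
    (zsmul_mem (axisVec_mem (by decide)) t1) hfix
  have hcong : CongTwo (g • vecA) vecA := by
    have c1 := (congTwo_axisVec (pts 2)).smul g
    refine c1.symm.trans ?_
    rw [hv]
    rcases h1 with rfl | rfl
    · rw [one_zsmul]; exact congTwo_axisVec _
    · rw [neg_one_zsmul]
      exact (congTwo_iff.2 ⟨-axisVec (pts 2), by abel⟩ : CongTwo (-axisVec (pts 2)) (axisVec (pts 2))).trans
        (congTwo_axisVec _)
  obtain ⟨d, σ, rfl⟩ := exists_monomial hcong
  -- then: its permutation on the octad is the transposition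
  have hσ : ∀ a, (σ : Equiv.Perm GolayPt) (pts a) = pts (Equiv.swap 0 1 a) := by
    intro a
    have hm : ∀ b, a ≠ b → (σ : Equiv.Perm GolayPt) (pts a) = pts (Equiv.swap 0 1 a) ∨
        (σ : Equiv.Perm GolayPt) (pts a) = pts (Equiv.swap 0 1 b) := by
      intro b hab
      obtain ⟨t, ht, e⟩ := hrot a b true hab
      have hne : coordVec ((signAut d * permAut σ) • pairV a b true) ((σ : Equiv.Perm GolayPt) (pts a)) ≠ 0 := by
        rw [mul_smul, coordVec_signAut, coordVec_permAut, Equiv.symm_apply_apply]
        have : coordVec (pairV a b true) (pts a) ≠ 0 := by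
          have := congrFun (res_pairV a b true) a
          simp only [res] at this
          rw [this]; simp [pairX, hab, sgn]
        split_ifs <;> simpa using this
      have hmem : (σ : Equiv.Perm GolayPt) (pts a) ∈ octad := by
        by_contra h
        exact hne (smul_mem_Supp hg (pairV_mem a b true) _ h)
      obtain ⟨j, -, hj⟩ := Finset.mem_image.1 hmem
      rw [← hj] at hne ⊢
      have := e j
      simp only [res] at this
      rw [this] at hne
      by_contra hcon
      rw [not_or] at hcon
      simp only [pts_injective.eq_iff] at hcon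
      exact hne (by simp [pairX, hcon.1, hcon.2])
    obtain ⟨b, b', hb, hb', hbb⟩ : ∃ b b' : Fin 8, a ≠ b ∧ a ≠ b' ∧ b ≠ b' := by
      have : ∀ a : Fin 8, ∃ b b' : Fin 8, a ≠ b ∧ a ≠ b' ∧ b ≠ b' := by decide
      exact this a
    rcases hm b hb with h | h
    · exact h
    rcases hm b' hb' with h' | h'
    · exact h'
    · exact absurd ((Equiv.swap (0 : Fin 8) 1).injective (pts_injective (h.symm.trans h'))) hbb
  have hgrp : (σ : Equiv.Perm GolayPt) ∈ CfsgLib.GolayStructure.octadGroup octad := by
    refine CfsgLib.GolayStructure.mem_octadGroup.2 ⟨σ.2, ?_⟩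
    refine Finset.eq_of_subset_of_card_le (fun q hq => ?_) (Finset.card_smul_finset _ octad).ge
    obtain ⟨p, hp, rfl⟩ := Finset.mem_smul_finset.1 hq
    obtain ⟨a, -, rfl⟩ := Finset.mem_image.1 hp
    rw [Equiv.Perm.smul_def, hσ a]
    exact Finset.mem_image_of_mem _ (Finset.mem_univ _)
  let e : Fin 8 ≃ ↥octad := Equiv.ofBijective (fun i => ⟨pts i, Finset.mem_image_of_mem _ (Finset.mem_univ i)⟩)
    ⟨fun a b h => pts_injective (congrArg Subtype.val h), fun ⟨p, hp⟩ => by
      obtain ⟨i, -, rfl⟩ := Finset.mem_image.1 hp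
      exact ⟨i, rfl⟩⟩
  have hperm : e.permCongr (Equiv.swap 0 1) =
      CfsgLib.GolayStructure.octadRestrict octad ⟨_, hgrp⟩ := by
    refine Equiv.ext fun x => Subtype.ext ?_
    obtain ⟨i, rfl⟩ := e.surjective x
    rw [Equiv.permCongr_apply, Equiv.symm_apply_apply]
    exact (hσ i).symm
  have hev := (CfsgLib.GolayStructure.octadRestrict_range octad_mem).le ⟨⟨_, hgrp⟩, rfl⟩
  rw [← hperm, Equiv.Perm.mem_alternatingGroup, Equiv.Perm.sign_permCongr] at hev
  exact absurd hev (by decide)

theorem refl_not_mem_range {i : OG}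
    (hi : ∀ v ∈ Supp, ∀ w ∈ Supp, res w = permMap (Equiv.swap 0 1) (res v) →
      CfsgLib.OrthGen.act qF i (pr v) = pr w) : i ∉ psi.range := by
  rintro ⟨g, hg⟩
  have hrot : ∀ (a b : Fin 8) (s : Bool), a ≠ b →
      ∃ t : ℤ, (t = 1 ∨ t = -1) ∧ ∀ j, res ((g : Co0) • pairV a b s) j =
        t * pairX (Equiv.swap 0 1 a) (Equiv.swap 0 1 b) s j := by
    intro a b s hab
    set w := pairV (Equiv.swap 0 1 a) (Equiv.swap 0 1 b) s
    have hwr : res w = permMap (Equiv.swap 0 1) (res (pairV a b s)) := by
      rw [res_pairV, res_pairV, permMap_pairX]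
    have e := hi _ (pairV_mem a b s) w (pairV_mem _ _ _) hwr
    rw [← hg, act_psi g (pairV_mem a b s)] at e
    have hn : sqNorm (coordVec (pairV a b s)) = 32 := by
      rw [sqNorm_eq_dot (pairV_mem a b s), res_pairV, pairX_norm a b s hab]
    have hnw : sqNorm (coordVec w) = 32 := by
      rw [sqNorm_eq_dot (pairV_mem _ _ _), res_pairV,
        pairX_norm _ _ s fun h => hab ((Equiv.swap (0 : Fin 8) 1).injective h)]
    rcases eq_or_eq_neg (pairV_mem _ _ _) (smul_mem_Supp g.2 (pairV_mem a b s)) hnw
      ((CfsgLib.Leech.sqNorm_smul (g : Co0) _).trans hn) e.symm with e' | e'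
    · exact ⟨1, Or.inl rfl, fun j => by rw [e', res_pairV, one_mul]⟩
    · exact ⟨-1, Or.inr rfl, fun j => by rw [e', res_neg, res_pairV, Pi.neg_apply, neg_one_mul]⟩
  exact no_swap g.2 hrot

/-- The reflection in the class of the first basis vector. -/
noncomputable def r₁ : OG :=
  reflTwo qF (proj (basis8 0)) (by rw [qF_coe]; decide)

theorem r₁_not_mem : r₁ ∉ psi.range := by
  refine refl_not_mem_range fun v hv w hw e => ?_
  rw [r₁, act_reflTwo, pr, pr]
  have hx := res_mem hv
  obtain ⟨k, hk⟩ := sixteen_dvd_dot hx (basis8_mem 0)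
  have hk' : res v 0 - res v 1 = 4 * k := by
    have : dot8 (res v) (basis8 0) = 4 * (res v 0 - res v 1) := by
      simp [dot8, Fin.sum_univ_eight, basis8]; ring
    omega
  have hperm : res w = res v + (-k) • basis8 0 := by
    rw [e]
    funext j
    fin_cases j <;> simp [permMap, basis8, Equiv.swap_apply_def] <;> omega
  rw [hperm, proj_add hx, proj_smul (basis8_mem 0), CfsgLib.OrthGen.pf, QuadraticMap.polar_comm,
    polar_proj hx (basis8_mem 0), hk, Int.mul_ediv_cancel_left _ (by norm_num : (16 : ℤ) ≠ 0), Int.cast_neg,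
    ZMod.neg_eq_self_mod_two]

/-- The image of the centraliser is exactly the commutator subgroup. -/
theorem range_psi : psi.range = commutator OG := by
  obtain ⟨hle, hcos⟩ := commutator_le_range
  refine le_antisymm (fun x hx => ?_) hle
  refine (hcos x).resolve_right fun h => r₁_not_mem ?_
  have hr : r₀ ∈ psi.range := by
    have h2 := mul_mem (inv_mem hx) (hle h)
    rwa [inv_mul_cancel_left] at h2
  rcases hcos r₁ with h1 | h1
  · exact hle h1
  · have h2 := mul_mem (hle h1) (inv_mem hr)
    rwa [mul_inv_cancel_right] at h2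

end CfsgLib.Fischer.OctadLattice
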