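import Cfsg.Agent.Lib.Fischer.OctadImage
import Cfsg.Agent.Lib.GolayStructure.OctadStab
import Cfsg.Agent.Lib.Fischer2.LeechFrameNormal

/-!
The kernel of the action of the octad centraliser on the octad lattice is extraspecial of order `2 ^ 9` and
contains its centraliser, up to the centre of `Co0`.
-/

set_option autoImplicit false

namespace CfsgLib.Fischer.OctadLattice

open Cfsg Finset CfsgLib.Leech CfsgLib.Fischer2
open scoped Pointwise commutatorElement

/-- The tables of the pointwise stabiliser of the octad in `M24`. -/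
def kerTbls : List ℕ := (CfsgLib.Golay.chainOctad.head (by simp [CfsgLib.Golay.chainOctad])).2.2

theorem exists_tbl {σ : Equiv.Perm GolayPt} (h : σ ∈ CfsgLib.GolayStructure.octadKernel octad) :
    ∃ t ∈ kerTbls, CfsgLib.Golay.IsTbl σ t := by
  rw [octad_eq, CfsgLib.GolayStructure.octadKernel_base] at h
  obtain ⟨hrec, O, -, h1, h2, hb⟩ := CfsgLib.Golay.chainOK_cons (l := (1, [], kerTbls)) (ls := [])
    (sets := CfsgLib.Golay.octadPts) (final := CfsgLib.Golay.finalOctad) CfsgLib.Golay.chainOctad_ok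
  obtain ⟨t, ht, g, hg, htbl, he⟩ := h2 _ (h1 σ h)
  have hbot := CfsgLib.Golay.stabK_eq_bot hrec
  have hm : g⁻¹ * σ ∈ CfsgLib.Golay.stabK (2 ^ 1 :: CfsgLib.Golay.octadPts) := by
    rw [CfsgLib.Golay.stabK_cons_two_pow (by norm_num)]
    refine Subgroup.mem_inf.2 ⟨mul_mem (inv_mem hg) h, ?_⟩
    show (g⁻¹ * σ) • CfsgLib.Golay.pt 1 = CfsgLib.Golay.pt 1
    rw [mul_smul, inv_smul_eq_iff]
    exact he.symm
  rw [hbot, Subgroup.mem_bot, inv_mul_eq_one] at hm
  exact ⟨t, ht, hm ▸ htbl⟩

set_option maxRecDepth 100000 in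
theorem kerTbls_comm : (kerTbls.all fun t => (List.range 24).all fun i =>
    CfsgLib.Golay.tblAt t (CfsgLib.Golay.tblAt t i) == i &&
      kerTbls.all fun u => CfsgLib.Golay.tblAt t (CfsgLib.Golay.tblAt u i) ==
        CfsgLib.Golay.tblAt u (CfsgLib.Golay.tblAt t i)) = true := by decide +kernel

set_option maxRecDepth 100000 in
theorem kerTbls_code : CfsgLib.Golay.allSpan CfsgLib.Golay.basisMasks (fun n =>
    n &&& CfsgLib.Golay.octMask != 0 || kerTbls.all fun t =>
      n ^^^ CfsgLib.Golay.imgMask t n == 0 ||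
        n ^^^ CfsgLib.Golay.imgMask t n == CfsgLib.Golay.fullMask ^^^ CfsgLib.Golay.octMask) = true := by
  decide +kernel

theorem kernel_sq {σ : Equiv.Perm GolayPt} (h : σ ∈ CfsgLib.GolayStructure.octadKernel octad) :
    σ * σ = 1 := by
  obtain ⟨t, ht, htb⟩ := exists_tbl h
  have hc := kerTbls_comm
  simp only [List.all_eq_true, Bool.and_eq_true, beq_iff_eq, List.mem_range] at hc
  refine Equiv.ext fun p => CfsgLib.Golay.idx_injective ?_
  rw [Equiv.Perm.mul_apply, htb, htb, (hc t ht _ (CfsgLib.Golay.idx_lt p)).1]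
  rfl

theorem kernel_comm {σ τ : Equiv.Perm GolayPt} (h : σ ∈ CfsgLib.GolayStructure.octadKernel octad)
    (h' : τ ∈ CfsgLib.GolayStructure.octadKernel octad) : σ * τ = τ * σ := by
  obtain ⟨t, ht, htb⟩ := exists_tbl h
  obtain ⟨u, hu, hub⟩ := exists_tbl h'
  have hc := kerTbls_comm
  simp only [List.all_eq_true, Bool.and_eq_true, beq_iff_eq, List.mem_range] at hc
  refine Equiv.ext fun p => CfsgLib.Golay.idx_injective ?_
  rw [Equiv.Perm.mul_apply, Equiv.Perm.mul_apply, htb, hub, hub, htb,
    (hc t ht _ (CfsgLib.Golay.idx_lt p)).2 u hu]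

theorem octad_unmask : octad = CfsgLib.Golay.unmask CfsgLib.Golay.octMask := by
  rw [octad_eq, CfsgLib.GolayStructure.baseOctad_eq]

/-- Moving a code word vanishing on the octad by the octad kernel changes it by a constant off the octad. -/
theorem code_shift {σ : Equiv.Perm GolayPt} (hσ : σ ∈ CfsgLib.GolayStructure.octadKernel octad)
    {d : GolayPt → ZMod 2} (hd : d ∈ golayCode) (hd0 : ∀ p ∈ octad, d p = 0) :
    (∀ p, d p + d (σ.symm p) = 0) ∨ ∀ p, d p + d (σ.symm p) = 1 + indWord octad p := by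
  obtain ⟨t, ht, htb⟩ := exists_tbl hσ
  obtain ⟨n, hn, rfl⟩ := CfsgLib.Golay.mem_golayCode_iff.1 hd
  have hsymm : ∀ p, CfsgLib.Golay.wordOf n (σ.symm p) = CfsgLib.Golay.wordOf (CfsgLib.Golay.imgMask t n) p := by
    intro p
    have h := CfsgLib.Golay.smul_unmask htb n
    simp only [CfsgLib.Golay.wordOf]
    by_cases hb : n.testBit (CfsgLib.Golay.idx (σ.symm p))
    · have : p ∈ σ • CfsgLib.Golay.unmask n := by
        rw [Finset.mem_smul_finset]
        exact ⟨_, CfsgLib.Golay.mem_unmask.2 hb, σ.apply_symm_apply p⟩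
      rw [h, CfsgLib.Golay.mem_unmask] at this
      rw [if_pos hb, if_pos this]
    · have : p ∉ σ • CfsgLib.Golay.unmask n := by
        rw [Finset.mem_smul_finset]
        rintro ⟨q, hq, rfl⟩
        exact hb (by simpa using CfsgLib.Golay.mem_unmask.1 hq)
      rw [h, CfsgLib.Golay.mem_unmask] at this
      rw [if_neg hb, if_neg this]
  have h0 : n &&& CfsgLib.Golay.octMask = 0 := by
    refine Nat.eq_of_testBit_eq fun i => ?_
    rw [Nat.zero_testBit, Nat.testBit_and]
    by_cases hi : i < 24
    · by_contra hne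
      simp only [Bool.and_eq_false_iff, not_or, Bool.not_eq_false] at hne
      have := hd0 (CfsgLib.Golay.pt i) (by rw [octad_unmask, CfsgLib.Golay.pt_mem_unmask hi]; exact hne.2)
      simp [CfsgLib.Golay.wordOf, CfsgLib.Golay.idx_pt hi, hne.1] at this
    · rw [Nat.testBit_lt_two_pow (x := CfsgLib.Golay.octMask) (i := i)
        (lt_of_lt_of_le (by norm_num [CfsgLib.Golay.octMask] : CfsgLib.Golay.octMask < 2 ^ 24)
          (Nat.pow_le_pow_right two_pos (not_lt.1 hi))), Bool.and_false]
  have hc := CfsgLib.Golay.allSpan_iff.1 kerTbls_code n hn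
  simp only [h0, bne_self_eq_false, Bool.false_or, List.all_eq_true, Bool.or_eq_true, beq_iff_eq] at hc
  rcases hc t ht with e | e
  · refine Or.inl fun p => ?_
    rw [hsymm, ← Pi.add_apply, ← CfsgLib.Golay.wordOf_xor, e, CfsgLib.Golay.wordOf_zero]; rfl
  · refine Or.inr fun p => ?_
    rw [hsymm, ← Pi.add_apply, ← CfsgLib.Golay.wordOf_xor, e, CfsgLib.Golay.wordOf_xor, Pi.add_apply]
    have hf : CfsgLib.Golay.wordOf CfsgLib.Golay.fullMask p = 1 := by
      have := (CfsgLib.Golay.unmask_fullMask).symm ▸ Finset.mem_univ p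
      simp only [CfsgLib.Golay.wordOf]
      rw [if_pos (CfsgLib.Golay.mem_unmask.1 this)]
    have ho : CfsgLib.Golay.wordOf CfsgLib.Golay.octMask p = indWord octad p := by
      simp only [CfsgLib.Golay.wordOf, indWord]
      rw [octad_unmask]
      simp only [CfsgLib.Golay.mem_unmask]
    rw [hf, ho]

/-- The central element of the kernel. -/
def zK : Co0 := negAut * eps

theorem coordVec_zK (v : leechLattice) (p : GolayPt) :
    coordVec (zK • v) p = if p ∈ octad then coordVec v p else -coordVec v p := by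
  rw [zK, mul_smul, coordVec_negAut, coordVec_eps]
  split_ifs <;> simp

theorem zK_eq : zK = signAut (oneWord + d₀) := by
  rw [zK, eps, ← signAut_oneWord, signAut_mul]

theorem eps_mem_C₀ : eps ∈ C₀ := Subgroup.mem_centralizer_singleton_iff.2 rfl

theorem zK_mem : zK ∈ K₀ :=
  ⟨mul_mem negAut_mem_C₀ eps_mem_C₀, fun v hv => Subtype.ext (funext fun p => by
    show coordVec (zK • v) p = coordVec v p
    rw [coordVec_zK]
    split_ifs with hp
    · rfl
    · rw [hv p hp]; rfl)⟩

theorem zK_sq : zK * zK = 1 :=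
  co0_ext fun v p => by
    rw [mul_smul, coordVec_zK, coordVec_zK, one_smul]
    split_ifs <;> simp

theorem mem_kernel_of_fix {σ : M24} (h : ∀ p ∈ octad, (σ : Equiv.Perm GolayPt) p = p) :
    (σ : Equiv.Perm GolayPt) ∈ CfsgLib.GolayStructure.octadKernel octad :=
  CfsgLib.GolayStructure.mem_octadKernel.2 ⟨σ.2, h⟩

theorem sign_perm_comm {d : golayCode} (hd : ∀ p ∈ octad, (d : GolayPt → ZMod 2) p = 0) {σ : M24}
    (hσ : ∀ p ∈ octad, (σ : Equiv.Perm GolayPt) p = p) :
    ∃ ζ, (ζ = 1 ∨ ζ = zK) ∧ permAut σ * signAut d = ζ * (signAut d * permAut σ) := by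
  rw [permAut_mul_signAut]
  set d' : golayCode := ⟨fun i => (d : GolayPt → ZMod 2) ((σ : Equiv.Perm GolayPt).symm i),
    comp_mem_golayCode (M24.inv_mem σ.2) d.2⟩
  have hz : ∀ a b : ZMod 2, a + b = 0 → b = a := by decide
  rcases code_shift (mem_kernel_of_fix hσ) d.2 hd with h | h
  · refine ⟨1, Or.inl rfl, ?_⟩
    rw [one_mul, show d' = d from Subtype.ext (funext fun p => hz _ _ (h p))]
  · refine ⟨zK, Or.inr rfl, ?_⟩
    have hz' : ∀ a b c : ZMod 2, a + b = c → b = c + a := by decide
    rw [← mul_assoc, zK_eq, signAut_mul,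
      show d' = oneWord + d₀ + d from Subtype.ext (funext fun p => by
        rw [Submodule.coe_add, Submodule.coe_add]
        exact hz' _ _ _ (h p))]

theorem permAut_comm {σ τ : M24} (hσ : ∀ p ∈ octad, (σ : Equiv.Perm GolayPt) p = p)
    (hτ : ∀ p ∈ octad, (τ : Equiv.Perm GolayPt) p = p) : permAut σ * permAut τ = permAut τ * permAut σ := by
  rw [← permHom_apply, ← permHom_apply, ← map_mul, ← map_mul,
    show σ * τ = τ * σ from Subtype.ext (kernel_comm (mem_kernel_of_fix hσ) (mem_kernel_of_fix hτ))]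

theorem permAut_sq {σ : M24} (hσ : ∀ p ∈ octad, (σ : Equiv.Perm GolayPt) p = p) :
    permAut σ * permAut σ = 1 := by
  rw [← permHom_apply, ← map_mul, show σ * σ = 1 from Subtype.ext (kernel_sq (mem_kernel_of_fix hσ)), map_one]

theorem signAut_comm (a b : golayCode) : signAut a * signAut b = signAut b * signAut a := by
  rw [signAut_mul, signAut_mul, add_comm]

theorem signAut_sq (a : golayCode) : signAut a * signAut a = 1 := by
  conv_lhs => arg 2; rw [← signAut_inv a]
  exact mul_inv_cancel _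

theorem zK_comm {k : Co0} (hk : k ∈ C₀) : zK * k = k * zK := by
  have h1 : eps * k = k * eps := (Subgroup.mem_centralizer_singleton_iff.1 hk).symm
  have h2 : negAut * k = k * negAut := (Subgroup.mem_center_iff.1 negAut_mem_center k).symm
  rw [zK, mul_assoc, h1, ← mul_assoc, h2, mul_assoc]

theorem comm_mem {g h : Co0} (hg : g ∈ K₀) (hh : h ∈ K₀) :
    (∃ ζ, (ζ = 1 ∨ ζ = zK) ∧ g * h = ζ * (h * g)) ∧ (g * g = 1 ∨ g * g = zK) := by
  obtain ⟨d, σ, rfl, hd, hσ⟩ := mem_K₀_iff.1 hg
  obtain ⟨e, τ, rfl, he, hτ⟩ := mem_K₀_iff.1 hh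
  have hzc : ∀ ζ, (ζ = 1 ∨ ζ = zK) → ∀ k ∈ C₀, ζ * k = k * ζ := by
    rintro ζ (rfl | rfl) k hk
    · rw [one_mul, mul_one]
    · exact zK_comm hk
  have hzz : ∀ ζ ξ : Co0, (ζ = 1 ∨ ζ = zK) → (ξ = 1 ∨ ξ = zK) → (ζ * ξ = 1 ∨ ζ * ξ = zK) := by
    rintro ζ ξ (rfl | rfl) (rfl | rfl)
    · left; rw [one_mul]
    · right; rw [one_mul]
    · right; rw [mul_one]
    · left; exact zK_sq
  have mS : ∀ {d : golayCode}, (∀ p ∈ octad, (d : GolayPt → ZMod 2) p = 0) → signAut d ∈ C₀ := fun {d} _ => by
    have := monomial_mem_C₀ d (σ := 1) fun p => Iff.rfl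
    rwa [show permAut (1 : M24) = 1 from map_one permHom, mul_one] at this
  refine ⟨?_, ?_⟩
  · obtain ⟨ζ, hζ, e1⟩ := sign_perm_comm he hσ
    obtain ⟨ξ, hξ, e2⟩ := sign_perm_comm hd hτ
    have hξi : ξ * ξ = 1 := by rcases hξ with rfl | rfl; exacts [one_mul 1, zK_sq]
    refine ⟨ζ * ξ, hzz ζ ξ hζ hξ, ?_⟩
    calc signAut d * permAut σ * (signAut e * permAut τ)
        = signAut d * (permAut σ * signAut e) * permAut τ := by group
      _ = signAut d * (ζ * (signAut e * permAut σ)) * permAut τ := by rw [e1]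
      _ = (signAut d * ζ) * signAut e * (permAut σ * permAut τ) := by group
      _ = (ζ * signAut d) * signAut e * (permAut τ * permAut σ) := by
          rw [hzc ζ hζ _ (mS hd), permAut_comm hσ hτ]
      _ = ζ * (signAut d * signAut e) * (permAut τ * permAut σ) := by group
      _ = ζ * (signAut e * signAut d) * (permAut τ * permAut σ) := by rw [signAut_comm d e]
      _ = ζ * signAut e * (signAut d * permAut τ) * permAut σ := by group
      _ = ζ * signAut e * (ξ * (ξ * (signAut d * permAut τ))) * permAut σ := by rw [← mul_assoc ξ ξ, hξi, one_mul]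
      _ = ζ * signAut e * (ξ * (permAut τ * signAut d)) * permAut σ := by rw [e2]
      _ = ζ * (signAut e * ξ) * permAut τ * (signAut d * permAut σ) := by group
      _ = ζ * (ξ * signAut e) * permAut τ * (signAut d * permAut σ) := by rw [hzc ξ hξ _ (mS he)]
      _ = _ := by group
  · obtain ⟨ζ, hζ, e1⟩ := sign_perm_comm hd hσ
    have : signAut d * permAut σ * (signAut d * permAut σ) = ζ := by
      calc signAut d * permAut σ * (signAut d * permAut σ)
          = signAut d * (permAut σ * signAut d) * permAut σ := by group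
        _ = signAut d * (ζ * (signAut d * permAut σ)) * permAut σ := by rw [e1]
        _ = (signAut d * ζ) * signAut d * (permAut σ * permAut σ) := by group
        _ = (ζ * signAut d) * signAut d := by rw [hzc ζ hζ _ (mS hd), permAut_sq hσ, mul_one]
        _ = ζ := by rw [mul_assoc, signAut_sq, mul_one]
    rw [this]; exact hζ

theorem exists_separating {p q : GolayPt} (hp : p ∉ octad) (hq : q ∉ octad) (hpq : p ≠ q) :
    ∃ d : golayCode, (∀ r ∈ octad, (d : GolayPt → ZMod 2) r = 0) ∧
      (d : GolayPt → ZMod 2) p ≠ (d : GolayPt → ZMod 2) q := by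
  have key : ∀ i < 24, ∀ j < 24, i ≠ j → CfsgLib.Golay.octMask.testBit i = false →
      CfsgLib.Golay.octMask.testBit j = false →
      CfsgLib.Golay.allSpan CfsgLib.Golay.basisMasks (fun n =>
        n &&& CfsgLib.Golay.octMask != 0 || n.testBit i == n.testBit j) = false := by decide +kernel
  have hi : ∀ {r}, r ∉ octad → CfsgLib.Golay.octMask.testBit (CfsgLib.Golay.idx r) = false := fun {r} hr => by
    rw [octad_unmask, CfsgLib.Golay.mem_unmask] at hr
    simpa using hr
  have h := key _ (CfsgLib.Golay.idx_lt p) _ (CfsgLib.Golay.idx_lt q)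
    (fun e => hpq (CfsgLib.Golay.idx_injective e)) (hi hp) (hi hq)
  by_contra hcon
  push Not at hcon
  refine Bool.false_ne_true (h.symm.trans (CfsgLib.Golay.allSpan_iff.2 fun n hn => ?_))
  by_cases h0 : n &&& CfsgLib.Golay.octMask = 0
  · have := hcon ⟨_, CfsgLib.Golay.wordOf_mem_golayCode hn⟩ fun r hr => by
      show CfsgLib.Golay.wordOf n r = 0
      rw [octad_unmask, CfsgLib.Golay.mem_unmask] at hr
      have h2 := congrArg (fun m => m.testBit (CfsgLib.Golay.idx r)) h0
      simp only [Nat.testBit_and, hr, Bool.and_true, Nat.zero_testBit] at h2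
      simp [CfsgLib.Golay.wordOf, h2]
    simp only [CfsgLib.Golay.wordOf] at this
    simp only [h0, bne_self_eq_false, Bool.false_or, beq_iff_eq]
    revert this
    rcases n.testBit (CfsgLib.Golay.idx p) <;> rcases n.testBit (CfsgLib.Golay.idx q) <;> simp
  · simp [bne_iff_ne.2 h0]

theorem signAut_mem_K₀ {d : golayCode} (hd : ∀ p ∈ octad, (d : GolayPt → ZMod 2) p = 0) : signAut d ∈ K₀ :=
  mem_K₀_iff.2 ⟨d, 1, by rw [show permAut (1 : M24) = 1 from map_one permHom, mul_one], hd, fun p _ => rfl⟩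

theorem permAut_mem_K₀ {σ : M24} (hσ : ∀ p ∈ octad, (σ : Equiv.Perm GolayPt) p = p) : permAut σ ∈ K₀ :=
  mem_K₀_iff.2 ⟨0, σ, by rw [show signAut (0 : golayCode) = 1 from map_one CfsgLib.Fischer2.signHom, one_mul],
    fun p _ => rfl, hσ⟩

theorem disjoint_octad :
    ∃ o' ∈ octads, Disjoint o' octad ∧ ∃ p, p ∉ octad ∧ p ∉ o' := by
  refine ⟨_, CfsgLib.Golay.mem_octads_iff.2 ⟨762504, CfsgLib.Golay.inCode_iff.1 (by decide +kernel),
    by decide +kernel, rfl⟩, ?_, some 1, by decide, ?_⟩
  · rw [octad_unmask]; decide +kernel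
  · decide +kernel

/-- The centraliser of the kernel in the octad centraliser. -/
theorem centralizer_K₀ {g : Co0} (hg : g ∈ C₀) (hc : ∀ k ∈ K₀, g * k = k * g) :
    g = 1 ∨ g = negAut ∨ g = eps ∨ g = zK := by
  classical
  have hfix : ∀ v : leechLattice, eps • v = v → eps • (g • v) = g • v := fun v hv => by
    rw [← mul_smul, ← Subgroup.mem_centralizer_singleton_iff.1 hg, mul_smul, hv]
  have hax : ∀ p ∉ octad, ∀ q, q ≠ p → coordVec (g • axisVec p) q = 0 := by
    intro p hp q hqp
    by_cases hq : q ∈ octad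
    · have h1 := hfix (axisVec p) (Subtype.ext (funext fun r => by
        show coordVec (eps • axisVec p) r = coordVec (axisVec p) r
        rw [coordVec_eps]
        split_ifs with hr
        · rw [coordVec_axisVec, if_neg (fun h : r = p => hp (h ▸ hr)), neg_zero]
        · rfl))
      have h2 := congrArg (fun w => coordVec w q) h1
      simp only [coordVec_eps, if_pos hq] at h2
      omega
    · obtain ⟨d, hd0, hne⟩ := exists_separating hp hq (Ne.symm hqp)
      have hk := hc _ (signAut_mem_K₀ hd0)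
      have h1 : signAut d • (g • axisVec p) = g • (signAut d • axisVec p) := by
        rw [← mul_smul, ← hk, mul_smul]
      have h2 : signAut d • axisVec p =
          (if (d : GolayPt → ZMod 2) p = 0 then (1 : ℤ) else -1) • axisVec p := by
        refine Subtype.ext (funext fun r => ?_)
        show coordVec (signAut d • axisVec p) r = _
        rw [coordVec_signAut, AddSubgroup.coe_zsmul, Pi.smul_apply, smul_eq_mul]
        show _ = _ * coordVec (axisVec p) r
        rw [coordVec_axisVec]
        by_cases hr : r = p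
        · subst hr; split_ifs <;> simp
        · simp [hr]
      have h3 := congrArg (fun w => coordVec w q) h1
      rw [h2, smul_zsmul_co0] at h3
      simp only [coordVec_signAut] at h3
      have h4 : coordVec ((if (d : GolayPt → ZMod 2) p = 0 then (1 : ℤ) else -1) • (g • axisVec p)) q =
          (if (d : GolayPt → ZMod 2) p = 0 then (1 : ℤ) else -1) * coordVec (g • axisVec p) q := by
        split_ifs <;> simp [coordVec]
      rw [h4] at h3
      rcases CfsgLib.Leech.zmod2_cases ((d : GolayPt → ZMod 2) p) with e | e <;>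
        rcases CfsgLib.Leech.zmod2_cases ((d : GolayPt → ZMod 2) q) with e' | e' <;>
        simp [e, e'] at h3 hne ⊢ <;> omega
  -- monomial
  have hp₁ : (some 1 : GolayPt) ∉ octad := by decide
  have habs : |coordVec (g • axisVec (some 1)) (some 1)| = 8 := by
    have h := CfsgLib.Leech.sqNorm_smul g (axisVec (some 1))
    have e : sqNorm (coordVec (g • axisVec (some 1))) = coordVec (g • axisVec (some 1)) (some 1) ^ 2 := by
      rw [← CfsgLib.Leech.dotInt_self]
      show ∑ r, _ * _ = _
      rw [Finset.sum_eq_single (some 1) (fun r _ hr => by rw [hax _ hp₁ r hr, zero_mul])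
        (fun h => absurd (Finset.mem_univ _) h)]
      ring
    rw [sq_abs (coordVec (g • axisVec (some 1)) (some 1)) |>.symm] at e
    have hn : sqNorm (coordVec (g • axisVec (some 1))) = 64 := by
      rw [show sqNorm (coordVec (g • axisVec (some 1))) = sqNorm (coordVec (axisVec (some 1))) from h]
      exact sqNorm_axisVec _
    rw [hn] at e
    have := abs_nonneg (coordVec (g • axisVec (some 1)) (some 1))
    nlinarith
  have hcong : CongTwo (g • vecA) vecA := by
    refine ((congTwo_axisVec (some 1)).smul g).symm.trans ?_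
    exact congTwo_vecA_of_four_mul _ (some 1) habs fun r hr => hax _ hp₁ r hr
  obtain ⟨d, σ, rfl⟩ := exists_monomial hcong
  have hσfix : ∀ p ∉ octad, (σ : Equiv.Perm GolayPt) p = p := by
    intro p hp
    by_contra hne
    have := hax p hp _ hne
    simp only [mul_smul, coordVec_signAut, coordVec_permAut, coordVec_axisVec, Equiv.symm_apply_apply,
      if_true] at this
    split_ifs at this <;> omega
  have hσ1 : σ = 1 := by
    obtain ⟨o', ho', hdisj, p, hpo, hpo'⟩ : ∃ o' ∈ octads, Disjoint o' octad ∧ ∃ p, p ∉ octad ∧ p ∉ o' :=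
      disjoint_octad
    have hk : (σ : Equiv.Perm GolayPt) ∈ CfsgLib.GolayStructure.octadKernel o' :=
      CfsgLib.GolayStructure.mem_octadKernel.2
        ⟨σ.2, fun r hr => hσfix r (Finset.disjoint_left.1 hdisj hr)⟩
    have hst : (σ : Equiv.Perm GolayPt) ∈ CfsgLib.GolayStructure.octadPointGroup o' p :=
      ⟨⟨σ.2, MulAction.mem_stabilizer_iff.2
        (CfsgLib.GolayStructure.mem_octadGroup.1 (CfsgLib.GolayStructure.octadKernel_le o' hk)).2⟩,
        hσfix p hpo⟩
    have : (σ : Equiv.Perm GolayPt) ∈ (⊥ : Subgroup (Equiv.Perm GolayPt)) :=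
      (CfsgLib.GolayStructure.card_octadPointGroup ho' hpo').2 ▸ Subgroup.mem_inf.2 ⟨hk, hst⟩
    exact Subtype.ext (Subgroup.mem_bot.1 this)
  subst hσ1
  rw [show permAut (1 : M24) = 1 from map_one permHom, mul_one] at hc ⊢
  have hdconst : ∀ p q, p ∉ octad → q ∉ octad → (d : GolayPt → ZMod 2) p = (d : GolayPt → ZMod 2) q := by
    intro p q hp hq
    obtain ⟨τ, hτ, rfl⟩ := CfsgLib.GolayStructure.octadKernel_transitive octad_mem hp hq
    have hτ' := CfsgLib.GolayStructure.mem_octadKernel.1 hτ
    have h := hc _ (permAut_mem_K₀ (σ := ⟨τ, hτ'.1⟩) hτ'.2)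
    rw [permAut_mul_signAut] at h
    have h' := (monomial_unique h).1
    have := congrFun (congrArg Subtype.val h') (τ p)
    simp only [Equiv.symm_apply_apply] at this
    exact this.symm
  -- identify the word
  have hd : ∃ w : golayCode, (w = 0 ∨ w = oneWord) ∧ ∀ p ∉ octad, ((d + w : golayCode) : GolayPt → ZMod 2) p = 0 := by
    rcases CfsgLib.Leech.zmod2_cases ((d : GolayPt → ZMod 2) (some 1)) with e | e
    · exact ⟨0, Or.inl rfl, fun p hp => by rw [add_zero, hdconst p _ hp hp₁, e]⟩
    · exact ⟨oneWord, Or.inr rfl, fun p hp => by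
        rw [Submodule.coe_add, Pi.add_apply, hdconst p _ hp hp₁, e]
        show (1 : ZMod 2) + 1 = 0
        decide⟩
  obtain ⟨w, hw, hdw⟩ := hd
  have hval : d + w = 0 ∨ d + w = d₀ := by
    by_cases h0 : d + w = 0
    · exact Or.inl h0
    · refine Or.inr (Subtype.ext (support₂_injective ?_))
      show _ = support₂ (indWord octad)
      rw [support₂_indWord]
      refine Finset.eq_of_subset_of_card_le (fun p hp => ?_) ?_
      · by_contra hpo
        simp only [support₂, Finset.mem_filter, Finset.mem_univ, true_and] at hp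
        exact hp (hdw p hpo)
      · rw [show octad.card = 8 by decide]
        exact eight_le_card (d + w).2 fun h => h0 (Subtype.ext h)
  have hself : ∀ a : golayCode, a + a = 0 := fun a => Subtype.ext (funext fun p => by
    have : ∀ t : ZMod 2, t + t = 0 := by decide
    exact this _)
  have hd' : d = (d + w) + w := by rw [add_assoc, hself, add_zero]
  rw [hd', ← signAut_mul]
  rcases hval with e | e <;> rw [e] <;> rcases hw with rfl | rfl
  · left; rw [show signAut (0 : golayCode) = 1 from map_one CfsgLib.Fischer2.signHom, one_mul]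
  · right; left; rw [show signAut (0 : golayCode) = 1 from map_one CfsgLib.Fischer2.signHom, one_mul, signAut_oneWord]
  · right; right; left; rw [show signAut (0 : golayCode) = 1 from map_one CfsgLib.Fischer2.signHom, mul_one]; rfl
  · right; right; right; rw [signAut_oneWord, zK, Subgroup.mem_center_iff.1 negAut_mem_center]; rfl

theorem card_vanish :
    Nat.card {d : golayCode // ∀ p ∈ octad, (d : GolayPt → ZMod 2) p = 0} = 32 := by
  classical
  let R : golayCode →ₗ[ZMod 2] (Fin 7 → ZMod 2) :=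
    (LinearMap.funLeft (ZMod 2) (ZMod 2) (fun i : Fin 7 => pts i.castSucc)).comp golayCode.subtype
  have hR : Function.Surjective R := fun f => by
    obtain ⟨d, hd, hv⟩ := exists_code_on (T := Finset.univ.image fun i : Fin 7 => pts i.castSucc)
      (Finset.card_image_le.trans (by simp))
      (fun p => ∑ i, if p = pts (i : Fin 7).castSucc then f i else 0)
    refine ⟨⟨d, hd⟩, funext fun i => ?_⟩
    show d (pts i.castSucc) = f i
    rw [hv _ (Finset.mem_image_of_mem _ (Finset.mem_univ i)), Finset.sum_eq_single i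
      (fun j _ hj => if_neg fun h => hj (Fin.castSucc_injective _ (pts_injective h)).symm)
      (fun h => absurd (Finset.mem_univ i) h), if_pos rfl]
  have hker : ∀ d : golayCode, (∀ p ∈ octad, (d : GolayPt → ZMod 2) p = 0) ↔ R.toAddMonoidHom d = 0 := by
    intro d
    constructor
    · intro h; funext i; exact h _ (Finset.mem_image_of_mem _ (Finset.mem_univ _))
    · intro h p hp
      have h7 : ∀ i : Fin 7, (d : GolayPt → ZMod 2) (pts i.castSucc) = 0 := fun i => congrFun h i
      obtain ⟨i, -, rfl⟩ := Finset.mem_image.1 hp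
      rcases Fin.eq_castSucc_or_eq_last i with ⟨j, rfl⟩ | rfl
      · exact h7 j
      · have hsum := CfsgLib.Leech.sum_mul_eq_zero indWord_mem d.2
        rw [← Finset.sum_subset (Finset.subset_univ octad) (fun r _ hr => by simp [indWord, hr]),
          Finset.sum_congr rfl (fun r hr => show indWord octad r * (d : GolayPt → ZMod 2) r =
            (d : GolayPt → ZMod 2) r by simp [indWord, hr]),
          octad, Finset.sum_image fun a _ b _ h => pts_injective h, Fin.sum_univ_castSucc,
          Finset.sum_eq_zero fun i _ => h7 i, zero_add] at hsum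
        exact hsum
  rw [Nat.card_congr (Equiv.subtypeEquivRight hker)]
  have h := AddSubgroup.card_mul_index R.toAddMonoidHom.ker
  rw [AddSubgroup.index_ker, AddMonoidHom.range_eq_top.2 hR, AddSubgroup.card_top, Nat.card_fun,
    Nat.card_zmod, Nat.card_fin, CfsgLib.Leech.card_golayCode] at h
  show Nat.card R.toAddMonoidHom.ker = 32
  omega

theorem card_K₀ : Nat.card K₀ = 512 := by
  have hk : Nat.card (CfsgLib.GolayStructure.octadKernel octad) = 16 :=
    CfsgLib.GolayStructure.card_octadKernel octad_mem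
  rw [← Nat.card_eq_of_bijective (fun x : {d : golayCode // ∀ p ∈ octad, (d : GolayPt → ZMod 2) p = 0} ×
      CfsgLib.GolayStructure.octadKernel octad =>
    (⟨signAut x.1.1 * permAut ⟨x.2.1, (CfsgLib.GolayStructure.mem_octadKernel.1 x.2.2).1⟩,
      mem_K₀_iff.2 ⟨_, _, rfl, x.1.2, (CfsgLib.GolayStructure.mem_octadKernel.1 x.2.2).2⟩⟩ : K₀)) ⟨?_, ?_⟩,
    Nat.card_prod, card_vanish, hk]
  · rintro ⟨⟨d, hd⟩, ⟨σ, hσ⟩⟩ ⟨⟨e, he⟩, ⟨τ, hτ⟩⟩ h
    obtain ⟨rfl, h2⟩ := monomial_unique (congrArg Subtype.val h)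
    simp only [Subtype.mk.injEq] at h2
    subst h2; rfl
  · rintro ⟨g, hg⟩
    obtain ⟨d, σ, rfl, hd, hσ⟩ := mem_K₀_iff.1 hg
    exact ⟨(⟨d, hd⟩, ⟨σ, mem_kernel_of_fix hσ⟩), rfl⟩

end CfsgLib.Fischer.OctadLattice
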