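import Cfsg.Agent.Lib.Fischer2.LeechFrame
import Cfsg.Agent.Lib.Fischer2.LeechSigns
import Cfsg.Agent.Lib.Fischer2.LeechXi
import Cfsg.Agent.Lib.GolayStructure.OctadStab
import Cfsg.Agent.Lib.ClassicalForms.Ortho.Standard

/-!
The sublattice of the Leech lattice supported on an octad (a scaled copy of the `E₈` lattice), its reduction
modulo two as the hyperbolic space of dimension eight over the field with two elements, and the action of the
centraliser of the sign change on that octad.
-/

set_option autoImplicit false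

namespace CfsgLib.Fischer.OctadLattice

open Cfsg Finset CfsgLib.Leech CfsgLib.Fischer2
open scoped Pointwise

/-- The points of the octad. -/
def pts : Fin 8 → GolayPt := ![some 0, some 2, some 4, some 5, some 6, some 10, some 11, none]

theorem pts_injective : Function.Injective pts := by decide

/-- The octad. -/
def octad : Finset GolayPt := Finset.univ.image pts

theorem octad_eq : octad = CfsgLib.GolayStructure.baseOctad := by
  rw [CfsgLib.GolayStructure.baseOctad_eq]
  decide +kernel

theorem octad_mem : octad ∈ octads := by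
  rw [octad_eq, ← CfsgLib.GolayStructure.orbit_baseOctad]
  exact MulAction.mem_orbit_self _

theorem indWord_mem : indWord octad ∈ golayCode := by
  obtain ⟨⟨w, hw, he⟩, -⟩ := octad_mem
  have : w = indWord octad := support₂_injective (by rw [support₂_indWord]; exact he)
  exact this ▸ hw

/-- The code word of the octad. -/
def d₀ : golayCode := ⟨indWord octad, indWord_mem⟩

/-- The sign change on the octad. -/
def eps : Co0 := signAut d₀

/-- The vectors supported on the octad. -/
def Supp : AddSubgroup leechLattice where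
  carrier := {v | ∀ p ∉ octad, coordVec v p = 0}
  zero_mem' := fun p _ => rfl
  add_mem' := fun {a b} ha hb p hp => by
    show coordVec a p + coordVec b p = 0
    rw [ha p hp, hb p hp, add_zero]
  neg_mem' := fun {a} ha p hp => by
    show -coordVec a p = 0
    rw [ha p hp, neg_zero]

theorem coordVec_eps (v : leechLattice) (p : GolayPt) :
    coordVec (eps • v) p = if p ∈ octad then -coordVec v p else coordVec v p := by
  rw [eps, coordVec_signAut]
  show (if indWord octad p = 0 then _ else _) = _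
  unfold indWord
  by_cases h : p ∈ octad <;> simp [h]

theorem mem_Supp_iff {v : leechLattice} : v ∈ Supp ↔ eps • v = -v := by
  constructor
  · intro h
    refine Subtype.ext (funext fun p => ?_)
    show coordVec (eps • v) p = -coordVec v p
    rw [coordVec_eps]
    split_ifs with hp
    · rfl
    · rw [h p hp, neg_zero]
  · intro h p hp
    have h' : coordVec (eps • v) p = -coordVec v p := by rw [h]; rfl
    rw [coordVec_eps, if_neg hp] at h'
    omega

/-- The centraliser of the sign change. -/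
def C₀ : Subgroup Co0 := Subgroup.centralizer ({eps} : Set Co0)

theorem smul_mem_Supp {g : Co0} (hg : g ∈ C₀) {v : leechLattice} (hv : v ∈ Supp) : g • v ∈ Supp := by
  rw [mem_Supp_iff] at hv ⊢
  rw [← mul_smul, ← Subgroup.mem_centralizer_singleton_iff.1 hg, mul_smul, hv, smul_neg_co0]

/-- Restriction to the octad. -/
def res (v : leechLattice) : Fin 8 → ℤ := fun i => coordVec v (pts i)

theorem res_add (v w : leechLattice) : res (v + w) = res v + res w := rfl

theorem res_neg (v : leechLattice) : res (-v) = -res v := rfl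

/-- Extension by zero. -/
def ext8 (x : Fin 8 → ℤ) (p : GolayPt) : ℤ := ∑ i, if p = pts i then x i else 0

theorem ext8_pts (x : Fin 8 → ℤ) (i : Fin 8) : ext8 x (pts i) = x i := by
  rw [ext8, Finset.sum_eq_single i (fun j _ hj => if_neg fun h => hj (pts_injective h).symm)
    (fun h => absurd (Finset.mem_univ _) h), if_pos rfl]

theorem ext8_out (x : Fin 8 → ℤ) {p : GolayPt} (hp : p ∉ octad) : ext8 x p = 0 :=
  Finset.sum_eq_zero fun i _ => if_neg fun h : p = pts i =>
    hp (h ▸ Finset.mem_image_of_mem _ (Finset.mem_univ i))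

theorem sum_octad (f : GolayPt → ℤ) (hf : ∀ p ∉ octad, f p = 0) : ∑ p, f p = ∑ i, f (pts i) := by
  rw [← Finset.sum_subset (Finset.subset_univ octad) fun p _ hp => hf p hp,
    octad, Finset.sum_image fun a _ b _ h => pts_injective h]

/-- A basis of the restricted lattice. -/
def basis8 : Fin 8 → Fin 8 → ℤ :=
  ![![4, -4, 0, 0, 0, 0, 0, 0], ![0, 4, -4, 0, 0, 0, 0, 0], ![0, 0, 4, -4, 0, 0, 0, 0],
    ![0, 0, 0, 4, -4, 0, 0, 0], ![0, 0, 0, 0, 4, -4, 0, 0], ![0, 0, 0, 0, 0, 4, -4, 0],
    ![0, 0, 0, 0, 0, 4, 4, 0], ![2, 2, 2, 2, 2, 2, 2, 2]]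

/-- The restricted lattice. -/
def L8 : Submodule ℤ (Fin 8 → ℤ) := Submodule.span ℤ (Set.range basis8)

theorem basis8_mem (i : Fin 8) : basis8 i ∈ L8 := Submodule.subset_span ⟨i, rfl⟩

theorem res_mem {v : leechLattice} (hv : v ∈ Supp) : res v ∈ L8 := by
  obtain ⟨m, hm, c, hc, z, hx, hsum⟩ := mem_leechLattice_iff.1 v.2
  have hval : ∀ p, coordVec v p = m + 2 * bitVec c p + 4 * z p := fun p => congrFun hx p
  obtain ⟨p₀, hp₀⟩ : ∃ p, p ∉ octad := ⟨some 1, by decide⟩
  have h0 := hv p₀ hp₀
  rw [hval] at h0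
  have hm0 : m = 0 := by rcases hm with h | h <;> omega
  subst hm0
  have hout : ∀ p ∉ octad, c p = 0 ∧ z p = 0 := by
    intro p hp
    have h := hv p hp
    rw [hval] at h
    rcases bitVec_cases c p with e | e
    · refine ⟨?_, by omega⟩
      rcases CfsgLib.Leech.zmod2_cases (c p) with e' | e'
      · exact e'
      · rw [bitVec, e', if_neg one_ne_zero] at e; omega
    · omega
  obtain ⟨t, ht⟩ : ∃ t : ℤ, ∀ i, bitVec c (pts i) = t := by
    by_cases h0 : c = 0
    · exact ⟨0, fun i => by rw [h0, bitVec_zero]; rfl⟩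
    · have hsub : support₂ c ⊆ octad := fun p hp => by
        by_contra hpo
        simp [support₂, (hout p hpo).1] at hp
      have heq : support₂ c = octad := Finset.eq_of_subset_of_card_le hsub (by
        rw [show octad.card = 8 by decide]; exact eight_le_card hc h0)
      refine ⟨1, fun i => ?_⟩
      have : pts i ∈ support₂ c := heq ▸ Finset.mem_image_of_mem _ (Finset.mem_univ i)
      simp only [support₂, Finset.mem_filter, Finset.mem_univ, true_and] at this
      rw [bitVec, if_neg this]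
  have hres : ∀ i, res v i = 2 * t + 4 * z (pts i) := fun i => by
    show coordVec v (pts i) = _
    rw [hval, ht]; ring
  have hs : (2 : ℤ) ∣ ∑ i, z (pts i) := by
    rw [sum_octad z fun p hp => (hout p hp).2, sub_zero] at hsum
    exact hsum
  obtain ⟨k, hk⟩ := hs
  rw [Fin.sum_univ_eight] at hk
  set w : Fin 8 → ℤ := fun i => z (pts i) - z (pts 7)
  have key : res v = w 0 • basis8 0 + (w 0 + w 1) • basis8 1 + (w 0 + w 1 + w 2) • basis8 2 +
      (w 0 + w 1 + w 2 + w 3) • basis8 3 + (w 0 + w 1 + w 2 + w 3 + w 4) • basis8 4 +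
      (w 0 + w 1 + w 2 + w 3 + w 4 + w 5 - (k - 4 * z (pts 7))) • basis8 5 +
      (k - 4 * z (pts 7)) • basis8 6 + (t + 2 * z (pts 7)) • basis8 7 := by
    funext i
    rw [hres]
    fin_cases i <;> simp [basis8, w] <;> linarith
  rw [key]
  repeat' first | apply add_mem | exact L8.smul_mem _ (basis8_mem _)

theorem lattice_basis8 : ∀ i, ext8 (basis8 i) ∈ leechLattice := by
  have hfour : ∀ i : Fin 8, i ≠ 7 → ext8 (basis8 i) =
      fun p => 4 * ext8 (fun j => basis8 i j / 4) p := by
    intro i hi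
    funext p
    rw [ext8, ext8, Finset.mul_sum]
    refine Finset.sum_congr rfl fun j _ => ?_
    have : ∀ i : Fin 8, i ≠ 7 → ∀ j, basis8 i j = 4 * (basis8 i j / 4) := by decide
    split_ifs
    · exact this i hi j
    · simp
  intro i
  by_cases hi : i = 7
  · subst hi
    rw [mem_leechLattice_iff_mem_leechSet]
    refine mem_leechSet_iff.2 ⟨0, indWord octad, indWord_mem, 0, ?_, ?_⟩
    · funext p
      simp only [mkVec, bitVec, indWord, Pi.zero_apply, mul_zero, add_zero, zero_add]
      by_cases hp : p ∈ octad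
      · obtain ⟨j, -, rfl⟩ := Finset.mem_image.1 hp
        rw [ext8_pts]
        simp [hp, basis8]
        fin_cases j <;> rfl
      · rw [ext8_out _ hp]; simp [hp]
    · rw [sum_octad _ fun p hp => ext8_out _ hp]
      simp only [ext8_pts]
      decide
  · rw [hfour i hi]
    refine four_mul_mem ?_
    rw [sum_octad _ fun p hp => ext8_out _ hp]
    simp only [ext8_pts]
    revert i
    decide

theorem ext8_mem {x : Fin 8 → ℤ} (hx : x ∈ L8) : ext8 x ∈ leechLattice := by
  induction hx using Submodule.span_induction with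
  | mem y hy => obtain ⟨i, rfl⟩ := hy; exact lattice_basis8 i
  | zero => convert leechLattice.zero_mem; funext p; simp [ext8]
  | add a b _ _ ha hb =>
    convert leechLattice.add_mem ha hb
    funext p
    simp only [ext8, Pi.add_apply, ← Finset.sum_add_distrib]
    exact Finset.sum_congr rfl fun i _ => by split_ifs <;> simp
  | smul n a _ ha =>
    convert leechLattice.zsmul_mem ha n
    funext p
    simp only [ext8, Pi.smul_apply, smul_eq_mul, Finset.mul_sum]
    exact Finset.sum_congr rfl fun i _ => by split_ifs <;> simp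

theorem exists_lift {x : Fin 8 → ℤ} (hx : x ∈ L8) : ∃ v ∈ Supp, res v = x :=
  ⟨⟨ext8 x, ext8_mem hx⟩, fun _ hp => ext8_out x hp, funext fun i => ext8_pts x i⟩

theorem eq_of_res {v w : leechLattice} (hv : v ∈ Supp) (hw : w ∈ Supp) (h : res v = res w) : v = w := by
  refine Subtype.ext (funext fun p => ?_)
  by_cases hp : p ∈ octad
  · obtain ⟨i, -, rfl⟩ := Finset.mem_image.1 hp
    exact congrFun h i
  · exact (hv p hp).trans (hw p hp).symm

/-- The dot product on the octad. -/
def dot8 (x y : Fin 8 → ℤ) : ℤ := ∑ i, x i * y i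

theorem dotInt_eq {v w : leechLattice} (hv : v ∈ Supp) :
    dotInt (coordVec v) (coordVec w) = dot8 (res v) (res w) :=
  sum_octad (fun p => coordVec v p * coordVec w p) fun p hp => by rw [hv p hp, zero_mul]

theorem dot8_comm (x y : Fin 8 → ℤ) : dot8 x y = dot8 y x := by
  simp only [dot8, mul_comm]

theorem dot8_add_left (x y z : Fin 8 → ℤ) : dot8 (x + y) z = dot8 x z + dot8 y z := by
  simp only [dot8, Pi.add_apply, add_mul, Finset.sum_add_distrib]

theorem dot8_smul_left (n : ℤ) (x z : Fin 8 → ℤ) : dot8 (n • x) z = n * dot8 x z := by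
  simp only [dot8, Pi.smul_apply, smul_eq_mul, Finset.mul_sum, mul_assoc]

theorem dot8_basis : ∀ i j, (16 : ℤ) ∣ dot8 (basis8 i) (basis8 j) := by decide

theorem sixteen_dvd_dot {x y : Fin 8 → ℤ} (hx : x ∈ L8) (hy : y ∈ L8) : (16 : ℤ) ∣ dot8 x y := by
  induction hx using Submodule.span_induction with
  | mem a ha =>
    obtain ⟨i, rfl⟩ := ha
    induction hy using Submodule.span_induction with
    | mem b hb => obtain ⟨j, rfl⟩ := hb; exact dot8_basis i j
    | zero => simp [dot8]
    | add a b _ _ ha hb => rw [dot8_comm, dot8_add_left, dot8_comm a, dot8_comm b]; exact dvd_add ha hb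
    | smul n a _ ha => rw [dot8_comm, dot8_smul_left, dot8_comm a]; exact ha.mul_left n
  | zero => simp [dot8]
  | add a b _ _ ha hb => rw [dot8_add_left]; exact dvd_add ha hb
  | smul n a _ ha => rw [dot8_smul_left]; exact ha.mul_left n

/-- Vectors dual to the standard hyperbolic basis, by their coefficients in the basis. -/
def dualCoef : Fin 4 ⊕ Fin 4 → Fin 8 → ℤ :=
  Sum.elim
    ![![-2, -3, -4, -5, -6, -3, -4, 1], ![-1, -2, -3, -3, -3, -2, -1, 0],
      ![-1, -2, -2, -3, -2, -1, -1, 0], ![0, 1, 2, 2, 3, 2, 2, -2]]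
    ![![-2, -2, -2, -2, -2, -1, -1, 0], ![0, 0, 0, 1, 2, 1, 2, -2],
      ![-1, -2, -2, -3, -3, -1, -1, 0], ![-1, -1, -2, -2, -3, -1, -1, 0]]

/-- The dual vectors. -/
def dual8 (a : Fin 4 ⊕ Fin 4) : Fin 8 → ℤ := fun j => ∑ i, dualCoef a i * basis8 i j

theorem dual8_mem (a : Fin 4 ⊕ Fin 4) : dual8 a ∈ L8 := by
  have : dual8 a = ∑ i, dualCoef a i • basis8 i := by
    funext j; simp [dual8, Finset.sum_apply]
  rw [this]
  exact sum_mem fun i _ => L8.smul_mem _ (basis8_mem i)

/-- The reduction modulo two. -/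
def proj (x : Fin 8 → ℤ) : Fin 4 ⊕ Fin 4 → ZMod 2 := fun a => ((dot8 x (dual8 a) / 16 : ℤ) : ZMod 2)

theorem proj_add {x y : Fin 8 → ℤ} (hx : x ∈ L8) : proj (x + y) = proj x + proj y := by
  funext a
  simp only [proj, Pi.add_apply, dot8_add_left]
  rw [Int.add_ediv_of_dvd_left (sixteen_dvd_dot hx (dual8_mem a)), Int.cast_add]

theorem proj_smul {x : Fin 8 → ℤ} (hx : x ∈ L8) (n : ℤ) : proj (n • x) = (n : ZMod 2) • proj x := by
  funext a
  simp only [proj, Pi.smul_apply, dot8_smul_left, smul_eq_mul]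
  rw [Int.mul_ediv_assoc n (sixteen_dvd_dot hx (dual8_mem a)), Int.cast_mul]

theorem proj_zero : proj 0 = 0 := by
  funext a; simp [proj, dot8]

theorem proj_sum {κ : Type*} (s : Finset κ) (f : κ → Fin 8 → ℤ) (hf : ∀ i ∈ s, f i ∈ L8) :
    proj (∑ i ∈ s, f i) = ∑ i ∈ s, proj (f i) := by
  classical
  induction s using Finset.induction with
  | empty => simp [proj_zero]
  | @insert a s ha ih =>
    rw [Finset.sum_insert ha, Finset.sum_insert ha, proj_add (hf a (Finset.mem_insert_self a s)),
      ih fun i hi => hf i (Finset.mem_insert_of_mem hi)]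

theorem proj_basis_indep : ∀ c : Fin 8 → ZMod 2,
    (∀ a, ∑ i, c i * proj (basis8 i) a = 0) → c = 0 := by decide +kernel

theorem exists_half_of_proj_eq_zero {x : Fin 8 → ℤ} (hx : x ∈ L8) (h : proj x = 0) :
    ∃ y ∈ L8, x = y + y := by
  obtain ⟨c, rfl⟩ := (Submodule.mem_span_range_iff_exists_fun ℤ).1 hx
  rw [proj_sum _ _ fun i _ => L8.smul_mem _ (basis8_mem i)] at h
  have hc := proj_basis_indep (fun i => (c i : ZMod 2)) fun a => by
    have := congrFun h a
    simpa only [Finset.sum_apply, proj_smul (basis8_mem _), Pi.smul_apply, smul_eq_mul, Pi.zero_apply]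
      using this
  refine ⟨∑ i, (c i / 2) • basis8 i, sum_mem fun i _ => L8.smul_mem _ (basis8_mem i), ?_⟩
  rw [← Finset.sum_add_distrib]
  refine Finset.sum_congr rfl fun i _ => ?_
  have h2 : (2 : ℤ) ∣ c i := (ZMod.intCast_zmod_eq_zero_iff_dvd _ 2).1 (congrFun hc i)
  rw [← add_smul, ← two_mul, Int.mul_ediv_cancel' h2]

/-- The quadratic form. -/
abbrev qF : QuadraticForm (ZMod 2) (Fin 4 ⊕ Fin 4 → ZMod 2) := CfsgLib.ClassicalForms.qPlus 4 (ZMod 2)

theorem qF_coe : ⇑qF = Cfsg.quadFormPlus 4 (ZMod 2) := funext (CfsgLib.ClassicalForms.qPlus_apply 4)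

theorem qF_basis : ∀ i, 32 ∣ dot8 (basis8 i) (basis8 i) ∧
    Cfsg.quadFormPlus 4 (ZMod 2) (proj (basis8 i)) = ((dot8 (basis8 i) (basis8 i) / 32 : ℤ) : ZMod 2) := by
  decide +kernel

theorem polar_basis : ∀ i j, QuadraticMap.polar (Cfsg.quadFormPlus 4 (ZMod 2)) (proj (basis8 i)) (proj (basis8 j)) =
    ((dot8 (basis8 i) (basis8 j) / 16 : ℤ) : ZMod 2) := by decide +kernel

theorem polar_proj {x y : Fin 8 → ℤ} (hx : x ∈ L8) (hy : y ∈ L8) :
    QuadraticMap.polar qF (proj x) (proj y) = ((dot8 x y / 16 : ℤ) : ZMod 2) := by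
  induction hx using Submodule.span_induction with
  | mem a ha =>
    obtain ⟨i, rfl⟩ := ha
    induction hy using Submodule.span_induction with
    | mem b hb => obtain ⟨j, rfl⟩ := hb; rw [qF_coe]; exact polar_basis i j
    | zero => rw [proj_zero, QuadraticMap.polar_zero_right]; simp [dot8]
    | add a b hma _ ha hb =>
      rw [proj_add hma, QuadraticMap.polar_add_right, ha, hb, dot8_comm _ (a + b), dot8_add_left,
        dot8_comm a, dot8_comm b, Int.add_ediv_of_dvd_left (sixteen_dvd_dot (basis8_mem i) hma), Int.cast_add]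
    | smul n a hma ha =>
      rw [proj_smul hma, QuadraticMap.polar_smul_right, ha, dot8_comm _ (n • a), dot8_smul_left, dot8_comm a,
        Int.mul_ediv_assoc n (sixteen_dvd_dot (basis8_mem i) hma), Int.cast_mul, smul_eq_mul]
  | zero => rw [proj_zero, QuadraticMap.polar_zero_left]; simp [dot8]
  | add a b hma _ ha hb =>
    rw [proj_add hma, QuadraticMap.polar_add_left, ha, hb, dot8_add_left,
      Int.add_ediv_of_dvd_left (sixteen_dvd_dot hma hy), Int.cast_add]
  | smul n a hma ha =>
    rw [proj_smul hma, QuadraticMap.polar_smul_left, ha, dot8_smul_left,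
      Int.mul_ediv_assoc n (sixteen_dvd_dot hma hy), Int.cast_mul, smul_eq_mul]

theorem qF_proj {x : Fin 8 → ℤ} (hx : x ∈ L8) :
    32 ∣ dot8 x x ∧ qF (proj x) = ((dot8 x x / 32 : ℤ) : ZMod 2) := by
  induction hx using Submodule.span_induction with
  | mem a ha => obtain ⟨i, rfl⟩ := ha; rw [qF_coe]; exact qF_basis i
  | zero => simp [dot8, proj_zero]
  | add a b hma hmb ha hb =>
    obtain ⟨k, hk⟩ := sixteen_dvd_dot hma hmb
    obtain ⟨⟨p, hp⟩, ha⟩ := ha
    obtain ⟨⟨r, hr⟩, hb⟩ := hb
    have e : dot8 (a + b) (a + b) = 32 * (p + r + k) := by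
      rw [dot8_add_left, dot8_comm a, dot8_comm b, dot8_add_left, dot8_add_left, dot8_comm b a, hk, hp, hr]
      ring
    refine ⟨⟨_, e⟩, ?_⟩
    rw [e, proj_add hma, QuadraticMap.map_add (⇑qF), ha, hb, polar_proj hma hmb, hk, hp, hr,
      Int.mul_ediv_cancel_left _ (by norm_num), Int.mul_ediv_cancel_left _ (by norm_num),
      Int.mul_ediv_cancel_left _ (by norm_num), Int.mul_ediv_cancel_left _ (by norm_num)]
    push_cast; ring
  | smul n a hma ha =>
    obtain ⟨⟨p, hp⟩, ha⟩ := ha
    have e : dot8 (n • a) (n • a) = 32 * (n * n * p) := by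
      rw [dot8_smul_left, dot8_comm, dot8_smul_left, hp]; ring
    refine ⟨⟨_, e⟩, ?_⟩
    rw [e, proj_smul hma, QuadraticMap.map_smul, ha, hp, Int.mul_ediv_cancel_left _ (by norm_num),
      Int.mul_ediv_cancel_left _ (by norm_num)]
    push_cast; simp [mul_assoc]

theorem dual_pairing : ∀ a b, proj (dual8 (Sum.swap a)) b = if a = b then 1 else 0 := by decide +kernel

/-- A section of the reduction. -/
def sec8 (w : Fin 4 ⊕ Fin 4 → ZMod 2) : Fin 8 → ℤ := ∑ a, ((w a).val : ℤ) • dual8 (Sum.swap a)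

theorem sec8_mem (w : Fin 4 ⊕ Fin 4 → ZMod 2) : sec8 w ∈ L8 :=
  sum_mem fun a _ => L8.smul_mem _ (dual8_mem _)

theorem proj_sec8 (w : Fin 4 ⊕ Fin 4 → ZMod 2) : proj (sec8 w) = w := by
  rw [sec8, proj_sum _ _ fun a _ => L8.smul_mem _ (dual8_mem _)]
  funext b
  simp only [Finset.sum_apply, proj_smul (dual8_mem _), Pi.smul_apply, smul_eq_mul, dual_pairing]
  simp

end CfsgLib.Fischer.OctadLattice
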