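import Cfsg.Agent.Lib.Forms.OrthRefl
import Cfsg.Prelude.Def_SporadicB

/-!
Orthogonal transvections over the field with two elements: they are the reflections in the vectors of
norm one and form a generating class of 3-transpositions in dimension at least five.
-/

set_option autoImplicit false
set_option linter.unusedSectionVars false

open scoped Matrix

namespace CfsgLib.Fischer.OrthTransv2

open CfsgLib.OrthGen CfsgLib.Forms QuadraticMap

variable {ι : Type} [Fintype ι] [DecidableEq ι] {Q : QuadraticForm (ZMod 2) (ι → ZMod 2)}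

lemma cases_two : ∀ x : ZMod 2, x = 0 ∨ x = 1 := by decide

lemma Q_eq_one {v : ι → ZMod 2} (hv : Q v ≠ 0) : Q v = 1 := (cases_two _).resolve_left hv

lemma pf_self_zero (x : ι → ZMod 2) : pf Q x x = 0 := by
  rw [pf_self, show (2 : ZMod 2) = 0 from rfl, zero_mul]

lemma vec_sub (x y : ι → ZMod 2) : x - y = x + y := by
  rw [sub_eq_add_neg, ZModModule.neg_eq_self]

lemma act_refl_two {v : ι → ZMod 2} (hv : Q v ≠ 0) (x : ι → ZMod 2) :
    act Q (refl Q hv) x = x + pf Q v x • v := by
  rw [act_refl, Q_eq_one hv, inv_one, one_mul, vec_sub]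

lemma refl_congr {v w : ι → ZMod 2} (h : v = w) (hv : Q v ≠ 0) (hw : Q w ≠ 0) :
    refl Q hv = refl Q hw := by subst h; rfl

variable (Q) in
/-- The elements differing from the identity by a matrix of rank one. -/
def transvs : Set (Cfsg.isometryGroup (ZMod 2) (⇑Q)) :=
  {g | (((g : GL ι (ZMod 2)) : Matrix ι ι (ZMod 2)) - 1).rank = 1}

lemma sub_one_eq_vecMulVec {v : ι → ZMod 2} (hv : Q v ≠ 0) :
    ((refl Q hv : GL ι (ZMod 2)) : Matrix ι ι (ZMod 2)) - 1 =
      Matrix.vecMulVec v (Cfsg.polarVec (⇑Q) v) := by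
  refine Matrix.ext_of_mulVec_single fun i => ?_
  rw [Matrix.sub_mulVec, Matrix.one_mulVec, Matrix.vecMulVec_mulVec]
  show act Q (refl Q hv) _ - _ = _
  rw [act_refl_two, add_sub_cancel_left, polarVec_dotProduct]
  simp

lemma polarVec_ne_zero (hQ : (polarBilin Q).Nondegenerate) {v : ι → ZMod 2} (hv : v ≠ 0) :
    Cfsg.polarVec (⇑Q) v ≠ 0 := fun h => hv <| by
  refine hQ.1 v fun x => ?_
  rw [polarBilin_apply_apply]
  exact (polarVec_dotProduct Q v x).symm.trans (by rw [h, zero_dotProduct])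

lemma refl_mem_transvs (hQ : (polarBilin Q).Nondegenerate) {v : ι → ZMod 2} (hv : Q v ≠ 0) :
    refl Q hv ∈ transvs Q := by
  show Matrix.rank _ = 1
  rw [sub_one_eq_vecMulVec hv]
  refine le_antisymm (Matrix.rank_vecMulVec_le _ _) (Nat.one_le_iff_ne_zero.2 fun h => ?_)
  have h0 : (Matrix.vecMulVec v (Cfsg.polarVec (⇑Q) v)).mulVecLin = 0 :=
    LinearMap.range_eq_bot.1 (Submodule.finrank_eq_zero.1 h)
  have hv0 : v ≠ 0 := fun e => hv (by rw [e, QuadraticMap.map_zero])
  obtain ⟨i, hi⟩ := Function.ne_iff.1 hv0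
  obtain ⟨j, hj⟩ := Function.ne_iff.1 (polarVec_ne_zero hQ hv0)
  refine mul_ne_zero hi hj ?_
  have h1 := congrFun (DFunLike.congr_fun h0 (Pi.single j 1)) i
  simpa [Matrix.vecMulVec_apply] using h1

lemma eq_refl_of_mem (hQ : (polarBilin Q).Nondegenerate) {g : Cfsg.isometryGroup (ZMod 2) (⇑Q)}
    (hg : g ∈ transvs Q) : ∃ (v : ι → ZMod 2) (hv : Q v ≠ 0), g = refl Q hv := by
  set M := ((g : GL ι (ZMod 2)) : Matrix ι ι (ZMod 2)) - 1 with hM
  have hr : Module.finrank (ZMod 2) (LinearMap.range M.mulVecLin) = 1 := hg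
  obtain ⟨p, hpne, hp⟩ := finrank_eq_one_iff'.1 hr
  choose φ hφ using fun x => hp ⟨M.mulVecLin x, LinearMap.mem_range_self _ x⟩
  set q : ι → ZMod 2 := p.1 with hq
  have hp0 : q ≠ 0 := fun h => hpne (Subtype.ext h)
  have hact : ∀ x, act Q g x = x + φ x • q := fun x => by
    have h : φ x • q = M *ᵥ x := congrArg Subtype.val (hφ x)
    rw [h, hM, Matrix.sub_mulVec, Matrix.one_mulVec]
    exact (add_sub_cancel x _).symm
  have hone : ∀ x, φ x = 1 → pf Q x q = Q q := fun x hx => by
    have h := Q_act g x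
    rw [hact, hx, one_smul, Q_add, add_assoc, add_eq_left] at h
    exact (CharTwo.add_eq_zero.1 h).symm
  obtain ⟨x1, hx1⟩ : ∃ x, φ x = 1 := by
    by_contra h
    have h0 : ∀ x, φ x = 0 := fun x => (cases_two _).resolve_right fun e => h ⟨x, e⟩
    have hbot : LinearMap.range M.mulVecLin = ⊥ := LinearMap.range_eq_bot.2 (LinearMap.ext fun x => by
      have h := congrArg Subtype.val (hφ x)
      rw [h0] at h
      simpa using h.symm)
    rw [hbot] at hr
    simp at hr
  have hadd : ∀ x y, φ (x + y) = φ x + φ y := fun x y => by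
    have h := act_add g x y
    rw [hact, hact, hact, add_add_add_comm, add_right_inj, ← add_smul] at h
    exact smul_left_injective (ZMod 2) hp0 h
  have hzero : ∀ x, φ x = 0 → pf Q x q = 0 := fun x hx => by
    have h := hone (x + x1) (by rw [hadd, hx, hx1, zero_add])
    rw [pf, QuadraticMap.polar_add_left] at h
    rw [← hone x1 hx1] at h
    exact add_eq_right.1 h
  have hQq : Q q ≠ 0 := fun h0 => hp0 <| by
    refine hQ.1 q fun x => ?_
    rw [polarBilin_apply_apply, polar_comm]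
    rcases cases_two (φ x) with h | h
    · exact hzero x h
    · exact (hone x h).trans h0
  refine ⟨q, hQq, ext_act fun x => ?_⟩
  rw [hact, act_refl_two, pf_comm Q q x]
  rcases cases_two (φ x) with h | h
  · rw [h, hzero x h]
  · rw [h, hone x h, Q_eq_one hQq]

lemma conj_eq {u v : ι → ZMod 2} (hu : Q u ≠ 0) (hv : Q v ≠ 0) (h : pf Q u v = 1) :
    ∃ hw : Q (u + v) ≠ 0, refl Q hu * refl Q hv * refl Q hu = refl Q hw := by
  have e : act Q (refl Q hu) v = u + v := by rw [act_refl_two, h, one_smul, add_comm]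
  have hw : Q (u + v) ≠ 0 := by rw [← e, Q_act]; exact hv
  refine ⟨hw, ?_⟩
  conv_lhs => enter [2]; rw [← refl_inv (Q := Q) hu]
  rw [conj_refl]
  exact refl_congr e _ _

lemma pair_order {u v : ι → ZMod 2} (hu : Q u ≠ 0) (hv : Q v ≠ 0) :
    (refl Q hu * refl Q hv) ^ 2 = 1 ∨ (refl Q hu * refl Q hv) ^ 3 = 1 := by
  rcases cases_two (pf Q u v) with h | h
  · left
    have e : refl Q hu * refl Q hv * refl Q hu = refl Q hv := by
      conv_lhs => enter [2]; rw [← refl_inv (Q := Q) hu]
      rw [conj_refl]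
      refine refl_congr ?_ _ _
      rw [act_refl_of_orth (Q := Q) hu h]
    calc (refl Q hu * refl Q hv) ^ 2 = refl Q hu * refl Q hv * refl Q hu * refl Q hv := by
          rw [pow_two]; group
      _ = 1 := by rw [e, refl_mul_self]
  · right
    obtain ⟨hw, e1⟩ := conj_eq hu hv h
    obtain ⟨hw', e2⟩ := conj_eq hv hu (by rwa [pf_comm])
    have e : refl Q hu * refl Q hv * refl Q hu = refl Q hv * refl Q hu * refl Q hv := by
      rw [e1, e2]; exact refl_congr (add_comm u v) _ _
    calc (refl Q hu * refl Q hv) ^ 3 =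
        (refl Q hu * refl Q hv * refl Q hu) * (refl Q hv * refl Q hu * refl Q hv) := by
          rw [pow_three]; group
      _ = (refl Q hv * refl Q hu * refl Q hv) * (refl Q hv * refl Q hu * refl Q hv) := by rw [e]
      _ = 1 := by
          simp only [mul_assoc]
          rw [← mul_assoc (refl Q hv) (refl Q hv), refl_mul_self, one_mul,
            ← mul_assoc (refl Q hu) (refl Q hu), refl_mul_self, one_mul, refl_mul_self]

/-- The vectors of norm one form one orbit. -/
lemma exists_act_eq (hQ : (polarBilin Q).Nondegenerate) (hn : 5 ≤ Fintype.card ι)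
    {u v : ι → ZMod 2} (hu : Q u ≠ 0) (hv : Q v ≠ 0) :
    ∃ g : Cfsg.isometryGroup (ZMod 2) (⇑Q), act Q g u = v := by
  classical
  have step : ∀ {a b : ι → ZMod 2}, Q a ≠ 0 → Q b ≠ 0 → pf Q a b = 1 →
      ∃ g : Cfsg.isometryGroup (ZMod 2) (⇑Q), act Q g a = b := by
    intro a b ha hb h
    have hw : Q (a + b) ≠ 0 := by
      rw [Q_add, Q_eq_one ha, Q_eq_one hb, h]; decide
    refine ⟨refl Q hw, ?_⟩
    rw [act_refl_two, pf, polar_add_left, ← pf, ← pf, pf_self_zero, pf_comm Q b a, h, zero_add,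
      one_smul, ← add_assoc, ZModModule.add_self, zero_add]
  rcases cases_two (pf Q u v) with h | h
  swap
  · exact step hu hv h
  by_cases huv : u = v
  · exact ⟨1, by rw [act_one, huv]⟩
  let L : (ι → ZMod 2) →ₗ[ZMod 2] ZMod 2 × ZMod 2 := (polarBilin Q u).prod (polarBilin Q v)
  have hu0 : u ≠ 0 := fun e => hu (by rw [e, QuadraticMap.map_zero])
  have hv0 : v ≠ 0 := fun e => hv (by rw [e, QuadraticMap.map_zero])
  have hnz : ∀ {a : ι → ZMod 2}, a ≠ 0 → ∃ x, pf Q a x = 1 := by
    intro a ha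
    by_contra hc
    exact ha (hQ.1 a fun x => (cases_two _).resolve_right fun e => hc ⟨x, e⟩)
  obtain ⟨w0, hw0u, hw0v⟩ : ∃ w, pf Q u w = 1 ∧ pf Q v w = 1 := by
    obtain ⟨x, hx⟩ := hnz hu0
    obtain ⟨y, hy⟩ := hnz hv0
    rcases cases_two (pf Q v x) with e1 | e1
    swap
    · exact ⟨x, hx, e1⟩
    rcases cases_two (pf Q u y) with e2 | e2
    swap
    · exact ⟨y, e2, hy⟩
    exact ⟨x + y, by rw [pf, polar_add_right, ← pf, ← pf, hx, e2, add_zero],
      by rw [pf, polar_add_right, ← pf, ← pf, e1, hy, zero_add]⟩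
  obtain ⟨z, hzu, hzv, hz⟩ : ∃ z, pf Q u z = 0 ∧ pf Q v z = 0 ∧ Q z + pf Q w0 z = 1 := by
    by_contra hc
    let W := LinearMap.ker L
    have hlin : ∀ z ∈ W, Q z = pf Q w0 z := fun z hz => by
      obtain ⟨a, b⟩ := Prod.ext_iff.1 (LinearMap.mem_ker.1 hz)
      exact CharTwo.add_eq_zero.1 ((cases_two _).resolve_right fun e => hc ⟨z, a, b, e⟩)
    have hle : W ≤ W.orthogonalBilin (polarBilin Q) := fun z hz => by
      rw [Submodule.mem_orthogonalBilin_iff]
      intro y hy
      show pf Q y z = 0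
      have h1 := hlin (y + z) (add_mem hy hz)
      rw [Q_add, hlin y hy, hlin z hz] at h1
      simp only [pf, polar_add_right] at h1 ⊢
      exact add_eq_left.1 h1
    have horth : Module.finrank (ZMod 2) (W.orthogonalBilin (polarBilin Q)) =
        Fintype.card ι - Module.finrank (ZMod 2) W := by
      have h' := LinearMap.BilinForm.finrank_orthogonal (B := polarBilin Q) hQ W
      rwa [Module.finrank_pi] at h'
    have h1 := LinearMap.finrank_range_add_finrank_ker L
    rw [Module.finrank_pi] at h1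
    have h2 := Submodule.finrank_le (LinearMap.range L)
    rw [Module.finrank_prod, Module.finrank_self] at h2
    have h3 := Submodule.finrank_mono hle
    rw [horth] at h3
    change _ + Module.finrank (ZMod 2) W = _ at h1
    omega
  rcases cases_two (Q w0) with hq | hq
  · have hw : Q (w0 + z) ≠ 0 := by rw [Q_add, hq, zero_add, hz]; decide
    obtain ⟨g, hg⟩ := step hu hw (by rw [pf, polar_add_right, ← pf, ← pf, hw0u, hzu, add_zero])
    obtain ⟨g', hg'⟩ := step hw hv (by
      rw [pf_comm, pf, polar_add_right, ← pf, ← pf, hw0v, hzv, add_zero])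
    exact ⟨g' * g, by rw [act_mul, hg, hg']⟩
  · have hw : Q w0 ≠ 0 := by rw [hq]; decide
    obtain ⟨g, hg⟩ := step hu hw hw0u
    obtain ⟨g', hg'⟩ := step hw hv (by rw [pf_comm]; exact hw0v)
    exact ⟨g' * g, by rw [act_mul, hg, hg']⟩

theorem isThreeTranspositionClass (hQ : (polarBilin Q).Nondegenerate) (hn : 5 ≤ Fintype.card ι)
    (hne : ∃ v, Q v ≠ 0) : Cfsg.IsThreeTranspositionClass (transvs Q) := by
  refine ⟨⟨fun d hd => ?_, fun d hd e he => ?_⟩, ?_, ?_⟩
  · obtain ⟨v, hv, rfl⟩ := eq_refl_of_mem hQ hd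
    refine orderOf_eq_prime (by rw [pow_two, refl_mul_self]) fun h => ?_
    have : Matrix.rank _ = 1 := hd
    rw [h] at this
    simp at this
  · obtain ⟨u, hu, rfl⟩ := eq_refl_of_mem hQ hd
    obtain ⟨v, hv, rfl⟩ := eq_refl_of_mem hQ he
    exact pair_order hu hv
  · obtain ⟨v, hv⟩ := hne
    refine ⟨refl Q hv, refl_mem_transvs hQ hv, Set.ext fun g => ⟨fun hg => ?_, fun hg => ?_⟩⟩
    · obtain ⟨w, hw, rfl⟩ := eq_refl_of_mem hQ hg
      obtain ⟨c, hc⟩ := exists_act_eq hQ hn hv hw
      rw [conjugatesOf, Set.mem_setOf_eq, isConj_iff]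
      exact ⟨c, by rw [conj_refl]; exact refl_congr hc _ _⟩
    · rw [conjugatesOf, Set.mem_setOf_eq, isConj_iff] at hg
      obtain ⟨c, rfl⟩ := hg
      rw [conj_refl]
      exact refl_mem_transvs hQ _
  · rw [eq_top_iff, ← reflClosure_eq_top hQ (Or.inr (by omega))]
    refine Subgroup.closure_mono ?_
    rintro _ ⟨v, hv, rfl⟩
    exact refl_mem_transvs hQ hv

end CfsgLib.Fischer.OrthTransv2
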