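import Cfsg.Agent.Lib.ClassicalForms.Exceptional.SixMinus
import Cfsg.Agent.Lib.Fischer.OrthTransv2
import Cfsg.Agent.Lib.Fischer.UnitaryPointKernel
import Cfsg.Agent.S0815

/-!
`O⁻₆(2)` is the automorphism group of `PSU₄(2)`.
-/

set_option autoImplicit false
set_option linter.unusedSectionVars false

namespace CfsgLib.Fischer.OrthSixMinusAut

open CfsgLib.OrthGen CfsgLib.Forms CfsgLib.ClassicalForms CfsgLib.Fischer.OrthTransv2

/-- The coordinates. -/
abbrev Co : Type := (Fin 2 ⊕ Fin 2) ⊕ Fin 2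

/-- The form. -/
abbrev Q6 : QuadraticForm (ZMod 2) (Co → ZMod 2) := qMinus 2 (ZMod 2) 1 1

theorem aniso : Aniso (1 : ZMod 2) 1 := by unfold Aniso; decide

theorem coe_Q6 : (⇑Q6 : (Co → ZMod 2) → ZMod 2) = Cfsg.quadFormMinus 2 (ZMod 2) 1 1 :=
  funext fun v => qMinus_apply 2 1 1 v

theorem span_check : ∀ i : Co, ∃ p q : Co → ZMod 2,
    Cfsg.quadFormMinus 2 (ZMod 2) 1 1 p = 1 ∧ Cfsg.quadFormMinus 2 (ZMod 2) 1 1 q = 1 ∧
      ((Pi.single i 1 : Co → ZMod 2) = p ∨ (Pi.single i 1 : Co → ZMod 2) = p + q) := by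
  decide +kernel

theorem pair_check : ∀ v : Co → ZMod 2, Cfsg.quadFormMinus 2 (ZMod 2) 1 1 v = 1 → ∃ x : Co → ZMod 2,
    QuadraticMap.polar (Cfsg.quadFormMinus 2 (ZMod 2) 1 1) v x = 1 := by
  unfold QuadraticMap.polar
  decide +kernel

theorem center_eq_bot : Subgroup.center (Cfsg.isometryGroup (ZMod 2) (⇑Q6)) = ⊥ := by
  rw [eq_bot_iff]
  intro g hg
  have hfix : ∀ v : Co → ZMod 2, Cfsg.quadFormMinus 2 (ZMod 2) 1 1 v = 1 → act Q6 g v = v := by
    intro v hv
    have hQv : Q6 v ≠ 0 := by rw [coe_Q6, hv]; decide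
    obtain ⟨x, hx⟩ := pair_check v hv
    have hx' : pf Q6 v x = 1 := by rw [pf, coe_Q6]; exact hx
    have h := congrArg (fun k => act Q6 k x) (Subgroup.mem_center_iff.1 hg (refl Q6 hQv))
    simp only [act_mul, act_refl_two, act_add, act_smul, hx', one_smul, add_right_inj] at h
    rcases cases_two (pf Q6 v (act Q6 g x)) with h0 | h0 <;> rw [h0] at h
    · rw [zero_smul] at h
      exact absurd (by rw [← h, QuadraticMap.map_zero]) (fun e : Q6 (act Q6 g v) = 0 => hQv (by rwa [Q_act] at e))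
    · rw [one_smul] at h; exact h.symm
  refine Subgroup.mem_bot.2 (Subtype.ext (Units.ext (Matrix.ext_of_mulVec_single fun i => ?_)))
  obtain ⟨p, q, hp, hq, h | h⟩ := span_check i
  · show act Q6 g _ = act Q6 1 _
    rw [h, hfix p hp, act_one]
  · show act Q6 g _ = act Q6 1 _
    rw [h, act_add, hfix p hp, hfix q hq, act_one]

/-- `O⁻₆(2) ≅ Aut(PSU₄(2))`. -/
theorem nonempty_equiv {F : Type} [Field F] [Fintype F] (hF : Fintype.card F = 4) :
    Nonempty (MulAut (Cfsg.PSU 4 F 2) ≃* Cfsg.isometryGroup (ZMod 2) (Cfsg.quadFormMinus 2 (ZMod 2) 1 1)) := by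
  classical
  rw [← coe_Q6]
  obtain ⟨eP⟩ := nonempty_pOmega_six_minus (F := ZMod 2) (K := F) (q := 2) (Nat.card_zmod 2)
    (by rw [Nat.card_eq_fintype_card, hF]; norm_num) aniso
  have hnd := nondeg_qMinus aniso 2
  have hO : Nat.card (Cfsg.isometryGroup (ZMod 2) (⇑Q6)) = 51840 := by
    rw [Nat.card_congr (isoMat Q6 (fun _ => rfl)).toEquiv]
    have h := card_orth_qMinus (F := ZMod 2) aniso 2
    norm_num [Finset.prod_range_succ, Nat.card_zmod] at h
    exact_mod_cast h
  set Om : Subgroup (Cfsg.isometryGroup (ZMod 2) (⇑Q6)) := commutator _ with hOm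
  have hidx : Om.index = 2 := index_commutator_even (by decide) (nondeg_iff_polarBilin.2 hnd)
    (Or.inr (by decide))
  have hOmc : Nat.card Om = 25920 := by
    have := Om.card_mul_index
    rw [hidx, hO] at this
    omega
  have hP : Nat.card (Cfsg.POmega (ZMod 2) (⇑Q6)) = 25920 := by
    rw [coe_Q6, Nat.card_congr eP.toEquiv, UnitaryPoint.natCard_psu4 hF]
  have hZ : Subgroup.center Om = ⊥ := by
    rw [Subgroup.eq_bot_iff_card]
    have h := (Subgroup.center Om).card_mul_index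
    rw [hOmc] at h
    change Nat.card (Subgroup.center Om) * Nat.card (Om ⧸ Subgroup.center Om) = _ at h
    rw [show Nat.card (Om ⧸ Subgroup.center Om) = 25920 from hP] at h
    omega
  haveI : Om.Normal := by rw [hOm]; infer_instance
  let ψ : Cfsg.isometryGroup (ZMod 2) (⇑Q6) →* MulAut Om := MulAut.conjNormal
  have hinj : Function.Injective ψ := by
    refine (injective_iff_map_eq_one ψ).2 fun g hg => ?_
    have hcomm : ∀ w ∈ Om, g * w = w * g := fun w hw => by
      have := congrArg (fun φ : MulAut Om => ((φ ⟨w, hw⟩ : Om) : Cfsg.isometryGroup (ZMod 2) (⇑Q6))) hg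
      exact mul_inv_eq_iff_eq_mul.1 (by simpa [ψ] using this)
    by_cases hgO : g ∈ Om
    · have : (⟨g, hgO⟩ : Om) ∈ Subgroup.center Om :=
        Subgroup.mem_center_iff.2 fun w => Subtype.ext (hcomm w w.2).symm
      rw [hZ, Subgroup.mem_bot] at this
      exact congrArg Subtype.val this
    · have : g ∈ Subgroup.center (Cfsg.isometryGroup (ZMod 2) (⇑Q6)) := by
        refine Subgroup.mem_center_iff.2 fun x => ?_
        by_cases hx : x ∈ Om
        · exact (hcomm x hx).symm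
        · have hxg : x * g ∈ Om := (Subgroup.mul_mem_iff_of_index_two hidx).2 ⟨fun h => absurd h hx, fun h => absurd h hgO⟩
          have h1 := hcomm _ hxg
          rw [← mul_assoc] at h1
          exact (mul_right_cancel h1).symm
      rw [center_eq_bot, Subgroup.mem_bot] at this
      exact this
  obtain ⟨eP'⟩ : Nonempty (Cfsg.POmega (ZMod 2) (⇑Q6) ≃* Cfsg.PSU 4 F 2) := by
    rw [coe_Q6]; exact ⟨eP⟩
  let eOm : Om ≃* Cfsg.PSU 4 F 2 :=
    ((QuotientGroup.quotientMulEquivOfEq hZ).trans QuotientGroup.quotientBot).symm.trans eP'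
  have hA : Nat.card (MulAut Om) = 51840 := by
    rw [Nat.card_congr (MulAut.congr eOm).toEquiv]
    haveI : Fact (Nat.Prime 2) := ⟨Nat.prime_two⟩
    have h := Cfsg.Agent.S0815.result (F := F) 2 1 le_rfl (q := 2) (by norm_num) (by rw [hF]; norm_num) 4
      (by norm_num) (by norm_num)
    rw [h, UnitaryPoint.natCard_psu4 hF]
    norm_num
  exact ⟨((MulEquiv.ofBijective ψ (hinj.bijective_of_nat_card_le (by rw [hA, hO]))).trans (MulAut.congr eOm)).symm⟩

end CfsgLib.Fischer.OrthSixMinusAut
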