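import Cfsg.Agent.Lib.Fischer.MaxCommuting.Sign
import Cfsg.Agent.Lib.Fischer.M24Sylow.Eleven
import Cfsg.Agent.Lib.Fischer.TypeTwentyThreeCentralizer
import Cfsg.Agent.Lib.Cores.GenFitting

/-!
The centralizer, in the derived group, of the product of two commuting members of a group of type M(24).
-/

set_option autoImplicit false
set_option linter.unusedSectionVars false
set_option linter.style.haveILetI false

namespace CfsgLib.Fischer.PairCentralizerMTwentyFour

open CfsgLib.Fischer CfsgLib.InvChar.FischerProducts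

/-- A quasisimple normal subgroup containing its centralizer is the generalized Fitting subgroup. -/
theorem generalizedFitting_eq {Γ : Type*} [Group Γ] [Finite Γ] {K : Subgroup Γ} [K.Normal]
    (hK : Cfsg.IsQuasisimple K) (hC : Subgroup.centralizer (K : Set Γ) ≤ K) :
    Cfsg.generalizedFittingSubgroup Γ = K := by
  have hcomp : Cfsg.IsComponent K := ⟨Subgroup.Normal.isSubnormal inferInstance, hK⟩
  have hlay : Cfsg.layer Γ = K := by
    refine le_antisymm (CfsgLib.Cores.layer_le_iff.2 fun L hL => ?_) (CfsgLib.Cores.le_layer hcomp)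
    by_contra hLK
    have hne : L ≠ K := fun e => hLK e.le
    exact hLK ((CfsgLib.Cores.le_centralizer_of_isComponent_ne hL hcomp hne).trans hC)
  refine le_antisymm ?_ ((CfsgLib.Cores.le_layer hcomp).trans (CfsgLib.Cores.layer_le_generalizedFittingSubgroup Γ))
  rw [Cfsg.generalizedFittingSubgroup, hlay]
  refine sup_le le_rfl ?_
  have h := CfsgLib.Cores.fittingSubgroup_le_centralizer_layer (G := Γ)
  rw [hlay] at h
  exact h.trans hC

/-- The quotient by the centre of a self-centralizing perfect normal subgroup acts faithfully. -/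
theorem quotient_equiv_mulAut {Γ : Type*} [Group Γ] [Finite Γ] {K Z : Subgroup Γ} [K.Normal] [Z.Normal]
    (hK : Group.IsPerfect K) (hZK : Z ≤ K) (hZc : ∀ z ∈ Z, ∀ k ∈ K, Commute z k)
    (hC : Subgroup.centralizer (K : Set Γ) ≤ Z)
    (hcard : Nat.card (MulAut (↥K ⧸ Z.subgroupOf K)) ≤ Nat.card (Γ ⧸ Z)) :
    Nonempty (Γ ⧸ Z ≃* MulAut (↥K ⧸ Z.subgroupOf K)) := by
  have hm : ∀ g : Γ, (Z.subgroupOf K).map ((MulAut.conjNormal g : MulAut K) : K →* K) = Z.subgroupOf K := by
    intro g
    ext x
    rw [Subgroup.mem_map, Subgroup.mem_subgroupOf]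
    constructor
    · rintro ⟨y, hy, rfl⟩
      rw [Subgroup.mem_subgroupOf] at hy
      show ((MulAut.conjNormal g y : K) : Γ) ∈ Z
      rw [MulAut.conjNormal_apply]
      exact Subgroup.Normal.conj_mem inferInstance _ hy g
    · intro hx
      refine ⟨(MulAut.conjNormal g : MulAut K).symm x, ?_, (MulAut.conjNormal g : MulAut K).apply_symm_apply x⟩
      rw [Subgroup.mem_subgroupOf, MulAut.conjNormal_symm_apply]
      have := Subgroup.Normal.conj_mem (H := Z) inferInstance _ hx g⁻¹
      rwa [inv_inv] at this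
  let f : Γ →* MulAut (↥K ⧸ Z.subgroupOf K) :=
    { toFun := fun g => QuotientGroup.congr _ _ (MulAut.conjNormal g : MulAut K) (hm g)
      map_one' := MulEquiv.ext fun q => by
        obtain ⟨k, rfl⟩ := QuotientGroup.mk_surjective q
        simp
      map_mul' := fun g h => MulEquiv.ext fun q => by
        obtain ⟨k, rfl⟩ := QuotientGroup.mk_surjective q
        simp }
  have hker : f.ker = Z := by
    refine le_antisymm (fun g hg => ?_) fun z hz => ?_
    · have h : ∀ k : K, g * k * g⁻¹ * (k : Γ)⁻¹ ∈ Z := by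
        intro k
        have e : (QuotientGroup.mk ((MulAut.conjNormal g : MulAut K) k) : ↥K ⧸ Z.subgroupOf K) = QuotientGroup.mk k :=
          DFunLike.congr_fun (MonoidHom.mem_ker.1 hg) (QuotientGroup.mk k)
        rw [QuotientGroup.eq, Subgroup.mem_subgroupOf, Subgroup.coe_mul, Subgroup.coe_inv,
          MulAut.conjNormal_apply] at e
        have h2 := Subgroup.Normal.conj_mem (H := Z) inferInstance _ (inv_mem e) (g * k * g⁻¹)
        simpa [mul_assoc] using h2
      let c : K →* Subgroup.center K :=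
        { toFun := fun k => ⟨⟨g * k * g⁻¹ * (k : Γ)⁻¹, hZK (h k)⟩, Subgroup.mem_center_iff.2 fun w =>
            Subtype.ext (hZc _ (h k) w w.2).symm.eq⟩
          map_one' := Subtype.ext (Subtype.ext (by simp))
          map_mul' := fun k l => Subtype.ext (Subtype.ext (by
            show g * ((k : Γ) * l) * g⁻¹ * ((k : Γ) * l)⁻¹ = g * k * g⁻¹ * (k : Γ)⁻¹ * (g * l * g⁻¹ * (l : Γ)⁻¹)
            have hc := (hZc _ (h l) (k : Γ)⁻¹ (inv_mem k.2)).eq
            calc g * ((k : Γ) * l) * g⁻¹ * ((k : Γ) * l)⁻¹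
                = g * k * g⁻¹ * ((g * l * g⁻¹ * (l : Γ)⁻¹) * (k : Γ)⁻¹) := by group
              _ = g * k * g⁻¹ * ((k : Γ)⁻¹ * (g * l * g⁻¹ * (l : Γ)⁻¹)) := by rw [hc]
              _ = _ := by group)) }
      have hc1 : c.ker = ⊤ := by
        letI : CommGroup (Subgroup.center K) :=
          { (inferInstance : Group (Subgroup.center K)) with
            mul_comm := fun x y => Subtype.ext (Subgroup.mem_center_iff.1 y.2 x.1) }
        have hle : commutator K ≤ c.ker := Abelianization.commutator_subset_ker c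
        rwa [Group.isPerfect_def.1 hK, top_le_iff] at hle
      refine hC fun k hk => ?_
      have h1 : g * k * g⁻¹ * k⁻¹ = 1 :=
        congrArg (fun x : Subgroup.center K => ((x : K) : Γ))
          (MonoidHom.mem_ker.1 (hc1 ▸ Subgroup.mem_top (⟨k, hk⟩ : K) : (⟨k, hk⟩ : K) ∈ c.ker))
      rw [mul_inv_eq_one] at h1
      exact (mul_inv_eq_iff_eq_mul.1 h1).symm
    · refine MonoidHom.mem_ker.2 (MulEquiv.ext fun q => ?_)
      obtain ⟨k, rfl⟩ := QuotientGroup.mk_surjective q
      show QuotientGroup.mk ((MulAut.conjNormal z : MulAut K) k) = QuotientGroup.mk k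
      congr 1
      refine Subtype.ext ?_
      rw [MulAut.conjNormal_apply, (hZc z hz k k.2).eq, mul_inv_cancel_right]
  let ψ : Γ ⧸ Z →* MulAut (↥K ⧸ Z.subgroupOf K) := QuotientGroup.lift Z f hker.ge
  have hinj : Function.Injective ψ := by
    rw [injective_iff_map_eq_one]
    intro q hq
    obtain ⟨g, rfl⟩ := QuotientGroup.mk_surjective q
    exact (QuotientGroup.eq_one_iff g).2 (hker.le (MonoidHom.mem_ker.2 hq))
  exact ⟨MulEquiv.ofBijective ψ ((Nat.bijective_iff_injective_and_card ψ).2
    ⟨hinj, le_antisymm (Nat.card_le_card_of_injective ψ hinj) hcard⟩)⟩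

variable {G : Type*} [Group G] [Finite G] {D : Set G} {a b : G}
variable (hD : Cfsg.IsThreeTranspositionGroup D) (hprim : Cfsg.IsPrimitiveUnderConj D)
  (ht : Cfsg.IsOfTypeM24 G D)

include hD hprim ht

theorem commutator_index : (commutator G).index = 2 := by
  have hle : Cfsg.layer G ≤ commutator G := by
    rw [← CfsgLib.Cores.commutator_layer_self G, commutator_def]
    exact Subgroup.commutator_mono le_top le_top
  have hdvd := Subgroup.index_dvd_of_le hle
  rw [MaxCommuting.layer_index hD hprim ht] at hdvd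
  obtain ⟨d, hd, -⟩ := id hprim.2.1
  rcases (Nat.dvd_prime Nat.prime_two).1 hdvd with h | h
  · exact absurd ((Subgroup.index_eq_one.1 h).symm ▸ Subgroup.mem_top d)
      (MaxCommuting.notMem_commutator hD hprim ht hd)
  · exact h

theorem mem_or_mul_mem (ha : a ∈ D) (g : G) : g ∈ commutator G ∨ a * g ∈ commutator G := by
  by_cases hg : g ∈ commutator G
  · exact Or.inl hg
  · refine Or.inr ((Subgroup.mul_mem_iff_of_index_two (commutator_index hD hprim ht)).2 ?_)
    exact iff_of_false (MaxCommuting.notMem_commutator hD hprim ht ha) hg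

theorem mul_mem_commutator (ha : a ∈ D) (hb : b ∈ D) : a * b ∈ commutator G :=
  (Subgroup.mul_mem_iff_of_index_two (commutator_index hD hprim ht)).2
    (iff_of_false (MaxCommuting.notMem_commutator hD hprim ht ha) (MaxCommuting.notMem_commutator hD hprim ht hb))

/-- An element centralizing the product of two commuting members permutes them. -/
theorem conj_pair (ha : a ∈ D) (hb : b ∈ D) (hne : a ≠ b) (hc : Commute a b) {g : G} (hg : Commute g (a * b)) :
    g * a * g⁻¹ = a ∧ g * b * g⁻¹ = b ∨ g * a * g⁻¹ = b ∧ g * b * g⁻¹ = a := by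
  have hG := TypeTwentyFour.good hD hprim ht
  have hl : [a, b].Nodup := by simp [hne]
  have h := factorization_unique hD.1 2 (by norm_num) (fun _ => noUnit_four hG)
    (fun h => absurd h (by norm_num)) ([a, b].map (MulAut.conj g)) [a, b]
    (hl.map (MulAut.conj g).injective) hl rfl rfl
    (fun x hx => by
      obtain ⟨y, hy, rfl⟩ := List.mem_map.1 hx
      simp only [List.mem_cons, List.not_mem_nil, or_false] at hy
      rcases hy with rfl | rfl
      · exact hD.2.1 g _ ha
      · exact hD.2.1 g _ hb)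
    (fun x hx => by
      simp only [List.mem_cons, List.not_mem_nil, or_false] at hx
      rcases hx with rfl | rfl <;> assumption)
    (fun x hx y hy => by
      obtain ⟨x, hx', rfl⟩ := List.mem_map.1 hx
      obtain ⟨y, hy', rfl⟩ := List.mem_map.1 hy
      simp only [List.mem_cons, List.not_mem_nil, or_false] at hx' hy'
      rcases hx' with rfl | rfl <;> rcases hy' with rfl | rfl
      exacts [Commute.refl _, hc.map _, hc.symm.map _, Commute.refl _])
    (fun x hx y hy => by
      simp only [List.mem_cons, List.not_mem_nil, or_false] at hx hy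
      rcases hx with rfl | rfl <;> rcases hy with rfl | rfl
      exacts [Commute.refl _, hc, hc.symm, Commute.refl _])
    (by
      rw [List.prod_hom, List.prod_cons, List.prod_cons, List.prod_nil, mul_one, MulAut.conj_apply, hg.eq,
        mul_inv_cancel_right])
  have h1 := (h (g * a * g⁻¹)).1 (List.mem_map.2 ⟨a, by simp, rfl⟩)
  have h2 := (h (g * b * g⁻¹)).1 (List.mem_map.2 ⟨b, by simp, rfl⟩)
  simp only [List.mem_cons, List.not_mem_nil, or_false] at h1 h2
  have hne' : g * a * g⁻¹ ≠ g * b * g⁻¹ := fun e => hne (mul_left_cancel (mul_right_cancel e))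
  rcases h1 with h1 | h1 <;> rcases h2 with h2 | h2 <;> rw [h1, h2] at hne'
  exacts [absurd rfl hne', Or.inl ⟨h1, h2⟩, Or.inr ⟨h1, h2⟩, absurd rfl hne']

theorem notMem_product (ha : a ∈ D) (hb : b ∈ D) (hne : a ≠ b) (hc : Commute a b) : a * b ∉ D := by
  intro h
  have hG := TypeTwentyFour.good hD hprim ht
  have haa := sq_eq_one hD.1 ha
  have hbb := sq_eq_one hD.1 hb
  have h1 : a * b ≠ a := fun e => ne_one hD.1 hb (mul_left_cancel (e.trans (mul_one a).symm))
  have h2 : a * b ≠ b := fun e => ne_one hD.1 ha (mul_right_cancel (e.trans (one_mul b).symm))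
  have hc1 : Commute (a * b) a := (Commute.refl a).mul_left hc.symm
  have hc2 : Commute (a * b) b := hc.mul_left (Commute.refl b)
  refine TypeTwentyFour.noUnit_le_seven hD hprim ht (k := 3) (by norm_num) (by norm_num) [a * b, a, b]
    (by simp [hne, h1, h2]) rfl ?_ ?_ ?_
  · intro x hx
    simp only [List.mem_cons, List.not_mem_nil, or_false] at hx
    rcases hx with rfl | rfl | rfl <;> assumption
  · intro x hx y hy
    simp only [List.mem_cons, List.not_mem_nil, or_false] at hx hy
    rcases hx with rfl | rfl | rfl <;> rcases hy with rfl | rfl | rfl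
    exacts [Commute.refl _, hc1, hc2, hc1.symm, Commute.refl _, hc, hc2.symm, hc.symm, Commute.refl _]
  · calc [a * b, a, b].prod = a * (b * a) * b := by simp [mul_assoc]
      _ = a * (a * b) * b := by rw [hc.eq]
      _ = (a * a) * (b * b) := by group
      _ = 1 := by rw [haa, hbb, one_mul]

/-- The joint centralizer in the derived group: a double cover of a group of type M(22). -/
theorem pair_equiv (ha : a ∈ D) (hb : b ∈ perp D a) :
    ∃ q ∈ imageSet D a (Subgroup.closure (perp D a)),
      ∃ e : ↥(commutator G ⊓ Subgroup.centralizer ({a, b} : Set G)) ≃*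
          ↥(Subgroup.closure (perp (imageSet D a (Subgroup.closure (perp D a))) q)),
        ∀ x : ↥(commutator G ⊓ Subgroup.centralizer ({a, b} : Set G)), (x : G) = a * b ↔ ((e x : Subgroup.closure (perp (imageSet D a (Subgroup.closure (perp D a))) q)) :
          Subgroup.closure (perp D a) ⧸ Subgroup.center (Subgroup.closure (perp D a))) = q := by
  obtain ⟨π, hker, hmem, hsur⟩ := MTwentyFourSylow.exists_proj24 hD hprim ht ha
  have hG := TypeTwentyFour.good hD hprim ht
  have hI := imageSet_tt (D := D) hD (d := a) (H := Subgroup.closure (perp D a)) rfl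
  have hgood := TypeTwentyFour.good_at hD hprim ht ha
  have hπ : Function.Surjective π := by
    rw [← MonoidHom.range_eq_top, eq_top_iff, ← hgood.tt.2.2, Subgroup.closure_le]
    intro p hp
    obtain ⟨z, -, rfl⟩ := hsur p hp
    exact ⟨z, rfl⟩
  obtain ⟨b₁, hb₁⟩ : ∃ b₁ : Subgroup.centralizer ({a} : Set G), (b₁ : G) = b :=
    ⟨⟨b, Subgroup.mem_centralizer_singleton_iff.2 hb.2.2.symm.eq⟩, rfl⟩
  have hq : π b₁ ∈ imageSet D a (Subgroup.closure (perp D a)) := hmem b₁ (hb₁ ▸ hb)
  have hW := TypeTwentyThree.centralizer_eq_closure hgood.tt (TypeTwentyFour.primitive_at hD hprim ht ha)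
    (TypeTwentyFour.type23_at hD hprim ht ha) hq
  obtain ⟨K, hK⟩ : ∃ K, K = commutator G ⊓ Subgroup.centralizer ({a, b} : Set G) := ⟨_, rfl⟩
  rw [← hK]
  have hKa : ∀ {x : G}, x ∈ K → x * a = a * x ∧ x * b = b * x := by
    intro x hx
    rw [hK] at hx
    exact ⟨(Subgroup.mem_centralizer_iff.1 hx.2 a (Or.inl rfl)).symm,
      (Subgroup.mem_centralizer_iff.1 hx.2 b (Or.inr rfl)).symm⟩
  let φ : K →* Subgroup.closure (perp D a) ⧸ Subgroup.center (Subgroup.closure (perp D a)) :=
    π.comp (Subgroup.inclusion fun x hx => Subgroup.mem_centralizer_singleton_iff.2 (hKa hx).1)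
  have hinj : Function.Injective φ := by
    rw [injective_iff_map_eq_one]
    intro x hx
    rcases (hker _).1 hx with h | h
    · exact Subtype.ext h
    · have hxK : (x : G) ∈ commutator G := (hK.le x.2).1
      exact absurd ((show (x : G) = a from h) ▸ hxK) (MaxCommuting.notMem_commutator hD hprim ht ha)
  have hrange : φ.range = Subgroup.closure (perp (imageSet D a (Subgroup.closure (perp D a))) (π b₁)) := by
    rw [← hW]
    refine le_antisymm ?_ fun w hw => ?_
    · rintro _ ⟨x, rfl⟩
      refine Subgroup.mem_centralizer_singleton_iff.2 ?_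
      have e : (Subgroup.inclusion (fun x hx => Subgroup.mem_centralizer_singleton_iff.2 (hKa hx).1) x :
          Subgroup.centralizer ({a} : Set G)) * b₁ = b₁ *
          Subgroup.inclusion (fun x hx => Subgroup.mem_centralizer_singleton_iff.2 (hKa hx).1) x :=
        Subtype.ext (by simpa [hb₁] using (hKa x.2).2)
      exact (map_mul π _ _).symm.trans ((congrArg π e).trans (map_mul π _ _))
    · obtain ⟨z, rfl⟩ := hπ w
      rw [Subgroup.mem_centralizer_singleton_iff] at hw
      have hzb : (z : G) * b = b * z := by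
        have h1 : π (z * b₁ * z⁻¹ * b₁⁻¹) = 1 := by
          rw [map_mul, map_mul, map_mul, map_inv, map_inv, hw, mul_inv_cancel_right, mul_inv_cancel]
        rcases (hker _).1 h1 with h | h
        · simp only [Subgroup.coe_mul, Subgroup.coe_inv, hb₁, mul_inv_eq_one] at h
          exact mul_inv_eq_iff_eq_mul.1 h
        · simp only [Subgroup.coe_mul, Subgroup.coe_inv, hb₁] at h
          rw [mul_inv_eq_iff_eq_mul] at h
          exact absurd (h ▸ hD.2.1 z b hb.1) (notMem_product hD hprim ht ha hb.1 hb.2.1.symm hb.2.2)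
      have hza : (z : G) * a = a * z := Subgroup.mem_centralizer_singleton_iff.1 z.2
      have hmemK : ∀ y : G, y ∈ commutator G → y * a = a * y → y * b = b * y → y ∈ K := by
        intro y h1 h2 h3
        rw [hK]
        refine ⟨h1, Subgroup.mem_centralizer_iff.2 ?_⟩
        rintro w (rfl | rfl)
        exacts [h2.symm, h3.symm]
      rcases mem_or_mul_mem hD hprim ht ha (z : G) with h | h
      · exact ⟨⟨z, hmemK _ h hza hzb⟩, rfl⟩
      · refine ⟨⟨a * z, hmemK _ h (by rw [mul_assoc, hza]) ?_⟩, ?_⟩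
        · rw [mul_assoc, hzb, ← mul_assoc, hb.2.2.eq, mul_assoc]
        · obtain ⟨a₁, ha₁⟩ : ∃ a₁ : Subgroup.centralizer ({a} : Set G), (a₁ : G) = a :=
            ⟨⟨a, Subgroup.mem_centralizer_singleton_iff.2 rfl⟩, rfl⟩
          show π _ = π z
          rw [show (Subgroup.inclusion _ (⟨a * z, _⟩ : K) : Subgroup.centralizer ({a} : Set G)) = a₁ * z from
            Subtype.ext (by simp [ha₁]), map_mul, (hker a₁).2 (Or.inr ha₁), one_mul]
  refine ⟨π b₁, hq, (MonoidHom.ofInjective hinj).trans (MulEquiv.subgroupCongr hrange), fun (x : K) => ?_⟩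
  show (x : G) = a * b ↔ φ x = π b₁
  have hKmem : a * b ∈ K := by
    rw [hK]
    refine ⟨mul_mem_commutator hD hprim ht ha hb.1, Subgroup.mem_centralizer_iff.2 ?_⟩
    rintro w (rfl | rfl)
    · exact ((Commute.refl w).mul_right hb.2.2).eq
    · exact (hb.2.2.symm.mul_right (Commute.refl w)).eq
  have hjq : φ ⟨a * b, hKmem⟩ = π b₁ := by
    obtain ⟨a₁, ha₁⟩ : ∃ a₁ : Subgroup.centralizer ({a} : Set G), (a₁ : G) = a :=
      ⟨⟨a, Subgroup.mem_centralizer_singleton_iff.2 rfl⟩, rfl⟩
    show π _ = _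
    rw [show (Subgroup.inclusion _ (⟨a * b, hKmem⟩ : K) : Subgroup.centralizer ({a} : Set G)) = a₁ * b₁ from
      Subtype.ext (by simp [ha₁, hb₁]), map_mul, (hker a₁).2 (Or.inr ha₁), one_mul]
  exact ⟨fun e => by rw [← hjq]; exact congrArg φ (Subtype.ext e),
    fun e => congrArg Subtype.val (hinj (e.trans hjq.symm))⟩

/-- The centralizer of the product of two commuting members in the derived group. -/
theorem main (ha : a ∈ D) (hb : b ∈ perp D a) (K CL : Subgroup G)
    (hK : K = commutator G ⊓ Subgroup.centralizer ({a, b} : Set G))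
    (hCL : CL = commutator G ⊓ Subgroup.centralizer ({a * b} : Set G))
    [hn : ((Subgroup.zpowers (a * b)).subgroupOf CL).Normal] :
    Cfsg.IsQuasisimple K ∧ K = (Cfsg.generalizedFittingSubgroup CL).map CL.subtype ∧ K ≤ CL ∧
      (K.subgroupOf CL).index = 2 ∧ a * b ∈ K ∧
      ∃ q ∈ imageSet D a (Subgroup.closure (perp D a)),
        ∀ (X : Type) [Group X], Nonempty ((↥(Subgroup.closure (perp (imageSet D a (Subgroup.closure (perp D a))) q)) ⧸
            Subgroup.center (Subgroup.closure (perp (imageSet D a (Subgroup.closure (perp D a))) q))) ≃* X) →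
          Nat.card (Cfsg.Out X) = 2 → Nonempty (↥CL ⧸ (Subgroup.zpowers (a * b)).subgroupOf CL ≃* MulAut X) := by
  have hne : a ≠ b := hb.2.1.symm
  have hc := hb.2.2
  obtain ⟨q, hq, e, hej⟩ := pair_equiv hD hprim ht ha hb
  subst hK
  obtain ⟨K, hK⟩ : ∃ K, K = commutator G ⊓ Subgroup.centralizer ({a, b} : Set G) := ⟨_, rfl⟩
  revert e
  rw [← hK]
  intro e hej
  have hI := TypeTwentyFour.type23_at hD hprim ht ha
  have hgood := TypeTwentyFour.good_at hD hprim ht ha
  have hp := TypeTwentyFour.primitive_at hD hprim ht ha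
  have hqs0 := TypeTwentyThree.isQuasisimple hgood.tt hp hI hq
  have hce := TypeTwentyThree.center_eq hgood.tt hp hI hq
  have hqmem := TypeTwentyThree.mem_closure_perp hgood.tt hp hI hq
  haveI := hqs0.1
  haveI hperf : Group.IsPerfect K := Group.IsPerfect.ofSurjective (f := e.symm.toMonoidHom) e.symm.surjective
  let ec := QuotientGroup.congr (Subgroup.center K) (Subgroup.center _) e (TypeTwentyTwo.map_center e)
  have hqs : Cfsg.IsQuasisimple K :=
    ⟨hperf, haveI := hqs0.2; MulEquiv.isSimpleGroup ec⟩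
  have hjK : a * b ∈ K := by
    rw [hK]
    refine ⟨mul_mem_commutator hD hprim ht ha hb.1, Subgroup.mem_centralizer_iff.2 ?_⟩
    rintro w (rfl | rfl)
    · exact ((Commute.refl w).mul_right hc).eq
    · exact (hc.symm.mul_right (Commute.refl w)).eq
  have hKcomm : ∀ {x : G}, x ∈ K → Commute x a ∧ Commute x b := fun hx => by
    rw [hK] at hx
    exact ⟨(Subgroup.mem_centralizer_iff.1 hx.2 a (Or.inl rfl)).symm,
      (Subgroup.mem_centralizer_iff.1 hx.2 b (Or.inr rfl)).symm⟩
  have hKCL : K ≤ CL := by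
    intro x hx
    rw [hCL]
    exact ⟨(hK.le hx).1, Subgroup.mem_centralizer_singleton_iff.2 ((hKcomm hx).1.mul_right (hKcomm hx).2).eq⟩
  have hswap : ∃ g ∈ CL, g * a * g⁻¹ = b := by
    obtain ⟨g, hg⟩ := TypeTwentyFour.trans_le_five hD hprim ht (m := 2) (by norm_num) [a, b] [b, a] (by simp [hne])
      (by simp [hne.symm]) rfl rfl
      (by simp [ha, hb.1]) (by simp [ha, hb.1]) (by simp [hc, hc.symm]) (by simp [hc, hc.symm])
    simp only [List.map_cons, List.map_nil, List.cons.injEq, MulAut.conj_apply, and_true] at hg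
    have key : ∀ h : G, h * a * h⁻¹ = b → h * b * h⁻¹ = a → h ∈ commutator G → h ∈ CL := by
      intro h h1 h2 h3
      rw [hCL]
      refine ⟨h3, Subgroup.mem_centralizer_singleton_iff.2 (mul_inv_eq_iff_eq_mul.1 ?_)⟩
      rw [show h * (a * b) * h⁻¹ = (h * a * h⁻¹) * (h * b * h⁻¹) by group, h1, h2, hc.eq]
    rcases mem_or_mul_mem hD hprim ht ha g with h | h
    · exact ⟨g, key g hg.1 hg.2 h, hg.1⟩
    · have h1 : a * g * a * (a * g)⁻¹ = b := by
        rw [show a * g * a * (a * g)⁻¹ = a * (g * a * g⁻¹) * a⁻¹ by group, hg.1, hc.eq, mul_inv_cancel_right]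
      refine ⟨a * g, key _ h1 ?_ h, h1⟩
      rw [show a * g * b * (a * g)⁻¹ = a * (g * b * g⁻¹) * a⁻¹ by group, hg.2, mul_inv_cancel_right]
  have hfixK : ∀ {g : G}, g ∈ CL → g * a * g⁻¹ = a → g ∈ K := by
    intro g hg h
    rw [hCL] at hg
    rcases conj_pair hD hprim ht ha hb.1 hne hc (Subgroup.mem_centralizer_singleton_iff.1 hg.2) with h' | h'
    · rw [hK]
      refine ⟨hg.1, Subgroup.mem_centralizer_iff.2 ?_⟩
      rintro w (rfl | rfl)
      exacts [(mul_inv_eq_iff_eq_mul.1 h'.1).symm, (mul_inv_eq_iff_eq_mul.1 h'.2).symm]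
    · exact absurd (h.symm.trans h'.1) hne
  have hidx : (K.subgroupOf CL).index = 2 := by
    obtain ⟨s, hs, hsa⟩ := hswap
    refine Subgroup.index_eq_two_iff'.2 ⟨⟨s, hs⟩, fun g => ?_⟩
    simp only [Subgroup.mem_subgroupOf, Subgroup.coe_mul]
    have hsK : s ∉ K := fun h => hne ((mul_inv_eq_iff_eq_mul.2 (hKcomm h).1.eq).symm.trans hsa)
    by_cases hgK : (g : G) ∈ K
    · exact Or.inr ⟨hgK, fun k => hsK ((Subgroup.mul_mem_cancel_right _ hgK).1 k)⟩
    · refine Or.inl ⟨hfixK (mul_mem hs g.2) ?_, hgK⟩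
      have hgp : (g : G) ∈ commutator G ⊓ Subgroup.centralizer ({a * b} : Set G) := hCL.le g.2
      have hsp : s ∈ commutator G ⊓ Subgroup.centralizer ({a * b} : Set G) := hCL ▸ hs
      rcases conj_pair hD hprim ht ha hb.1 hne hc (Subgroup.mem_centralizer_singleton_iff.1 hgp.2) with h | h
      · exact absurd (hfixK g.2 h.1) hgK
      · rcases conj_pair hD hprim ht ha hb.1 hne hc (Subgroup.mem_centralizer_singleton_iff.1 hsp.2) with h' | h'
        · exact absurd (h'.1.symm.trans hsa) hne
        · rw [show s * (g : G) * a * (s * (g : G))⁻¹ = s * ((g : G) * a * (g : G)⁻¹) * s⁻¹ by group, h.1, h'.2]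
  haveI hKn : (K.subgroupOf CL).Normal := Subgroup.normal_of_index_eq_two hidx
  let eK : ↥(K.subgroupOf CL) ≃* ↥K := Subgroup.subgroupOfEquivOfLe hKCL
  have hqs' : Cfsg.IsQuasisimple ↥(K.subgroupOf CL) := by
    refine ⟨Group.IsPerfect.ofSurjective (f := eK.symm.toMonoidHom) eK.symm.surjective, ?_⟩
    haveI := hqs.2
    exact MulEquiv.isSimpleGroup (QuotientGroup.congr (Subgroup.center _) (Subgroup.center K) eK
      (TypeTwentyTwo.map_center eK))
  have hcenK : ∀ x : K, x ∈ Subgroup.center K → (x : G) ∈ Subgroup.zpowers (a * b) := by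
    intro x hx
    have hx' : e x ∈ Subgroup.center _ := by
      rw [← TypeTwentyTwo.map_center e]
      exact ⟨x, hx, rfl⟩
    rw [hce, Subgroup.mem_subgroupOf, Subgroup.mem_zpowers_iff] at hx'
    obtain ⟨k, hk⟩ := hx'
    refine Subgroup.mem_zpowers_iff.2 ⟨k, ?_⟩
    have hej' : ((e ⟨a * b, hjK⟩ : Subgroup.closure (perp _ q)) : _ ⧸ _) = q := (hej _).1 rfl
    have : e (⟨a * b, hjK⟩ ^ k) = e x := Subtype.ext (by rw [map_zpow, SubgroupClass.coe_zpow, hej', hk])
    simpa using congrArg Subtype.val (e.injective this)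
  have hZc : ∀ z ∈ (Subgroup.zpowers (a * b)).subgroupOf CL, ∀ k ∈ K.subgroupOf CL, Commute z k := by
    intro z hz k hk
    rw [Subgroup.mem_subgroupOf, Subgroup.mem_zpowers_iff] at hz
    obtain ⟨i, hi⟩ := hz
    refine Subtype.ext ?_
    show (z : G) * k = k * z
    rw [← hi]
    exact ((hKcomm hk).1.mul_right (hKcomm hk).2).symm.zpow_left i |>.eq
  have hZK : (Subgroup.zpowers (a * b)).subgroupOf CL ≤ K.subgroupOf CL := fun z hz =>
    Subgroup.zpowers_le.2 hjK hz
  have hC : Subgroup.centralizer ((K.subgroupOf CL : Subgroup CL) : Set CL) ≤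
      (Subgroup.zpowers (a * b)).subgroupOf CL := by
    intro g hg
    have hgK : ∀ k ∈ K, (g : G) * k = k * g := fun k hk =>
      (congrArg Subtype.val (hg (⟨k, hKCL hk⟩ : CL) hk)).symm
    have hmem : (g : G) ∈ K := by
      refine hfixK g.2 ?_
      have hgp : (g : G) ∈ commutator G ⊓ Subgroup.centralizer ({a * b} : Set G) := hCL.le g.2
      rcases conj_pair hD hprim ht ha hb.1 hne hc (Subgroup.mem_centralizer_singleton_iff.1 hgp.2) with h | h
      · exact h.1
      exfalso
      obtain ⟨f, hfa, hfb⟩ : (perp D a ∩ perp D b).Nonempty :=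
        (Set.ncard_pos (Set.toFinite _)).1 (by rw [TypeTwentyFour.ncard_common_commute hD hprim ht ha hb]; norm_num)
      have hfK : f * a ∈ K := by
        rw [hK]
        refine ⟨mul_mem_commutator hD hprim ht hfa.1 ha, Subgroup.mem_centralizer_iff.2 ?_⟩
        rintro w (rfl | rfl)
        · exact (hfa.2.2.mul_right (Commute.refl w)).eq
        · exact (hfb.2.2.mul_right hc.symm).eq
      obtain ⟨f', hf'⟩ : ∃ f', f' = (g : G) * f * (g : G)⁻¹ := ⟨_, rfl⟩
      have hf'D : f' ∈ D := hf' ▸ hD.2.1 _ f hfa.1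
      have haa := sq_eq_one hD.1 ha
      have hbb := sq_eq_one hD.1 hb.1
      have h1 : f' * b = f * a := by
        rw [← h.1, hf', show (g : G) * f * (g : G)⁻¹ * ((g : G) * a * (g : G)⁻¹) = (g : G) * (f * a) * (g : G)⁻¹ by group,
          hgK _ hfK, mul_inv_cancel_right]
      have hl : ∀ x ∈ [f, a, b], x ∈ D := by simp [hfa.1, ha, hb.1]
      have hp3 : [f, a, b].prod = f' := by
        rw [List.prod_cons, List.prod_cons, List.prod_cons, List.prod_nil, mul_one, ← mul_assoc, ← h1, mul_assoc, hbb,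
          mul_one]
      have hlc : ∀ x ∈ [f, a, b], ∀ y ∈ [f, a, b], Commute x y := by
        simp [hfa.2.2, hfa.2.2.symm, hfb.2.2, hfb.2.2.symm, hc, hc.symm]
      have hln : [f, a, b].Nodup := by simp [hfa.2.1, hfb.2.1, hne]
      have hf3 : ∀ x ∈ [f, a, b], Commute f' x := fun x hx => by
        rw [← hp3]
        exact (Commute.list_prod_right _ x fun y hy => hlc x hx y hy).symm
      have hnm : f' ∉ [f, a, b] := by
        intro hm
        simp only [List.mem_cons, List.not_mem_nil, or_false] at hm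
        rcases hm with rfl | rfl | rfl
        · exact hne (mul_left_cancel h1).symm
        · exact hfb.2.1 (mul_left_cancel (h1.trans hfa.2.2.symm.eq)).symm
        · rw [hbb] at h1
          exact hfa.2.1 (by rw [← inv_eq hD.1 ha]; exact (inv_eq_of_mul_eq_one_left h1.symm).symm)
      refine TypeTwentyFour.noUnit_le_seven hD hprim ht (k := 4) (by norm_num) (by norm_num) (f' :: [f, a, b])
        (List.nodup_cons.2 ⟨hnm, hln⟩) rfl ?_ ?_ ?_
      · intro x hx
        rcases List.mem_cons.1 hx with rfl | hx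
        exacts [hf'D, hl x hx]
      · intro x hx y hy
        rcases List.mem_cons.1 hx with ex | hx <;> rcases List.mem_cons.1 hy with ey | hy
        · rw [ex, ey]
        · rw [ex]; exact hf3 y hy
        · rw [ey]; exact (hf3 x hx).symm
        · exact hlc x hx y hy
      · rw [List.prod_cons, hp3, sq_eq_one hD.1 hf'D]
    exact hcenK ⟨g, hmem⟩ (Subgroup.mem_center_iff.2 fun k => Subtype.ext (hgK k k.2).symm)
  have hF := generalizedFitting_eq hqs' (hC.trans hZK)
  refine ⟨hqs, ?_, hKCL, hidx, hjK, q, hq, ?_⟩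
  · rw [hF, Subgroup.map_subgroupOf_eq_of_le hKCL]
  intro X _ ⟨eX⟩ hOut
  let eZ : (↥(K.subgroupOf CL) ⧸ ((Subgroup.zpowers (a * b)).subgroupOf CL).subgroupOf (K.subgroupOf CL)) ≃* X :=
    ((QuotientGroup.congr _ (Subgroup.center K) eK ?hmap).trans
      (QuotientGroup.congr (Subgroup.center K) (Subgroup.center _) e (TypeTwentyTwo.map_center e))).trans eX
  case hmap =>
    refine le_antisymm ?_ fun x hx => ?_
    · rintro _ ⟨x, hx, rfl⟩
      refine Subgroup.mem_center_iff.2 fun k => Subtype.ext ?_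
      exact (congrArg Subtype.val (hZc _ hx ⟨k, hKCL k.2⟩ k.2).eq).symm
    · exact ⟨⟨⟨x, hKCL x.2⟩, x.2⟩, hcenK x hx, rfl⟩
  have hX : Finite X := Finite.of_equiv _ eX.toEquiv
  have hZX : Subgroup.center X = ⊥ := by
    have h22 := TypeTwentyThree.good_at hgood.tt hp hI hq
    rw [← TypeTwentyTwo.map_center eX, h22.center, Subgroup.map_bot]
  have hinj : Function.Injective (MulAut.conj : X →* MulAut X) := by
    rw [← MonoidHom.ker_eq_bot_iff, eq_bot_iff]
    intro x hx
    rw [← hZX, Subgroup.mem_center_iff]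
    intro y
    exact (mul_inv_eq_iff_eq_mul.1 (DFunLike.congr_fun (MonoidHom.mem_ker.1 hx) y)).symm
  have hcardX : Nat.card (MulAut X) = 2 * Nat.card X := by
    rw [Subgroup.card_eq_card_quotient_mul_card_subgroup (Cfsg.Inn X), show Nat.card (MulAut X ⧸ Cfsg.Inn X) = 2 from hOut,
      show Nat.card (Cfsg.Inn X) = Nat.card X from (Nat.card_congr (MonoidHom.ofInjective hinj).toEquiv).symm]
  obtain ⟨ψ⟩ := quotient_equiv_mulAut (K := K.subgroupOf CL) (Z := (Subgroup.zpowers (a * b)).subgroupOf CL)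
    hqs'.1 hZK hZc hC (by
      rw [Nat.card_congr (MulAut.congr eZ).toEquiv, hcardX, ← Nat.card_congr eZ.toEquiv, ← Subgroup.index_eq_card,
        ← Subgroup.index_eq_card, ← Subgroup.relIndex_mul_index hZK, hidx, mul_comm]
      rfl)
  exact ⟨ψ.trans (MulAut.congr eZ)⟩

end CfsgLib.Fischer.PairCentralizerMTwentyFour
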