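import Cfsg.Agent.Lib.Fischer.SymFour

/-!
Fischer spaces: the flip maps of the two planes, the automorphisms t(x) of a Fischer space, and the
Fischer space of a class of 3-transpositions.
-/
set_option autoImplicit false

namespace CfsgLib.Fischer.Spaces

open Cfsg

variable {X Y : Type*}

/-- A map `f` on pairs of points that describes a plane: `f x y` is the third point of the line on
`x` and `y`, or `y` when there is no such line. -/
structure IsPlane (M : Set (Set X)) (f : X → X → X) : Prop where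
  mem : ∀ x y, f x y ≠ y → x ≠ y ∧ f x y ≠ x ∧ ({x, y, f x y} : Set X) ∈ M
  not_collinear : ∀ x y, f x y = y → ¬ LineSystem.Collinear M x y
  auto : ∀ x, ∀ l ∈ M, f x '' l ∈ M
  cover : ∀ l ∈ M, ∃ p q, f p q ≠ q ∧ l = {p, q, f p q}

/-- The flip map of the affine plane of order three. -/
def affFlip (x y : Fin 2 → ZMod 3) : Fin 2 → ZMod 3 := -(x + y)

theorem zmod_three_cases : ∀ c : ZMod 3, c = 0 ∨ c = 1 ∨ c = 2 := by decide

theorem aff_line (v w : Fin 2 → ZMod 3) :
    {x : Fin 2 → ZMod 3 | ∃ c : ZMod 3, x = v + c • w} = {v, v + w, v + (2 : ZMod 3) • w} := by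
  ext x
  simp only [Set.mem_setOf_eq, Set.mem_insert_iff, Set.mem_singleton_iff]
  constructor
  · rintro ⟨c, rfl⟩
    rcases zmod_three_cases c with rfl | rfl | rfl <;> simp
  · rintro (rfl | rfl | rfl)
    · exact ⟨0, by simp⟩
    · exact ⟨1, by simp⟩
    · exact ⟨2, rfl⟩

theorem affFlip_eq_iff : ∀ x y : Fin 2 → ZMod 3, affFlip x y = y ↔ x = y := by
  unfold affFlip
  decide

theorem affFlip_ne : ∀ x y : Fin 2 → ZMod 3, x ≠ y → affFlip x y ≠ x := by
  unfold affFlip
  decide

theorem affFlip_eq : ∀ x y : Fin 2 → ZMod 3,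
    x + (y - x) = y ∧ x + (2 : ZMod 3) • (y - x) = affFlip x y := by
  unfold affFlip
  decide

theorem affFlip_add : ∀ v w : Fin 2 → ZMod 3, affFlip v (v + w) = v + (2 : ZMod 3) • w := by
  unfold affFlip
  decide

theorem isPlane_affine : IsPlane Cfsg.affinePlaneThree affFlip := by
  refine ⟨fun x y h => ?_, fun x y h hc => hc.1 ((affFlip_eq_iff x y).1 h), fun x l hl => ?_,
    fun l hl => ?_⟩
  · have hxy : x ≠ y := fun e => h ((affFlip_eq_iff x y).2 e)
    refine ⟨hxy, affFlip_ne x y hxy, x, y - x, sub_ne_zero.2 (Ne.symm hxy), ?_⟩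
    rw [aff_line, (affFlip_eq x y).1, (affFlip_eq x y).2]
  · obtain ⟨v, w, hw, rfl⟩ := hl
    refine ⟨affFlip x v, -w, neg_ne_zero.2 hw, ?_⟩
    rw [aff_line, aff_line, Set.image_insert_eq, Set.image_insert_eq, Set.image_singleton]
    rw [show affFlip x (v + w) = affFlip x v + -w by unfold affFlip; abel,
      show affFlip x (v + (2 : ZMod 3) • w) = affFlip x v + (2 : ZMod 3) • -w by
        unfold affFlip; rw [smul_neg]; abel]
  · obtain ⟨v, w, hw, rfl⟩ := hl
    refine ⟨v, v + w, ?_, ?_⟩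
    · rw [ne_eq, affFlip_eq_iff]
      simpa using hw
    · rw [aff_line, affFlip_add]

/-- The flip map of the dual affine plane of order two. -/
def dualFlipFinset (x y : Finset (Fin 4)) : Finset (Fin 4) :=
  if (x ∩ y).card = 1 then (x \ y) ∪ (y \ x) else y

theorem dualFlipFinset_card : ∀ x y : DualAffinePoint, (dualFlipFinset x.1 y.1).card = 2 := by
  decide +kernel

/-- The flip map of the dual affine plane of order two. -/
def dualFlip (x y : DualAffinePoint) : DualAffinePoint :=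
  ⟨dualFlipFinset x.1 y.1, dualFlipFinset_card x y⟩

theorem dual_mem : ∀ x y : DualAffinePoint, dualFlip x y ≠ y →
    x ≠ y ∧ dualFlip x y ≠ x ∧
      ∃ i : Fin 4, ∀ s : DualAffinePoint, (s = x ∨ s = y ∨ s = dualFlip x y) ↔ i ∉ s.1 := by
  decide +kernel

theorem dual_not_collinear : ∀ x y : DualAffinePoint, dualFlip x y = y →
    x ≠ y → ∀ i : Fin 4, i ∈ x.1 ∨ i ∈ y.1 := by
  decide +kernel

theorem dual_auto : ∀ x : DualAffinePoint, ∀ i : Fin 4, ∃ j : Fin 4, ∀ s : DualAffinePoint,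
    (∃ t : DualAffinePoint, i ∉ t.1 ∧ dualFlip x t = s) ↔ j ∉ s.1 := by
  decide +kernel

theorem dual_cover : ∀ i : Fin 4, ∃ p q : DualAffinePoint, dualFlip p q ≠ q ∧
    ∀ s : DualAffinePoint, i ∉ s.1 ↔ (s = p ∨ s = q ∨ s = dualFlip p q) := by
  decide +kernel

theorem isPlane_dual : IsPlane Cfsg.dualAffinePlaneTwo dualFlip := by
  refine ⟨fun x y h => ?_, fun x y h hc => ?_, fun x l hl => ?_, fun l hl => ?_⟩
  · obtain ⟨h1, h2, i, hi⟩ := dual_mem x y h
    exact ⟨h1, h2, i, by ext s; simpa using hi s⟩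
  · obtain ⟨hne, l, ⟨i, rfl⟩, hx, hy⟩ := hc
    exact (dual_not_collinear x y h hne i).elim hx hy
  · obtain ⟨i, rfl⟩ := hl
    obtain ⟨j, hj⟩ := dual_auto x i
    exact ⟨j, by ext s; simpa [Set.mem_image] using hj s⟩
  · obtain ⟨i, rfl⟩ := hl
    obtain ⟨p, q, h, hs⟩ := dual_cover i
    exact ⟨p, q, h, by ext s; simpa using hs s⟩

section LineMap

variable {L : Set (Set X)}

theorem triple_eq (hp : LineSystem.IsPartialLinear L) (h3 : ∀ l ∈ L, l.ncard = 3) {x y z w : X}
    (hxy : x ≠ y) (hwx : w ≠ x) (hwy : w ≠ y) (h1 : ({x, y, z} : Set X) ∈ L)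
    (h2 : ({x, y, w} : Set X) ∈ L) : z = w := by
  have e := hp _ h1 _ h2 x y hxy (by simp) (by simp) (by simp) (by simp)
  have hw : w ∈ ({x, y, z} : Set X) := by rw [e]; simp
  simp only [Set.mem_insert_iff, Set.mem_singleton_iff] at hw
  tauto

theorem lineMap_eq (hp : LineSystem.IsPartialLinear L) (h3 : ∀ l ∈ L, l.ncard = 3) {x y z : X}
    (hxy : x ≠ y) (hzx : z ≠ x) (hzy : z ≠ y) (h : ({x, y, z} : Set X) ∈ L) :
    LineSystem.lineMap L x y = z := by
  have hex : ∃ z : X, z ≠ x ∧ z ≠ y ∧ x ≠ y ∧ ({x, y, z} : Set X) ∈ L := ⟨z, hzx, hzy, hxy, h⟩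
  unfold LineSystem.lineMap
  rw [dif_pos hex]
  exact triple_eq hp h3 hxy hzx hzy hex.choose_spec.2.2.2 h

theorem lineMap_eq_self {x y : X} (h : ¬ LineSystem.Collinear L x y) :
    LineSystem.lineMap L x y = y := by
  unfold LineSystem.lineMap
  rw [dif_neg]
  rintro ⟨z, -, -, hxy, hl⟩
  exact h ⟨hxy, _, hl, by simp, by simp⟩

theorem exists_third (h3 : ∀ l ∈ L, l.ncard = 3) {x y : X} {l : Set X} (hl : l ∈ L) (hxy : x ≠ y)
    (hx : x ∈ l) (hy : y ∈ l) : ∃ z, z ≠ x ∧ z ≠ y ∧ l = {x, y, z} := by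
  obtain ⟨a, b, c, hab, hac, hbc, rfl⟩ := Set.ncard_eq_three.1 (h3 l hl)
  simp only [Set.mem_insert_iff, Set.mem_singleton_iff] at hx hy
  rcases hx with rfl | rfl | rfl <;> rcases hy with rfl | rfl | rfl <;>
    first
    | exact absurd rfl hxy
    | (refine ⟨a, ?_, ?_, ?_⟩ <;>
        first | assumption | exact Ne.symm ‹_› | rfl | (ext t; simp only [Set.mem_insert_iff, Set.mem_singleton_iff]; tauto))
    | (refine ⟨b, ?_, ?_, ?_⟩ <;>
        first | assumption | exact Ne.symm ‹_› | rfl | (ext t; simp only [Set.mem_insert_iff, Set.mem_singleton_iff]; tauto))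
    | (refine ⟨c, ?_, ?_, ?_⟩ <;>
        first | assumption | exact Ne.symm ‹_› | rfl | (ext t; simp only [Set.mem_insert_iff, Set.mem_singleton_iff]; tauto))

theorem lineMap_self {x : X} : LineSystem.lineMap L x x = x :=
  lineMap_eq_self fun h => h.1 rfl

theorem lineMap_involutive (hp : LineSystem.IsPartialLinear L) (h3 : ∀ l ∈ L, l.ncard = 3) (x : X) :
    Function.Involutive (LineSystem.lineMap L x) := by
  intro y
  by_cases h : LineSystem.Collinear L x y
  · obtain ⟨hxy, l, hl, hx, hy⟩ := h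
    obtain ⟨z, hzx, hzy, rfl⟩ := exists_third h3 hl hxy hx hy
    rw [lineMap_eq hp h3 hxy hzx hzy hl]
    exact lineMap_eq hp h3 (Ne.symm hzx) (Ne.symm hxy) (Ne.symm hzy)
      (by rwa [Set.pair_comm z y])
  · rw [lineMap_eq_self h, lineMap_eq_self h]

/-- In a subspace that is a plane the map t(x) is the flip map. -/
theorem lineMap_transport (hp : LineSystem.IsPartialLinear L) (h3 : ∀ l ∈ L, l.ncard = 3)
    {S : Set X} (hS : LineSystem.IsSubspace L S) {M : Set (Set Y)} {f : Y → Y → Y}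
    (hf : IsPlane M f) {e : S ≃ Y} (he : LineSystem.IsIso (LineSystem.restrict L S) M e) (x y : S) :
    LineSystem.lineMap L (x : X) (y : X) = (e.symm (f (e x) (e y)) : X) := by
  by_cases h : f (e x) (e y) = e y
  · rw [h, e.symm_apply_apply]
    apply lineMap_eq_self
    rintro ⟨hxy, l, hl, hx, hy⟩
    have hsub := hS l hl x x.2 y y.2 hxy hx hy
    refine hf.not_collinear _ _ h
      ⟨fun e' => hxy (congrArg Subtype.val (e.injective e')), _, (he _).1 ⟨l, hl, hsub, rfl⟩, ?_, ?_⟩
    · exact ⟨x, hx, rfl⟩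
    · exact ⟨y, hy, rfl⟩
  · obtain ⟨hne, hne', hmem⟩ := hf.mem _ _ h
    set z := e.symm (f (e x) (e y)) with hz
    have hl : ({x, y, z} : Set S) ∈ LineSystem.restrict L S := by
      refine (he _).2 ?_
      rw [Set.image_insert_eq, Set.image_insert_eq, Set.image_singleton, hz, e.apply_symm_apply]
      exact hmem
    obtain ⟨l, hl, hsub, heq⟩ := hl
    have hval : l = {(x : X), (y : X), (z : X)} := by
      ext t
      constructor
      · intro ht
        have h1 : (⟨t, hsub ht⟩ : S) ∈ ({x, y, z} : Set S) := by rw [heq]; exact ht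
        simp only [Set.mem_insert_iff, Set.mem_singleton_iff, Subtype.ext_iff] at h1 ⊢
        exact h1
      · have h1 : ∀ s : S, s ∈ ({x, y, z} : Set S) → (s : X) ∈ l := fun s hs => by
          rw [heq] at hs; exact hs
        simp only [Set.mem_insert_iff, Set.mem_singleton_iff]
        rintro (rfl | rfl | rfl) <;> exact h1 _ (by simp)
    refine lineMap_eq hp h3 ?_ ?_ ?_ (hval ▸ hl)
    · exact fun e' => hne (congrArg e (Subtype.ext e'))
    · intro e'
      have := congrArg e (Subtype.ext e' : z = x)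
      rw [hz, e.apply_symm_apply] at this
      exact hne' this
    · intro e'
      have := congrArg e (Subtype.ext e' : z = y)
      rw [hz, e.apply_symm_apply] at this
      exact h this

theorem isSubspace_span (L : Set (Set X)) (S : Set X) :
    LineSystem.IsSubspace L (LineSystem.span L S) :=
  fun l hl _ hx _ hy hne hxl hyl =>
    Set.subset_sInter fun T hT => hT.2 l hl _ (hx T hT) _ (hy T hT) hne hxl hyl

theorem subset_span (L : Set (Set X)) (S : Set X) : S ⊆ LineSystem.span L S :=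
  Set.subset_sInter fun _ hT => hT.1

theorem image_of_plane (hp : LineSystem.IsPartialLinear L) (h3 : ∀ l ∈ L, l.ncard = 3)
    {S : Set X} (hS : LineSystem.IsSubspace L S) {M : Set (Set Y)} {f : Y → Y → Y}
    (hf : IsPlane M f) (hiso : LineSystem.Isomorphic (LineSystem.restrict L S) M) {x : X} (hx : x ∈ S)
    {l : Set X} (hl : l ∈ L) (hls : l ⊆ S) : LineSystem.lineMap L x '' l ∈ L := by
  obtain ⟨e, he⟩ := hiso
  have h := hf.auto (e ⟨x, hx⟩) _ ((he _).1 ⟨l, hl, hls, rfl⟩)
  rw [← Equiv.image_symm_image e (f (e ⟨x, hx⟩) '' _)] at h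
  obtain ⟨l', hl', hls', heq⟩ := (he _).2 h
  convert hl' using 1
  ext t
  constructor
  · rintro ⟨s, hs, rfl⟩
    rw [lineMap_transport hp h3 hS hf he ⟨x, hx⟩ ⟨s, hls hs⟩]
    have : e.symm (f (e ⟨x, hx⟩) (e ⟨s, hls hs⟩)) ∈
        e.symm '' (f (e ⟨x, hx⟩) '' (e '' {s : S | (s : X) ∈ l})) :=
      ⟨_, ⟨_, ⟨⟨s, hls hs⟩, hs, rfl⟩, rfl⟩, rfl⟩
    rw [heq] at this
    exact this
  · intro ht
    have : (⟨t, hls' ht⟩ : S) ∈ e.symm '' (f (e ⟨x, hx⟩) '' (e '' {s : S | (s : X) ∈ l})) := by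
      rw [heq]; exact ht
    obtain ⟨_, ⟨_, ⟨s, hs, rfl⟩, rfl⟩, hst⟩ := this
    exact ⟨s, hs, by rw [lineMap_transport hp h3 hS hf he ⟨x, hx⟩ s, hst]⟩

theorem image_lineMap (hL : Cfsg.IsFischerSpace L) (x : X) {l : Set X} (hl : l ∈ L) :
    LineSystem.lineMap L x '' l ∈ L := by
  obtain ⟨hp, h3, hpl⟩ := hL
  have hout : (∀ y ∈ l, LineSystem.lineMap L x y = y) → LineSystem.lineMap L x '' l = l := fun h =>
    (Set.image_congr h).trans (Set.image_id' l)
  by_cases hcol : ∃ a ∈ l, LineSystem.Collinear L x a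
  · obtain ⟨a, ha, hxa, m, hm, hxm, ham⟩ := hcol
    by_cases hlm : l = m
    · subst hlm
      have hsub : LineSystem.lineMap L x '' l ⊆ l := by
        rintro _ ⟨y, hy, rfl⟩
        by_cases hxy : x = y
        · subst hxy; rw [lineMap_self]; exact hy
        · obtain ⟨z, hzx, hzy, rfl⟩ := exists_third h3 hl hxy hxm hy
          rw [lineMap_eq hp h3 hxy hzx hzy hl]
          simp
      have hsup : l ⊆ LineSystem.lineMap L x '' l := fun y hy =>
        ⟨_, hsub ⟨y, hy, rfl⟩, lineMap_involutive hp h3 x y⟩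
      rw [subset_antisymm hsub hsup]
      exact hl
    · have hsub := subset_span L (l ∪ m)
      rcases hpl l hl m hm hlm ⟨a, ha, ham⟩ with h | h
      · exact image_of_plane hp h3 (isSubspace_span L _) isPlane_dual h (hsub (Or.inr hxm)) hl
          fun y hy => hsub (Or.inl hy)
      · exact image_of_plane hp h3 (isSubspace_span L _) isPlane_affine h (hsub (Or.inr hxm)) hl
          fun y hy => hsub (Or.inl hy)
  · push Not at hcol
    rw [hout fun y hy => lineMap_eq_self (hcol y hy)]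
    exact hl

end LineMap

section Perm

variable {L : Set (Set X)} (hL : Cfsg.IsFischerSpace L)
include hL

/-- The map t(x) as a permutation. -/
noncomputable def flipPerm (x : X) : Equiv.Perm X :=
  (lineMap_involutive hL.1 hL.2.1 x).toPerm

theorem flipPerm_coe (x : X) : ⇑(flipPerm hL x) = LineSystem.lineMap L x := rfl

theorem flipPerm_isIso (x : X) : LineSystem.IsIso L L (flipPerm hL x) := by
  refine fun l => ⟨fun hl => image_lineMap hL x hl, fun hl => ?_⟩
  have h := image_lineMap hL x hl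
  rwa [flipPerm_coe, Set.image_image,
    Set.image_congr' (g := id) fun y => lineMap_involutive hL.1 hL.2.1 x y, Set.image_id] at h

theorem flipPerm_mul_self (x : X) : flipPerm hL x * flipPerm hL x = 1 :=
  Equiv.ext fun y => lineMap_involutive hL.1 hL.2.1 x y

/-- An automorphism carries t(y) to t of the image of y. -/
theorem lineMap_equivariant {σ : Equiv.Perm X} (hσ : LineSystem.IsIso L L σ) (y w : X) :
    σ (LineSystem.lineMap L y w) = LineSystem.lineMap L (σ y) (σ w) := by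
  by_cases h : LineSystem.Collinear L y w
  · obtain ⟨hne, l, hl, hy, hw⟩ := h
    obtain ⟨z, hzy, hzw, rfl⟩ := exists_third hL.2.1 hl hne hy hw
    rw [lineMap_eq hL.1 hL.2.1 hne hzy hzw hl, lineMap_eq hL.1 hL.2.1 (z := σ z)
      (σ.injective.ne hne) (σ.injective.ne hzy) (σ.injective.ne hzw)]
    have := (hσ _).1 hl
    rwa [Set.image_insert_eq, Set.image_insert_eq, Set.image_singleton] at this
  · rw [lineMap_eq_self h, lineMap_eq_self]
    rintro ⟨hne, l, hl, hy, hw⟩
    refine h ⟨fun e => hne (congrArg σ e), σ.symm '' l, (hσ _).2 ?_, ?_, ?_⟩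
    · rwa [Equiv.image_symm_eq_preimage, Equiv.image_preimage]
    · exact ⟨σ y, hy, σ.symm_apply_apply y⟩
    · exact ⟨σ w, hw, σ.symm_apply_apply w⟩

theorem flipPerm_conj {σ : Equiv.Perm X} (hσ : LineSystem.IsIso L L σ) (y : X) :
    σ * flipPerm hL y * σ⁻¹ = flipPerm hL (σ y) := by
  refine Equiv.ext fun w => ?_
  show σ (LineSystem.lineMap L y (σ⁻¹ w)) = LineSystem.lineMap L (σ y) w
  rw [lineMap_equivariant hL hσ, ← Equiv.Perm.mul_apply, mul_inv_cancel, Equiv.Perm.one_apply]

theorem orderOf_flipPerm (hnd : LineSystem.IsNondegenerate L) (x : X) :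
    orderOf (flipPerm hL x) = 2 := by
  refine orderOf_eq_prime (by rw [pow_two]; exact flipPerm_mul_self hL x) fun h => ?_
  obtain ⟨l, hl, hx⟩ := hnd x
  obtain ⟨a, b, c, hab, hac, hbc, rfl⟩ := Set.ncard_eq_three.1 (hL.2.1 l hl)
  obtain ⟨y, hy, hyx⟩ : ∃ y ∈ ({a, b, c} : Set X), y ≠ x := by
    by_cases hax : a = x
    · exact ⟨b, by simp, fun e => hab (hax.trans e.symm)⟩
    · exact ⟨a, by simp, hax⟩
  obtain ⟨z, hzx, hzy, he⟩ := exists_third hL.2.1 hl (Ne.symm hyx) hx hy
  rw [he] at hl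
  have := lineMap_eq hL.1 hL.2.1 (Ne.symm hyx) hzx hzy hl
  rw [← flipPerm_coe hL, h] at this
  exact hzy this.symm

theorem flipPerm_product (x y : X) :
    (flipPerm hL x * flipPerm hL y) ^ 2 = 1 ∨ (flipPerm hL x * flipPerm hL y) ^ 3 = 1 := by
  set s := flipPerm hL x with hs
  set t := flipPerm hL y with ht
  have hs2 := flipPerm_mul_self hL x
  have ht2 := flipPerm_mul_self hL y
  rw [← hs] at hs2
  rw [← ht] at ht2
  have hsi : s⁻¹ = s := inv_eq_of_mul_eq_one_right hs2
  have hti : t⁻¹ = t := inv_eq_of_mul_eq_one_right ht2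
  have h1 : s * t * s = flipPerm hL (LineSystem.lineMap L x y) := by
    have := flipPerm_conj hL (flipPerm_isIso hL x) y
    rw [← hs, ← ht, hsi, hs, flipPerm_coe] at this
    exact this
  by_cases h : LineSystem.Collinear L x y
  · right
    obtain ⟨hne, l, hl, hx, hy⟩ := h
    obtain ⟨z, hzx, hzy, rfl⟩ := exists_third hL.2.1 hl hne hx hy
    have h2 : t * s * t = flipPerm hL (LineSystem.lineMap L y x) := by
      have := flipPerm_conj hL (flipPerm_isIso hL y) x
      rw [← hs, ← ht, hti, ht, flipPerm_coe] at this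
      exact this
    rw [lineMap_eq hL.1 hL.2.1 hne hzx hzy hl] at h1
    rw [lineMap_eq hL.1 hL.2.1 (Ne.symm hne) hzy hzx (by rwa [Set.insert_comm])] at h2
    calc (s * t) ^ 3 = (s * t * s) * (t * s * t) := by
          simp only [pow_succ, pow_zero, one_mul, mul_assoc]
      _ = 1 := by rw [h1, h2]; exact flipPerm_mul_self hL z
  · left
    rw [lineMap_eq_self h, ← ht] at h1
    rw [pow_two, ← mul_assoc, h1]
    exact ht2

end Perm

end CfsgLib.Fischer.Spaces
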