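import Cfsg.Agent.Lib.Fischer.TypeTwentyTwoPairs

/-!
Groups of type M(22): the largest normal 2-subgroup of the centralizer of a commuting pair and the
fact that an element exchanging the pair acts as an outer automorphism on the quotient.
-/

set_option autoImplicit false
set_option linter.unusedSectionVars false

namespace CfsgLib.Fischer.TypeTwentyTwo

open CfsgLib.Fischer CfsgLib.InvChar.FischerProducts CfsgLib.InvChar.FischerHexad
open CfsgLib.InvChar.UnitaryTVTwo CfsgLib.Fischer.UnitaryPoint Matrix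

variable {G : Type*} [Group G] [Finite G] {D : Set G} {a b : G} {F : Type} [Field F] [Fintype F]

theorem act_pow {n : ℕ} (g : Cfsg.SU n F 2) {v : Fin n → F} {c : F} (h : act g v = c • v) (m : ℕ) :
    act (g ^ m) v = (c ^ m) • v := by
  induction m with
  | zero => rw [pow_zero, act_one, pow_zero, one_smul]
  | succ m ih => rw [pow_succ, act_mul, h, act_smul, ih, smul_smul, ← pow_succ']

namespace Picture

variable (P : Picture D a b F)
include P

/-- The map onto `SU₄(2)`. -/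
noncomputable def proj : pairCent a b →* Cfsg.SU 4 F 2 := (psi P.card).comp P.φ

theorem proj_surjective : Function.Surjective P.proj := (psi_surjective P.card).comp P.surj

/-- The normal 2-subgroup of order `2¹⁰`. -/
noncomputable def twoKer : Subgroup (pairCent a b) := P.proj.ker

theorem mem_twoKer {k : pairCent a b} : k ∈ P.twoKer ↔ P.φ k ∈ rad P.card := Iff.rfl

theorem natCard_phi_ker (hab : a ≠ 1) (haK : a ∈ pairCent a b) : Nat.card P.φ.ker = 2 := by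
  rw [Nat.card_eq_two_iff]
  refine ⟨⟨1, one_mem _⟩, ⟨⟨a, haK⟩, P.map_a haK⟩, fun h => hab ?_, Set.eq_univ_of_forall fun k => ?_⟩
  · exact (congrArg (fun z : P.φ.ker => ((z : pairCent a b) : G)) h).symm
  · rcases (P.ker k.1).1 k.2 with h | h
    · exact Or.inl (Subtype.ext (Subtype.ext h))
    · exact Or.inr (Subtype.ext (Subtype.ext h))

theorem natCard_pairCent (hab : a ≠ 1) (haK : a ∈ pairCent a b) :
    Nat.card (pairCent a b) = 1024 * 25920 := by
  rw [Subgroup.card_eq_card_quotient_mul_card_subgroup P.φ.ker, P.natCard_phi_ker hab haK,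
    Nat.card_congr (QuotientGroup.quotientKerEquivOfSurjective P.φ P.surj).toEquiv, natCard_stab P.card]

theorem index_twoKer : P.twoKer.index = 25920 := by
  rw [Subgroup.index, twoKer,
    Nat.card_congr (QuotientGroup.quotientKerEquivOfSurjective P.proj P.proj_surjective).toEquiv,
    natCard_su4 P.card]

theorem natCard_twoKer (hab : a ≠ 1) (haK : a ∈ pairCent a b) : Nat.card P.twoKer = 1024 := by
  have h := P.twoKer.card_mul_index
  rw [P.index_twoKer, P.natCard_pairCent hab haK] at h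
  omega

theorem isPGroup_twoKer (hab : a ≠ 1) (haK : a ∈ pairCent a b) : IsPGroup 2 P.twoKer :=
  IsPGroup.of_card (n := 10) (by rw [P.natCard_twoKer hab haK]; norm_num)

theorem pCore_eq (hab : a ≠ 1) (haK : a ∈ pairCent a b) : Cfsg.pCore 2 (pairCent a b) = P.twoKer := by
  haveI : P.twoKer.Normal := MonoidHom.normal_ker _
  haveI := isSimple_su4 P.card
  refine le_antisymm ?_ (CfsgLib.Cores.le_pCore (P.isPGroup_twoKer hab haK))
  intro k hk
  have hM : IsPGroup 2 ((Cfsg.pCore 2 (pairCent a b)).map P.proj) :=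
    (CfsgLib.Cores.isPGroup_pCore 2 (pairCent a b)).map P.proj
  haveI hN : ((Cfsg.pCore 2 (pairCent a b)).map P.proj).Normal :=
    Subgroup.Normal.map (by infer_instance) _ P.proj_surjective
  rcases IsSimpleGroup.eq_bot_or_eq_top_of_normal _ hN with h | h
  · have : P.proj k ∈ (⊥ : Subgroup (Cfsg.SU 4 F 2)) := h ▸ Subgroup.mem_map_of_mem _ hk
    exact Subgroup.mem_bot.1 this
  · exfalso
    rw [h] at hM
    obtain ⟨n, hn⟩ := IsPGroup.iff_card.1 (hM.of_equiv Subgroup.topEquiv)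
    rw [natCard_su4 P.card] at hn
    have h5 : 5 ∣ 2 ^ n := ⟨5184, by omega⟩
    exact absurd (Nat.prime_five.dvd_of_dvd_pow h5) (by norm_num)

theorem mem_pair_of_phi (hb : b ∈ pairCent a b) {k : pairCent a b}
    (h : (P.φ k : Cfsg.SU 6 F 2) = 1 ∨ (P.φ k : Cfsg.SU 6 F 2) = t₀ P.card) :
    (k : G) = 1 ∨ (k : G) = a ∨ (k : G) = b ∨ (k : G) = b * a := by
  rcases h with h | h
  · rcases (P.ker k).1 (Subtype.ext h) with h | h
    · exact Or.inl h
    · exact Or.inr (Or.inl h)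
  · have h1 : P.φ ((⟨b, hb⟩ : pairCent a b)⁻¹ * k) = 1 := by
      rw [map_mul, map_inv, show P.φ k = P.φ ⟨b, hb⟩ from Subtype.ext (h.trans (P.map_b hb).symm),
        inv_mul_cancel]
    rcases (P.ker _).1 h1 with h2 | h2
    · rw [Subgroup.coe_mul, InvMemClass.coe_inv, inv_mul_eq_one] at h2
      exact Or.inr (Or.inr (Or.inl h2.symm))
    · rw [Subgroup.coe_mul, InvMemClass.coe_inv, inv_mul_eq_iff_eq_mul] at h2
      exact Or.inr (Or.inr (Or.inr h2))

theorem lift_vector {h : G} {s : Cfsg.SU 6 F 2}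
    (hs : ∀ x y : pairCent a b, h * x * h⁻¹ = y →
      (QuotientGroup.mk (s * (P.φ x : Cfsg.SU 6 F 2) * s⁻¹) : Cfsg.PSU 6 F 2) = QuotientGroup.mk (P.φ y : Cfsg.SU 6 F 2))
    {x y : pairCent a b} {r w : Fin 6 → F} (hr : Cfsg.hermForm 6 F 2 r r = 0) (hw : Cfsg.hermForm 6 F 2 w w = 0)
    (hr0 : r ≠ 0) (hx : (P.φ x : Cfsg.SU 6 F 2) = tv P.card r hr) (hy : (P.φ y : Cfsg.SU 6 F 2) = tv P.card w hw)
    (hxy : h * x * h⁻¹ = y) : ∃ c : F, c ≠ 0 ∧ act s r = c • w := by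
  have h1 := hs x y hxy
  rw [hx, hy, conj_tv P.card s hr] at h1
  have hs0 : act s r ≠ 0 := fun k0 => hr0 (by
    have := congrArg (act s⁻¹) k0
    rwa [← act_mul, inv_mul_cancel, act_one, act_eq, Matrix.mulVec_zero] at this)
  obtain ⟨c, hc⟩ := pv_eq_span P.card (by norm_num) _ hw hs0 h1
  exact ⟨c, fun k0 => hs0 (by rw [hc, k0, zero_smul]), hc⟩

/-- An exchanged torus element cannot be of two-power order modulo the original one. -/
theorem no_relation {g' : G} {s : Cfsg.SU 6 F 2} {lam mu θ : F} {T : Stab F} {u : Fin 6 → F}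
    {k' y : pairCent a b} {n : ℕ} (hlam : lam ≠ 0) (hmu : mu ≠ 0) (hu : u ≠ 0)
    (hs0 : act s u₀ = lam • u) (hs1 : act s u = mu • u₀) (hT1 : act (T : Cfsg.SU 6 F 2) u = θ • u)
    (hθ0 : θ ≠ 0) (hθ1 : θ ≠ 1) (hk' : P.φ k' = T) (hy : g' * k' * g'⁻¹ = y)
    (hs : ∀ x y : pairCent a b, g' * x * g'⁻¹ = y →
      (QuotientGroup.mk (s * (P.φ x : Cfsg.SU 6 F 2) * s⁻¹) : Cfsg.PSU 6 F 2) = QuotientGroup.mk (P.φ y : Cfsg.SU 6 F 2))
    (hpow : (y * k'⁻¹) ^ (2 ^ n) = 1) : False := by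
  have hF := P.card
  have h1 := hs k' y hy
  rw [hk'] at h1
  obtain ⟨z, hz, hyz⟩ : ∃ z ∈ Subgroup.center (Cfsg.SU 6 F 2),
      (P.φ y : Cfsg.SU 6 F 2) = s * (T : Cfsg.SU 6 F 2) * s⁻¹ * z :=
    ⟨_, QuotientGroup.eq.1 h1, by rw [mul_inv_cancel_left]⟩
  obtain ⟨c, hc⟩ := center_scalar hF (by norm_num) hz
  have hTi : act (T : Cfsg.SU 6 F 2)⁻¹ u = θ⁻¹ • u := by
    have := congrArg (act (T : Cfsg.SU 6 F 2)⁻¹) hT1
    rw [← act_mul, inv_mul_cancel, act_one, act_smul] at this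
    calc act (T : Cfsg.SU 6 F 2)⁻¹ u = θ⁻¹ • θ • act (T : Cfsg.SU 6 F 2)⁻¹ u := by rw [inv_smul_smul₀ hθ0]
      _ = θ⁻¹ • u := by rw [← this]
  have hsi0 : act s⁻¹ u₀ = mu⁻¹ • u := by
    have := congrArg (act s⁻¹) hs1
    rw [← act_mul, inv_mul_cancel, act_one, act_smul] at this
    rw [this, inv_smul_smul₀ hmu]
  have hsi1 : act s⁻¹ u = lam⁻¹ • u₀ := by
    have := congrArg (act s⁻¹) hs0
    rw [← act_mul, inv_mul_cancel, act_one, act_smul] at this
    rw [this, inv_smul_smul₀ hlam]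
  have h0 : act (P.φ y : Cfsg.SU 6 F 2) u₀ = (u₀ : Fin 6 → F) := (P.φ y).2
  rw [hyz, act_mul, hc, act_mul, act_mul, act_smul, hsi0, smul_smul, act_smul, hT1, smul_smul, act_smul, hs1,
    smul_smul] at h0
  have hcθ : c * θ = 1 := by
    have h2 : (c * mu⁻¹ * θ * mu) • (u₀ : Fin 6 → F) = (1 : F) • u₀ := by rw [one_smul]; exact h0
    have := smul_left_injective F u₀_ne h2
    field_simp at this
    linear_combination this
  have h2 : act ((P.φ (y * k'⁻¹) : Stab F) : Cfsg.SU 6 F 2) u = θ • u := by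
    rw [map_mul, map_inv, hk', Subgroup.coe_mul, InvMemClass.coe_inv, act_mul, hTi, hyz, act_mul, hc, act_mul,
      act_mul]
    simp only [act_smul, hsi1, show act (T : Cfsg.SU 6 F 2) u₀ = u₀ from T.2, hs0, smul_smul]
    congr 1
    have e3 := UnitaryPoint.pow_three hF hθ0
    field_simp
    linear_combination θ ^ 2 * (hcθ - e3) - (c - θ ^ 2) * e3
  have h3 := act_pow _ h2 (2 ^ n)
  rw [← SubmonoidClass.coe_pow, ← map_pow, hpow, map_one, OneMemClass.coe_one, act_one] at h3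
  have h4 : θ ^ (2 ^ n) = 1 :=
    (smul_left_injective F hu (show (1 : F) • u = θ ^ (2 ^ n) • u by rw [one_smul]; exact h3)).symm
  exact hθ1 (orderOf_eq_one_iff.1 (Nat.eq_one_of_dvd_one (by
    have hd := Nat.dvd_gcd (orderOf_dvd_of_pow_eq_one h4) (orderOf_dvd_of_pow_eq_one (UnitaryPoint.pow_three hF hθ0))
    rwa [Nat.Coprime.gcd_eq_one (Nat.Coprime.pow_left n (by norm_num))] at hd)))

end Picture

variable (hD : Cfsg.IsThreeTranspositionGroup D) (hprim : Cfsg.IsPrimitiveUnderConj D)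
  (ht : Cfsg.IsOfTypeM22 G D)

include hD hprim ht

omit [Field F] [Fintype F] in
theorem mem_D_pairCent (ha : a ∈ D) (hb : b ∈ perp D a) : a ∈ pairCent a b ∧ b ∈ pairCent a b :=
  ⟨mem_pairCent.2 ⟨Commute.refl a, hb.2.2⟩, mem_pairCent.2 ⟨hb.2.2.symm, Commute.refl b⟩⟩

/-- Another isotropic vector orthogonal to `u₀`. -/
def u₁ : Fin 6 → F := fun i => if (i : ℕ) = 2 ∨ (i : ℕ) = 3 then 1 else 0

/-- An element exchanging the pair does not act trivially modulo the normal 2-subgroup. -/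
theorem exists_not_mem (ha : a ∈ D) (hb : b ∈ perp D a) (P : Picture D a b F) {g : G}
    (hga : g * a * g⁻¹ = b) (hgb : g * b * g⁻¹ = a) :
    ¬ ∀ k : pairCent a b, ∃ z ∈ P.twoKer, (z : G) = g * (k : G) * g⁻¹ * (k : G)⁻¹ := by
  intro hcon
  have hab : a ≠ 1 := ne_one hD.1 ha
  have hE : IsPGroup 2 P.twoKer := P.isPGroup_twoKer hab (mem_D_pairCent hD hprim ht ha hb).1
  have hF := P.card
  haveI : P.twoKer.Normal := MonoidHom.normal_ker _
  -- a common neighbour and its image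
  obtain ⟨c, hca, hcb⟩ := exists_third hD hprim ht ha hb
  have hcK : c ∈ pairCent a b := mem_pairCent.2 ⟨hca.2.2.symm, hcb.2.2.symm⟩
  have hc'a : g * c * g⁻¹ ∈ perp D a := hgb ▸ CfsgLib.InvChar.FischerHexad.perp_conj hD g hcb
  have hc'b : g * c * g⁻¹ ∈ perp D b := hga ▸ CfsgLib.InvChar.FischerHexad.perp_conj hD g hca
  have hc'K : g * c * g⁻¹ ∈ pairCent a b := mem_pairCent.2 ⟨hc'a.2.2.symm, hc'b.2.2.symm⟩
  obtain ⟨r, hr, hru, hrW, hcr⟩ := P.vector ⟨c, hcK⟩ hca hcb.2.1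
  obtain ⟨r', hr', hru', hrW', hcr'⟩ := P.vector ⟨g * c * g⁻¹, hc'K⟩ hc'a hc'b.2.1
  obtain ⟨z, hz, hze⟩ := hcon ⟨c, hcK⟩
  have hsame : P.proj ⟨g * c * g⁻¹, hc'K⟩ = P.proj ⟨c, hcK⟩ := by
    have e : (⟨g * c * g⁻¹, hc'K⟩ : pairCent a b) = z * ⟨c, hcK⟩ := Subtype.ext (by
      rw [Subgroup.coe_mul, hze, inv_mul_cancel_right])
    rw [e, map_mul, MonoidHom.mem_ker.1 hz, one_mul]
  have heq : sub (mat (tv hF r hr)) = sub (mat (tv hF r' hr')) := by
    rw [← hcr, ← hcr', ← mat_psi hF, ← mat_psi hF]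
    exact congrArg mat hsame.symm
  obtain ⟨x, c₀, hc₀, hx⟩ := exists_move_fibre hF hr hr' hru hru' hrW heq
  obtain ⟨e, he⟩ := P.surj (x : Stab F)
  have heE : e ∈ P.twoKer := by rw [P.mem_twoKer, he]; exact x.2
  have hmove : e * ⟨c, hcK⟩ * e⁻¹ = ⟨g * c * g⁻¹, hc'K⟩ := by
    refine P.inj _ _ ?_ hc'a (Subtype.ext ?_)
    · have h1 := CfsgLib.InvChar.FischerHexad.perp_conj hD (e : G) hca
      rwa [MulAut.conj_apply, MulAut.conj_apply, conj_eq_of_commute (mem_pairCent.1 e.2).1] at h1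
    · rw [map_mul, map_mul, map_inv, he, Subgroup.coe_mul, Subgroup.coe_mul, InvMemClass.coe_inv, hcr, hcr',
        conj_tv hF _ hr]
      exact act_ext fun y => by
        rw [act_tv, act_tv, hx, (conj hF).smul_right, smul_smul,
          show (conj hF).σ c₀ * Cfsg.hermForm 6 F 2 y r' * c₀ = (c₀ * (conj hF).σ c₀) * Cfsg.hermForm 6 F 2 y r' by ring,
          norm_eq_one hF hc₀, one_mul]
  -- an exchanging element fixing `c`, still trivial modulo the 2-subgroup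
  obtain ⟨g₁, hg₁⟩ : ∃ g₁ : G, g₁ = (e : G)⁻¹ * g := ⟨_, rfl⟩
  have hea := mem_pairCent.1 e.2
  have h1a : g₁ * a * g₁⁻¹ = b := by
    rw [hg₁, show (e : G)⁻¹ * g * a * ((e : G)⁻¹ * g)⁻¹ = (e : G)⁻¹ * (g * a * g⁻¹) * e by group, hga,
      mul_assoc, ← hea.2.eq, inv_mul_cancel_left]
  have h1b : g₁ * b * g₁⁻¹ = a := by
    rw [hg₁, show (e : G)⁻¹ * g * b * ((e : G)⁻¹ * g)⁻¹ = (e : G)⁻¹ * (g * b * g⁻¹) * e by group, hgb,
      mul_assoc, ← hea.1.eq, inv_mul_cancel_left]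
  have h1c : g₁ * c * g₁⁻¹ = c := by
    have h2 : (e : G) * c * (e : G)⁻¹ = g * c * g⁻¹ := congrArg Subtype.val hmove
    rw [hg₁, show (e : G)⁻¹ * g * c * ((e : G)⁻¹ * g)⁻¹ = (e : G)⁻¹ * (g * c * g⁻¹) * e by group, ← h2]
    group
  have hcon₁ : ∀ k : pairCent a b, ∃ z ∈ P.twoKer, (z : G) = g₁ * (k : G) * g₁⁻¹ * (k : G)⁻¹ := by
    intro k
    obtain ⟨z, hz, hze⟩ := hcon k
    refine ⟨e⁻¹ * z * (k * e * k⁻¹), mul_mem (mul_mem (inv_mem heE) hz) ((inferInstance : P.twoKer.Normal).conj_mem e heE k), ?_⟩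
    simp only [Subgroup.coe_mul, InvMemClass.coe_inv, hze, hg₁]
    group
  -- transport to the standard triple
  have hbK := (mem_D_pairCent hD hprim ht ha hb).2
  obtain ⟨q, hq, hqe⟩ := P.member u₁ (by
      rw [herm_six]; simp [u₁, Cfsg.hermForm, Fin.sum_univ_four, e4, add_self hF])
    (by rw [herm_u₀_right hF]; simp [u₁]) (fun h => by simpa [u₁] using congrFun h 2)
  have hqb : (q : G) ≠ b := by
    intro k
    have hh : q = (⟨b, hbK⟩ : pairCent a b) := Subtype.ext k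
    have h1 := congrArg (fun s : Cfsg.SU 6 F 2 => mat s (e4 0) (e4 0))
      (hqe.symm.trans ((congrArg (fun y => (P.φ y : Cfsg.SU 6 F 2)) hh).trans (P.map_b _)))
    simp [t₀, mat_tv, u₀, u₁, e4] at h1
  have hqbperp : (q : G) ∈ perp D b := ⟨hq.1, hqb, (mem_pairCent.1 q.2).2.symm⟩
  obtain ⟨g₀, e1, e2, e3⟩ := exists_triple_move hD hprim ht (a := b) (b := (q : G)) (c := a) hb.1 hqbperp
    ⟨perp_symm hD hprim ht ha hb, perp_symm hD hprim ht ha hq⟩ ha hb ⟨hca, hcb⟩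
  obtain ⟨g', hg'⟩ : ∃ g' : G, g' = g₀⁻¹ * g₁ * g₀ := ⟨_, rfl⟩
  have hback : ∀ {p p' u v : G}, g₀ * p * g₀⁻¹ = u → g₀ * p' * g₀⁻¹ = v → g₁ * u * g₁⁻¹ = v →
      g' * p * g'⁻¹ = p' := fun {p p' u v} hp hp' huv => by
    rw [hg', show g₀⁻¹ * g₁ * g₀ * p * (g₀⁻¹ * g₁ * g₀)⁻¹ = g₀⁻¹ * (g₁ * (g₀ * p * g₀⁻¹) * g₁⁻¹) * g₀ by group,
      hp, huv, ← hp']
    group
  have hg'a : g' * a * g'⁻¹ = a := hback e3 e3 h1c
  have hg'b : g' * b * g'⁻¹ = (q : G) := hback e1 e2 h1a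
  have hg'q : g' * (q : G) * g'⁻¹ = b := hback e2 e1 h1b
  obtain ⟨s, hs⟩ := P.lift g' (commute_of_conj_eq hg'a)
  have hu1 : Cfsg.hermForm 6 F 2 (u₁ (F := F)) u₁ = 0 := by
    rw [herm_six]; simp [u₁, Cfsg.hermForm, Fin.sum_univ_four, e4, add_self hF]
  have hu1ne : (u₁ (F := F)) ≠ 0 := fun h => by simpa [u₁] using congrFun h 2
  obtain ⟨lam, hlam, hs0⟩ :=
    P.lift_vector hs (x := ⟨b, hbK⟩) (y := q) (herm_u₀ hF) hu1 u₀_ne (P.map_b hbK) hqe hg'b
  obtain ⟨mu, hmu, hs1⟩ :=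
    P.lift_vector hs (x := q) (y := ⟨b, hbK⟩) hu1 (herm_u₀ hF) hu1ne hqe (P.map_b hbK) hg'q
  -- the torus element
  obtain ⟨θ, hθ0, hθ1⟩ := exists_ne_one hF
  obtain ⟨A, hA⟩ := exists_diag hF ![θ, θ, θ ^ 2, θ ^ 2] (fun i => by fin_cases i <;> simp [hθ0]) (by
    rw [Fin.prod_univ_four]; simp
    linear_combination (θ ^ 3 + 1) * UnitaryPoint.pow_three hF hθ0)
  let T : Stab F := ⟨blk A, blk_mem hF A⟩
  have hTu₁ : act (T : Cfsg.SU 6 F 2) u₁ = θ • (u₁ : Fin 6 → F) := by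
    obtain ⟨x0, x1, xi⟩ := bd_mulVec (mat A) (u₁ (F := F))
    funext i
    show (bd (mat A) *ᵥ u₁) i = θ * u₁ i
    rcases cases_six i with rfl | rfl | ⟨k, rfl⟩
    · rw [x0]; simp [u₁]
    · rw [x1]; simp [u₁]
    · rw [xi, hA]
      fin_cases k <;> simp [u₁, e4]
  obtain ⟨k', hk'⟩ := P.surj T
  have hk'q : k' * q * k'⁻¹ = q := by
    refine P.inj _ _ ?_ hq (Subtype.ext ?_)
    · have h1 := CfsgLib.InvChar.FischerHexad.perp_conj hD (k' : G) hq
      rwa [MulAut.conj_apply, MulAut.conj_apply, conj_eq_of_commute (mem_pairCent.1 k'.2).1] at h1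
    · rw [map_mul, map_mul, map_inv, hk', Subgroup.coe_mul, Subgroup.coe_mul, InvMemClass.coe_inv, hqe,
        conj_tv hF _ hu1]
      exact act_ext fun y => by
        rw [act_tv, act_tv, hTu₁, (conj hF).smul_right, smul_smul,
          show (conj hF).σ θ * Cfsg.hermForm 6 F 2 y u₁ * θ = (θ * (conj hF).σ θ) * Cfsg.hermForm 6 F 2 y u₁ by ring,
          norm_eq_one hF hθ0, one_mul]
  have hkK : g₀ * (k' : G) * g₀⁻¹ ∈ pairCent a b := by
    refine mem_pairCent.2 ⟨?_, ?_⟩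
    · have := (conj_commute_iff g₀ _ _).2 (mem_pairCent.1 k'.2).2
      rwa [e1] at this
    · have := (conj_commute_iff g₀ _ _).2 (commute_of_conj_eq (congrArg Subtype.val hk'q))
      rwa [e2] at this
  obtain ⟨w, hw, hwe⟩ := hcon₁ ⟨_, hkK⟩
  obtain ⟨n, hn⟩ := hE ⟨w, hw⟩
  have hwn : (g' * (k' : G) * g'⁻¹ * (k' : G)⁻¹) ^ (2 ^ n) = 1 := by
    have h1 : ((w : G)) ^ (2 ^ n) = 1 := by
      have := congrArg (fun y : P.twoKer => ((y : pairCent a b) : G)) hn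
      simpa using this
    have h2 : g' * (k' : G) * g'⁻¹ * (k' : G)⁻¹ = g₀⁻¹ * (w : G) * g₀⁻¹⁻¹ := by
      rw [hwe, hg']; group
    rw [h2, conj_pow, h1, mul_one, mul_inv_cancel]
  -- the same computation in the unitary group
  have hyK : g' * (k' : G) * g'⁻¹ ∈ pairCent a b := by
    refine mem_pairCent.2 ⟨?_, ?_⟩
    · have := (conj_commute_iff g' _ _).2 (mem_pairCent.1 k'.2).1
      rwa [hg'a] at this
    · have := (conj_commute_iff g' _ _).2 (commute_of_conj_eq (congrArg Subtype.val hk'q))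
      rwa [hg'q] at this
  exact P.no_relation hlam hmu hu1ne hs0 hs1 hTu₁ hθ0 hθ1 hk' (y := ⟨_, hyK⟩) rfl hs (n := n)
    (Subtype.ext (by rw [SubmonoidClass.coe_pow, Subgroup.coe_mul, InvMemClass.coe_inv]; exact hwn))

end CfsgLib.Fischer.TypeTwentyTwo
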