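import Cfsg.Agent.Lib.Fischer.TypeTwentyTwoPairKernel
import Cfsg.Agent.S0815

/-!
Groups of type M(22): the centralizer of a product of two commuting members modulo its largest
normal 2-subgroup is the automorphism group of `PSU₄(2)`.
-/

set_option autoImplicit false
set_option linter.unusedSectionVars false

namespace CfsgLib.Fischer.TypeTwentyTwo

open CfsgLib.Fischer CfsgLib.InvChar.FischerProducts CfsgLib.InvChar.FischerHexad
open CfsgLib.InvChar.UnitaryTVTwo CfsgLib.Fischer.UnitaryPoint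

variable {G : Type*} [Group G] [Finite G] {D : Set G} {a b : G}

/-- The largest normal 2-subgroup of the centralizer of a pair, in the whole group. -/
noncomputable def pairTwo (a b : G) : Subgroup G := (Cfsg.pCore 2 (pairCent a b)).map (pairCent a b).subtype

theorem closure_pair_le {a b : G} {S : Subgroup G} (ha : a ∈ S) (hb : b ∈ S) :
    Subgroup.closure ({a, b} : Set G) ≤ S :=
  (Subgroup.closure_le _).2 fun x hx => by rcases hx with rfl | rfl <;> assumption

variable (hD : Cfsg.IsThreeTranspositionGroup D) (hprim : Cfsg.IsPrimitiveUnderConj D)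
  (ht : Cfsg.IsOfTypeM22 G D)

include hD hprim ht

theorem pair_cases (ha : a ∈ D) (hb : b ∈ perp D a) {k : G}
    (h : k = 1 ∨ k = a ∨ k = b ∨ k = b * a) : k ∈ Subgroup.closure ({a, b} : Set G) := by
  have h1 : a ∈ Subgroup.closure ({a, b} : Set G) := Subgroup.subset_closure (Or.inl rfl)
  have h2 : b ∈ Subgroup.closure ({a, b} : Set G) := Subgroup.subset_closure (Or.inr rfl)
  rcases h with rfl | rfl | rfl | rfl
  exacts [one_mem _, h1, h2, mul_mem h2 h1]

theorem center_pairCent (ha : a ∈ D) (hb : b ∈ perp D a) :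
    (Subgroup.center (pairCent a b)).map (pairCent a b).subtype = Subgroup.closure ({a, b} : Set G) := by
  obtain ⟨F, _, _, ⟨P⟩⟩ := exists_picture hD hprim ht ha hb
  obtain ⟨haK, hbK⟩ := mem_D_pairCent hD hprim ht ha hb
  refine le_antisymm ?_ (closure_pair_le ⟨⟨a, haK⟩, ?_, rfl⟩ ⟨⟨b, hbK⟩, ?_, rfl⟩)
  · rintro _ ⟨z, hz, rfl⟩
    have hz' : P.φ z ∈ Subgroup.center (Stab F) := by
      refine Subgroup.mem_center_iff.2 fun s => ?_
      obtain ⟨k, rfl⟩ := P.surj s
      rw [← map_mul, ← map_mul, Subgroup.mem_center_iff.1 hz k]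
    exact pair_cases hD hprim ht ha hb (P.mem_pair_of_phi hbK (center_stab P.card hz'))
  · exact Subgroup.mem_center_iff.2 fun k => Subtype.ext (mem_pairCent.1 k.2).1.eq
  · exact Subgroup.mem_center_iff.2 fun k => Subtype.ext (mem_pairCent.1 k.2).2.eq

theorem pairTwo_eq (ha : a ∈ D) (hb : b ∈ perp D a) {F : Type} [Field F] [Fintype F] (P : Picture D a b F) :
    pairTwo a b = P.twoKer.map (pairCent a b).subtype := by
  rw [pairTwo, P.pCore_eq (ne_one hD.1 ha) (mem_D_pairCent hD hprim ht ha hb).1]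

theorem pairTwo_le_pairCent : pairTwo a b ≤ pairCent a b := Subgroup.map_subtype_le _

theorem closure_le_pairTwo (ha : a ∈ D) (hb : b ∈ perp D a) :
    Subgroup.closure ({a, b} : Set G) ≤ pairTwo a b := by
  obtain ⟨F, _, _, ⟨P⟩⟩ := exists_picture hD hprim ht ha hb
  obtain ⟨haK, hbK⟩ := mem_D_pairCent hD hprim ht ha hb
  rw [pairTwo_eq hD hprim ht ha hb P]
  refine closure_pair_le ⟨⟨a, haK⟩, ?_, rfl⟩ ⟨⟨b, hbK⟩, ?_, rfl⟩
  · show _ ∈ P.twoKer
    rw [P.mem_twoKer, P.map_a]; exact one_mem _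
  · show _ ∈ P.twoKer
    rw [P.mem_twoKer, show P.φ ⟨b, hbK⟩ = ((tRad P.card : rad P.card) : Stab F) from Subtype.ext (P.map_b hbK)]
    exact (tRad P.card).2

theorem natCard_pairTwo (ha : a ∈ D) (hb : b ∈ perp D a) : Nat.card (pairTwo a b) = 2 ^ 10 := by
  obtain ⟨F, _, _, ⟨P⟩⟩ := exists_picture hD hprim ht ha hb
  rw [pairTwo_eq hD hprim ht ha hb P, Subgroup.card_map_of_injective (pairCent a b).subtype_injective,
    P.natCard_twoKer (ne_one hD.1 ha) (mem_D_pairCent hD hprim ht ha hb).1]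
  norm_num

theorem pairTwo_comm (ha : a ∈ D) (hb : b ∈ perp D a) {x y : G} (hx : x ∈ pairTwo a b) (hy : y ∈ pairTwo a b) :
    x * y * x⁻¹ * y⁻¹ ∈ Subgroup.closure ({a, b} : Set G) ∧ x ^ 2 ∈ Subgroup.closure ({a, b} : Set G) := by
  obtain ⟨F, _, _, ⟨P⟩⟩ := exists_picture hD hprim ht ha hb
  obtain ⟨haK, hbK⟩ := mem_D_pairCent hD hprim ht ha hb
  rw [pairTwo_eq hD hprim ht ha hb P] at hx hy
  obtain ⟨x, hx, rfl⟩ := hx
  obtain ⟨y, hy, rfl⟩ := hy
  let x' : rad P.card := ⟨P.φ x, hx⟩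
  let y' : rad P.card := ⟨P.φ y, hy⟩
  have key : ∀ (k : pairCent a b) (k' : rad P.card), P.φ k = k' → k' = 1 ∨ k' = tRad P.card →
      (k : G) ∈ Subgroup.closure ({a, b} : Set G) := by
    rintro k k' hk (rfl | rfl) <;> refine pair_cases hD hprim ht ha hb (P.mem_pair_of_phi hbK ?_)
    · exact Or.inl (by rw [hk]; rfl)
    · exact Or.inr (by rw [hk]; rfl)
  constructor
  · exact key (x * y * x⁻¹ * y⁻¹) (x' * y' * x'⁻¹ * y'⁻¹) (by simp [x', y']) (comm_mem P.card x' y')
  · exact key (x ^ 2) (x' ^ 2) (by simp [x']) (by rw [pow_two]; exact sq_mem P.card x')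

theorem pairTwo_normal (ha : a ∈ D) (hb : b ∈ perp D a) {c : G}
    (hc : c ∈ Subgroup.centralizer ({a * b} : Set G)) {x : G} (hx : x ∈ pairTwo a b) :
    c * x * c⁻¹ ∈ pairTwo a b := by
  have hK : ∀ k ∈ pairCent a b, ∀ d ∈ Subgroup.centralizer ({a * b} : Set G), d * k * d⁻¹ ∈ pairCent a b := by
    intro k hk d hd
    obtain ⟨hka, hkb⟩ := mem_pairCent.1 hk
    have h1 := (conj_commute_iff d _ _).2 hka
    have h2 := (conj_commute_iff d _ _).2 hkb
    rcases mem_centralizer_cases hD hprim ht ha hb hd with h | ⟨e1, e2⟩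
    · rw [conj_eq_of_commute (mem_pairCent.1 h).1] at h1
      rw [conj_eq_of_commute (mem_pairCent.1 h).2] at h2
      exact mem_pairCent.2 ⟨h1, h2⟩
    · rw [e1] at h1
      rw [e2] at h2
      exact mem_pairCent.2 ⟨h2, h1⟩
  have hc' := inv_mem hc
  let β : pairCent a b ≃* pairCent a b :=
    { toFun := fun k => ⟨c * k * c⁻¹, hK k k.2 c hc⟩
      invFun := fun k => ⟨c⁻¹ * k * c⁻¹⁻¹, hK k k.2 c⁻¹ hc'⟩
      left_inv := fun k => Subtype.ext (by group)
      right_inv := fun k => Subtype.ext (by group)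
      map_mul' := fun k l => Subtype.ext (by simp [mul_assoc]) }
  obtain ⟨k, hk, rfl⟩ := hx
  refine ⟨β k, ?_, rfl⟩
  have := Subgroup.mem_map_of_mem β.toMonoidHom hk
  rwa [CfsgLib.Cores.map_pCore_equiv β] at this

theorem natCard_centralizer_pair (ha : a ∈ D) (hb : b ∈ perp D a) :
    Nat.card (Subgroup.centralizer ({a * b} : Set G)) = 2 * (1024 * 25920) := by
  obtain ⟨F, _, _, ⟨P⟩⟩ := exists_picture hD hprim ht ha hb
  have h := ((pairCent a b).subgroupOf (Subgroup.centralizer ({a * b} : Set G))).card_mul_index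
  rw [index_pairCent hD hprim ht ha hb,
    Nat.card_congr (Subgroup.subgroupOfEquivOfLe (pairCent_le hD hprim ht)).toEquiv,
    P.natCard_pairCent (ne_one hD.1 ha) (mem_D_pairCent hD hprim ht ha hb).1] at h
  omega

theorem subgroupOf_normal (ha : a ∈ D) (hb : b ∈ perp D a) :
    ((pairTwo a b).subgroupOf (Subgroup.centralizer ({a * b} : Set G))).Normal :=
  ⟨fun _ hx c => pairTwo_normal hD hprim ht ha hb c.2 hx⟩

set_option maxHeartbeats 800000 in
theorem quotient_aut (ha : a ∈ D) (hb : b ∈ perp D a)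
    [((pairTwo a b).subgroupOf (Subgroup.centralizer ({a * b} : Set G))).Normal] :
    ∃ (F : Type) (_ : Field F) (_ : Fintype F), Fintype.card F = 4 ∧
      Nonempty (↥(Subgroup.centralizer ({a * b} : Set G)) ⧸
        (pairTwo a b).subgroupOf (Subgroup.centralizer ({a * b} : Set G)) ≃* MulAut (Cfsg.PSU 4 F 2)) := by
  obtain ⟨F, iF, iF', ⟨P⟩⟩ := exists_picture hD hprim ht ha hb
  refine ⟨F, iF, iF', P.card, ?_⟩
  obtain ⟨haK, hbK⟩ := mem_D_pairCent hD hprim ht ha hb
  have hEeq := pairTwo_eq hD hprim ht ha hb P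
  set C := Subgroup.centralizer ({a * b} : Set G) with hC
  set E' := (pairTwo a b).subgroupOf C with hE'
  have hKC : pairCent a b ≤ C := pairCent_le hD hprim ht
  let f : pairCent a b →* C ⧸ E' := (QuotientGroup.mk' E').comp (Subgroup.inclusion hKC)
  have hmem : ∀ k : pairCent a b, (k : G) ∈ pairTwo a b ↔ k ∈ P.twoKer := fun k => by
    rw [hEeq]
    exact ⟨fun ⟨l, hl, e⟩ => (Subtype.ext e : l = k) ▸ hl, fun h => ⟨k, h, rfl⟩⟩
  have hfker : f.ker = P.proj.ker := by
    ext k
    rw [MonoidHom.mem_ker]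
    show (QuotientGroup.mk (Subgroup.inclusion hKC k) : C ⧸ E') = 1 ↔ _
    rw [QuotientGroup.eq_one_iff]
    exact hmem k
  haveI hKn : ((pairCent a b).subgroupOf C).Normal :=
    Subgroup.normal_of_index_eq_two (index_pairCent hD hprim ht ha hb)
  haveI hNn : f.range.Normal := by
    have : f.range = ((pairCent a b).subgroupOf C).map (QuotientGroup.mk' E') := by
      ext q
      constructor
      · rintro ⟨k, rfl⟩; exact ⟨Subgroup.inclusion hKC k, k.2, rfl⟩
      · rintro ⟨c, hc, rfl⟩; exact ⟨⟨c, hc⟩, rfl⟩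
    rw [this]
    exact hKn.map _ (QuotientGroup.mk'_surjective _)
  let ε : f.range ≃* Cfsg.PSU 4 F 2 :=
    ((QuotientGroup.quotientKerEquivRange f).symm.trans ((QuotientGroup.quotientMulEquivOfEq hfker).trans
      (QuotientGroup.quotientKerEquivOfSurjective P.proj P.proj_surjective))).trans (psuEquiv P.card).symm
  let Θ : C ⧸ E' →* MulAut f.range := MulAut.conjNormal
  have hinj : Function.Injective Θ := by
    refine (injective_iff_map_eq_one Θ).2 fun q hq => ?_
    obtain ⟨g, rfl⟩ := QuotientGroup.mk'_surjective E' q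
    have hcomm : ∀ k : pairCent a b,
        QuotientGroup.mk' E' g * f k * (QuotientGroup.mk' E' g)⁻¹ = f k := fun k => by
      have := congrArg (fun φ : MulAut f.range => ((φ ⟨f k, ⟨k, rfl⟩⟩ : f.range) : C ⧸ E')) hq
      simpa [Θ] using this
    have hE : ∀ k : pairCent a b, (g : G) * k * (g : G)⁻¹ * (k : G)⁻¹ ∈ pairTwo a b := fun k => by
      have h1 : QuotientGroup.mk' E' (g * Subgroup.inclusion hKC k * g⁻¹ * (Subgroup.inclusion hKC k)⁻¹) = 1 := by
        rw [map_mul, map_mul, map_mul, map_inv, map_inv]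
        exact mul_inv_eq_one.2 (hcomm k)
      have h3 : g * Subgroup.inclusion hKC k * g⁻¹ * (Subgroup.inclusion hKC k)⁻¹ ∈ E' :=
        (QuotientGroup.eq_one_iff _).1 h1
      exact h3
    rcases mem_centralizer_cases hD hprim ht ha hb g.2 with hg | ⟨h1, h2⟩
    · refine (QuotientGroup.eq_one_iff _).2 ?_
      show (g : G) ∈ pairTwo a b
      have hc : P.proj ⟨g, hg⟩ ∈ Subgroup.center (Cfsg.SU 4 F 2) := by
        refine Subgroup.mem_center_iff.2 fun s => ?_
        obtain ⟨k, rfl⟩ := P.proj_surjective s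
        have h3 : P.proj (⟨g, hg⟩ * k * ⟨g, hg⟩⁻¹ * k⁻¹) = 1 :=
          (hmem _).1 (by simpa using hE k)
        rw [map_mul, map_mul, map_mul, map_inv, map_inv, mul_inv_eq_one, mul_inv_eq_iff_eq_mul] at h3
        exact h3.symm
      rw [center_su4 P.card, Subgroup.mem_bot] at hc
      exact (hmem ⟨g, hg⟩).2 hc
    · exfalso
      refine exists_not_mem hD hprim ht ha hb P h1 h2 fun k => ?_
      obtain ⟨z, hz, hze⟩ : (g : G) * k * (g : G)⁻¹ * (k : G)⁻¹ ∈ P.twoKer.map (pairCent a b).subtype :=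
        hEeq ▸ hE k
      exact ⟨z, hz, hze⟩
  have hEC : pairTwo a b ≤ C := (pairTwo_le_pairCent hD hprim ht).trans hKC
  have hcard : Nat.card (MulAut f.range) ≤ Nat.card (C ⧸ E') := by
    have h1 : Nat.card (MulAut f.range) = 51840 := by
      rw [Nat.card_congr (MulAut.congr ε).toEquiv]
      haveI : Fact (Nat.Prime 2) := ⟨Nat.prime_two⟩
      have h := Cfsg.Agent.S0815.result (F := F) 2 1 le_rfl (q := 2) (by norm_num) (by rw [P.card]; norm_num) 4
        (by norm_num) (by norm_num)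
      rw [natCard_psu4 P.card] at h
      rw [h]
      norm_num
    have h2 : Nat.card E' * Nat.card (C ⧸ E') = Nat.card C := E'.card_mul_index
    have h3 : Nat.card E' = 2 ^ 10 := (Nat.card_congr (Subgroup.subgroupOfEquivOfLe hEC).toEquiv).trans
      (natCard_pairTwo hD hprim ht ha hb)
    rw [h3, show Nat.card C = _ from natCard_centralizer_pair hD hprim ht ha hb] at h2
    rw [h1]
    omega
  exact ⟨(MulEquiv.ofBijective Θ (hinj.bijective_of_nat_card_le hcard)).trans (MulAut.congr ε)⟩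

end CfsgLib.Fischer.TypeTwentyTwo
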