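import Cfsg.Agent.Lib.Fischer.TypeTwentyTwoPairQuotient
import Cfsg.Agent.Lib.Fischer.UnitaryPointPairing
import Cfsg.Agent.Lib.Fischer.OrthSixMinusAut
import Cfsg.Agent.Lib.StronglyPEmbedded.Helpers

/-!
Groups of type M(22): the generalised Fitting subgroup of the centralizer of a product of two
commuting members is the direct product of a group of order two and an extraspecial group of order
`2⁹`, with quotient `O⁻₆(2)`.
-/

set_option autoImplicit false
set_option linter.unusedSectionVars false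

namespace CfsgLib.Fischer.TypeTwentyTwo

open CfsgLib.Fischer CfsgLib.InvChar.FischerProducts CfsgLib.InvChar.FischerHexad
open CfsgLib.InvChar.UnitaryTVTwo CfsgLib.Fischer.UnitaryPoint

variable {G : Type*} [Group G] [Finite G] {D : Set G} {a b : G} {F : Type} [Field F] [Fintype F]

theorem pair_conj_cases {g : G} (hga : g * a * g⁻¹ = b) (hgb : g * b * g⁻¹ = a) (hab : Commute a b)
    {x : G} (h : x = 1 ∨ x = a ∨ x = b ∨ x = b * a) :
    g * x * g⁻¹ = 1 ∨ g * x * g⁻¹ = a ∨ g * x * g⁻¹ = b ∨ g * x * g⁻¹ = b * a := by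
  rcases h with h | h | h | h <;> rw [h]
  · left; group
  · exact Or.inr (Or.inr (Or.inl hga))
  · exact Or.inr (Or.inl hgb)
  · right; right; right
    rw [show g * (b * a) * g⁻¹ = (g * b * g⁻¹) * (g * a * g⁻¹) by group, hga, hgb]
    exact hab.eq

namespace Picture

variable (P : Picture D a b F)

/-- The map to the extraspecial kernel. -/
noncomputable def radMap : P.twoKer →* rad P.card :=
  (P.φ.comp P.twoKer.subtype).codRestrict (rad P.card) fun k => k.2

theorem radMap_surjective : Function.Surjective P.radMap := fun r => by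
  obtain ⟨k, hk⟩ := P.surj (r : Stab F)
  exact ⟨⟨k, P.mem_twoKer.2 (hk ▸ r.2)⟩, Subtype.ext hk⟩

theorem coe_radMap (k : P.twoKer) : ((P.radMap k : rad P.card) : Stab F) = P.φ (k : pairCent a b) := rfl

theorem radMap_eq_one (k : P.twoKer) :
    P.radMap k = 1 ↔ ((k : pairCent a b) : G) = 1 ∨ ((k : pairCent a b) : G) = a := by
  rw [← P.ker (k : pairCent a b)]
  exact ⟨fun h => congrArg Subtype.val h, fun h => Subtype.ext h⟩

/-- The column map. -/
noncomputable def lam : P.twoKer →* Multiplicative (Fin 4 → F) := (colHom P.card).comp P.radMap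

theorem lam_surjective : Function.Surjective P.lam := (colHom_surjective P.card).comp P.radMap_surjective

/-- The four elements with trivial column. -/
noncomputable def four : Subgroup P.twoKer := P.lam.ker

theorem four_cases (hb : b ∈ pairCent a b) {k : P.twoKer} (h : k ∈ P.four) :
    ((k : pairCent a b) : G) = 1 ∨ ((k : pairCent a b) : G) = a ∨ ((k : pairCent a b) : G) = b ∨
      ((k : pairCent a b) : G) = b * a := by
  refine P.mem_pair_of_phi hb ?_
  rcases (colHom_ker P.card _).1 h with h1 | h1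
  · exact Or.inl (congrArg (fun r : rad P.card => ((r : Stab F) : Cfsg.SU 6 F 2)) h1)
  · exact Or.inr (congrArg (fun r : rad P.card => ((r : Stab F) : Cfsg.SU 6 F 2)) h1)

theorem radMap_four {k : P.twoKer} (h : k ∈ P.four) : P.radMap k = 1 ∨ P.radMap k = tRad P.card :=
  (colHom_ker P.card _).1 h

theorem mem_four_iff (hb : b ∈ pairCent a b) (k : P.twoKer) :
    k ∈ P.four ↔ ((k : pairCent a b) : G) = 1 ∨ ((k : pairCent a b) : G) = a ∨ ((k : pairCent a b) : G) = b ∨
      ((k : pairCent a b) : G) = b * a := by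
  refine ⟨P.four_cases hb, fun h => (colHom_ker P.card _).2 ?_⟩
  have hB : ∀ h' : b ∈ pairCent a b, ((P.φ ⟨b, h'⟩ : Stab F) : Cfsg.SU 6 F 2) = t₀ P.card := P.map_b
  rcases h with h | h | h | h
  · exact Or.inl ((P.radMap_eq_one k).2 (Or.inl h))
  · exact Or.inl ((P.radMap_eq_one k).2 (Or.inr h))
  · refine Or.inr (Subtype.ext (Subtype.ext ?_))
    rw [P.coe_radMap, show (k : pairCent a b) = ⟨b, hb⟩ from Subtype.ext h, hB hb]
    rfl
  · have haK : a ∈ pairCent a b := by
      have h1 := mul_mem (inv_mem hb) (k : pairCent a b).2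
      rwa [h, inv_mul_cancel_left] at h1
    refine Or.inr (Subtype.ext (Subtype.ext ?_))
    rw [P.coe_radMap, show (k : pairCent a b) = ⟨b, hb⟩ * ⟨a, haK⟩ from Subtype.ext h, map_mul, P.map_a, mul_one, hB hb]
    rfl

theorem conj_four (hb : b ∈ pairCent a b) {v : P.twoKer} (hv : v ∈ P.four) (k : pairCent a b) :
    k * (v : pairCent a b) * k⁻¹ = (v : pairCent a b) := by
  obtain ⟨hka, hkb⟩ := mem_pairCent.1 k.2
  refine Subtype.ext (conj_eq_of_commute ?_)
  rcases P.four_cases hb hv with h | h | h | h <;> rw [h]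
  · exact Commute.one_right _
  · exact hka
  · exact hkb
  · exact hkb.mul_right hka

theorem twoKer_conj_mem (k : pairCent a b) (v : P.twoKer) :
    k * (v : pairCent a b) * k⁻¹ ∈ P.twoKer := (MonoidHom.normal_ker _).conj_mem _ v.2 k

theorem col_radMap_conj (k : pairCent a b) (v : P.twoKer) :
    col ((P.radMap ⟨_, P.twoKer_conj_mem k v⟩ : rad P.card) : Stab F) =
      Matrix.mulVec (mat (P.proj k)) (col ((P.radMap v : rad P.card) : Stab F)) := by
  rw [P.coe_radMap, P.coe_radMap, map_mul, map_mul, map_inv,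
    col_conj P.card _ (x := P.φ (v : pairCent a b)) v.2]
  rfl

/-- The conjugation by an element exchanging the pair. -/
structure Swap (g : G) (cg : P.twoKer →* P.twoKer) : Prop where
  ga : g * a * g⁻¹ = b
  gb : g * b * g⁻¹ = a
  comm : Commute a b
  coe : ∀ v, (((cg v : P.twoKer) : pairCent a b) : G) = g * ((v : pairCent a b) : G) * g⁻¹
  norm : ∀ k : pairCent a b, g * (k : G) * g⁻¹ ∈ pairCent a b
  memb : b ∈ pairCent a b

variable {P} {g : G} {cg : P.twoKer →* P.twoKer}

theorem Swap.four (hs : P.Swap g cg) {v : P.twoKer} (hv : v ∈ P.four) : cg v ∈ P.four := by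
  refine (P.mem_four_iff hs.memb _).2 ?_
  rw [hs.coe]
  exact pair_conj_cases hs.ga hs.gb hs.comm (P.four_cases hs.memb hv)

/-- The sum of both bits. -/
noncomputable def nu (cg : P.twoKer →* P.twoKer) (v : P.twoKer) : ZMod 2 :=
  bit (P.radMap v) + bit (P.radMap (cg v))

theorem Swap.nu_mul (hs : P.Swap g cg) {v w : P.twoKer} (hv : v ∈ P.four) (hw : w ∈ P.four) :
    nu cg (v * w) = nu cg v + nu cg w := by
  simp only [nu, map_mul, bit_mul P.card (P.radMap_four hv) (P.radMap_four hw),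
    bit_mul P.card (P.radMap_four (hs.four hv)) (P.radMap_four (hs.four hw))]
  ring

theorem Swap.injective (hs : P.Swap g cg) : Function.Injective cg := fun x y h => by
  refine Subtype.ext (Subtype.ext ?_)
  have := congrArg (fun z : P.twoKer => ((z : pairCent a b) : G)) h
  simp only [hs.coe] at this
  exact mul_left_cancel (mul_right_cancel this)

theorem Swap.bc_conj (hs : P.Swap g cg) (v w : P.twoKer) :
    bc P.card (P.radMap (cg v)) (P.radMap (cg w)) = bc P.card (P.radMap v) (P.radMap w) := by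
  have hLker : P.lam.ker ≤ (P.lam.comp cg).ker := fun u hu => MonoidHom.mem_ker.2 (hs.four hu)
  obtain ⟨L, hL⟩ : ∃ L : Multiplicative (Fin 4 → F) →* Multiplicative (Fin 4 → F),
      ∀ u, L (P.lam u) = P.lam (cg u) :=
    ⟨P.lam.liftOfSurjective P.lam_surjective ⟨P.lam.comp cg, hLker⟩,
      fun u => P.lam.liftOfRightInverse_comp_apply _ _ _ u⟩
  have hlamcol : ∀ u : P.twoKer, P.lam u = Multiplicative.ofAdd (col ((P.radMap u : rad P.card) : Stab F)) :=
    fun _ => rfl
  obtain ⟨La, hLa⟩ : ∃ La : (Fin 4 → F) →+ (Fin 4 → F), ∀ u : P.twoKer,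
      La (col ((P.radMap u : rad P.card) : Stab F)) = col ((P.radMap (cg u) : rad P.card) : Stab F) := by
    refine ⟨AddMonoidHom.mk' (fun x => (L (Multiplicative.ofAdd x)).toAdd)
      fun x y => by rw [ofAdd_add, map_mul, toAdd_mul], fun u => ?_⟩
    rw [AddMonoidHom.mk'_apply, ← hlamcol, hL, hlamcol, toAdd_ofAdd]
  obtain ⟨B, hB₀⟩ : ∃ B : (Fin 4 → F) →+ (Fin 4 → F) →+ ZMod 2, ∀ x y, B x y = beta P.card (La x) (La y) := by
    refine ⟨AddMonoidHom.mk' (fun x => (beta P.card (La x)).comp La) fun x y => ?_, fun x y => by rw [AddMonoidHom.mk'_apply, AddMonoidHom.comp_apply]⟩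
    refine AddMonoidHom.ext fun z => ?_
    simp only [AddMonoidHom.comp_apply, AddMonoidHom.add_apply, map_add]
  have hB : ∀ x y : P.twoKer, B (col ((P.radMap x : rad P.card) : Stab F)) (col ((P.radMap y : rad P.card) : Stab F)) =
      bc P.card (P.radMap (cg x)) (P.radMap (cg y)) := fun x y => by
    rw [hB₀, hLa, hLa, beta_col]
  have hpre : ∀ x : Fin 4 → F, ∃ u : P.twoKer, col ((P.radMap u : rad P.card) : Stab F) = x := fun x => by
    obtain ⟨u, hu⟩ := P.lam_surjective (Multiplicative.ofAdd x)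
    exact ⟨u, congrArg Multiplicative.toAdd hu⟩
  have hpair : Pairing B := by
    refine ⟨fun x => by rw [hB₀]; exact (pairing_beta P.card).self _, fun A x y => ?_⟩
    obtain ⟨k, rfl⟩ := P.proj_surjective A
    obtain ⟨x, rfl⟩ := hpre x
    obtain ⟨y, rfl⟩ := hpre y
    rw [← P.col_radMap_conj k x, ← P.col_radMap_conj k y, hB, hB]
    have e : ∀ u : P.twoKer, cg ⟨_, P.twoKer_conj_mem k u⟩ =
        ⟨_, P.twoKer_conj_mem ⟨_, hs.norm k⟩ (cg u)⟩ := fun u => Subtype.ext (Subtype.ext (by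
      rw [hs.coe]
      simp only [Subgroup.coe_mul, InvMemClass.coe_inv, hs.coe]
      group))
    rw [e, e, ← beta_col, ← beta_col, P.col_radMap_conj, P.col_radMap_conj]
    exact (pairing_beta P.card).inv _ _ _
  have hne : B ≠ 0 := by
    obtain ⟨r, s, hrs⟩ := exists_noncomm P.card
    obtain ⟨x, rfl⟩ := P.radMap_surjective r
    obtain ⟨y, rfl⟩ := P.radMap_surjective s
    intro h0
    have hbij : Function.Bijective cg := Finite.injective_iff_bijective.1 hs.injective
    obtain ⟨x, rfl⟩ := hbij.2 x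
    obtain ⟨y, rfl⟩ := hbij.2 y
    have h1 : bc P.card (P.radMap (cg x)) (P.radMap (cg y)) = 0 := by rw [← hB, h0]; rfl
    classical
    rw [bc, bit] at h1
    split_ifs at h1 with h2
    · exact hrs (mul_inv_eq_iff_eq_mul.1 (mul_inv_eq_one.1 h2))
    · exact one_ne_zero h1
  rw [← hB, hpair.unique P.card (pairing_beta P.card) hne (beta_ne P.card), beta_col]

theorem Swap.comm_four (hs : P.Swap g cg) (v w : P.twoKer) :
    v * w * v⁻¹ * w⁻¹ ∈ P.four ∧ nu cg (v * w * v⁻¹ * w⁻¹) = 0 := by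
  refine ⟨?_, ?_⟩
  · show colHom P.card (P.radMap (v * w * v⁻¹ * w⁻¹)) = 1
    have e : P.radMap (v * w * v⁻¹ * w⁻¹) = P.radMap v * P.radMap w * (P.radMap v)⁻¹ * (P.radMap w)⁻¹ := by
      simp only [map_mul, map_inv]
    rw [e]
    exact MonoidHom.mem_ker.1 ((colHom_ker P.card _).2 (comm_mem P.card _ _))
  · simp only [nu, map_mul, map_inv]
    show bc P.card (P.radMap v) (P.radMap w) + bc P.card (P.radMap (cg v)) (P.radMap (cg w)) = 0
    rw [hs.bc_conj]
    exact CharTwo.add_self_eq_zero _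

theorem sq_four (v : P.twoKer) : v * v ∈ P.four := by
  show colHom P.card (P.radMap (v * v)) = 1
  rw [map_mul]
  exact MonoidHom.mem_ker.1 ((colHom_ker P.card _).2 (sq_mem P.card _))

theorem Swap.sq_mul (hs : P.Swap g cg) (v w : P.twoKer) :
    nu cg (v * w * (v * w)) = nu cg (v * v) + nu cg (w * w) := by
  obtain ⟨hc, hc0⟩ := hs.comm_four w v
  have e : v * w * (v * w) = (v * (w * v * w⁻¹ * v⁻¹) * v⁻¹) * ((v * v) * (w * w)) := by group
  have e1 : v * (w * v * w⁻¹ * v⁻¹) * v⁻¹ = w * v * w⁻¹ * v⁻¹ :=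
    Subtype.ext (P.conj_four hs.memb hc (v : pairCent a b))
  rw [e, e1, hs.nu_mul hc (mul_mem (sq_four v) (sq_four w)), hc0, zero_add,
    hs.nu_mul (sq_four v) (sq_four w)]

theorem Swap.sq_zero (hs : P.Swap g cg) (v : P.twoKer) : nu cg (v * v) = 0 := by
  let sqHom : P.twoKer →* Multiplicative (ZMod 2) :=
    MonoidHom.mk' (fun v => Multiplicative.ofAdd (nu cg (v * v))) fun v w => by rw [← ofAdd_add, hs.sq_mul]
  have hker : P.lam.ker ≤ sqHom.ker := fun u hu => by
    refine MonoidHom.mem_ker.2 ?_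
    show Multiplicative.ofAdd _ = 1
    rw [hs.nu_mul hu hu, CharTwo.add_self_eq_zero]
    rfl
  let σ' : Multiplicative (Fin 4 → F) →* Multiplicative (ZMod 2) :=
    P.lam.liftOfSurjective P.lam_surjective ⟨sqHom, hker⟩
  have hσ : ∀ u, σ' (P.lam u) = sqHom u := fun u => P.lam.liftOfRightInverse_comp_apply _ _ _ u
  let σa : (Fin 4 → F) →+ ZMod 2 := AddMonoidHom.mk' (fun x => (σ' (Multiplicative.ofAdd x)).toAdd)
    fun x y => by rw [ofAdd_add, map_mul, toAdd_mul]
  have hσa : ∀ u : P.twoKer, σa (col ((P.radMap u : rad P.card) : Stab F)) = nu cg (u * u) := fun u =>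
    congrArg Multiplicative.toAdd (hσ u)
  rw [← hσa, functional_zero P.card σa fun A x => ?_]
  · rfl
  · obtain ⟨k, rfl⟩ := P.proj_surjective A
    obtain ⟨u, hu⟩ := P.lam_surjective (Multiplicative.ofAdd x)
    have hu' : col ((P.radMap u : rad P.card) : Stab F) = x := congrArg Multiplicative.toAdd hu
    subst hu'
    rw [← P.col_radMap_conj, hσa, hσa]
    congr 1
    refine Subtype.ext ?_
    rw [Subgroup.coe_mul, show k * (u : pairCent a b) * k⁻¹ * (k * (u : pairCent a b) * k⁻¹) =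
      k * ((u * u : P.twoKer) : pairCent a b) * k⁻¹ by rw [Subgroup.coe_mul]; group,
      P.conj_four hs.memb (sq_four u) k]

theorem Swap.inv_four (hs : P.Swap g cg) {v : P.twoKer} (hv : v ∈ P.four) (h0 : nu cg v = 0) :
    nu cg v⁻¹ = 0 := by
  have h1 := hs.nu_mul (inv_mem hv) hv
  rw [inv_mul_cancel, h0, add_zero] at h1
  rw [← h1]
  simp [nu, bit]

/-- A normal subgroup of index two avoiding `a` and containing all squares. -/
theorem Swap.exists_complement (hs : P.Swap g cg) {aE : P.twoKer} (hna : nu cg aE ≠ 0) :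
    ∃ E : Subgroup P.twoKer, aE ∉ E ∧ (∀ v, v * v ∈ E) ∧ E.Normal ∧ ∀ v, v ∉ E → v * aE ∈ E := by
  let S0 : Subgroup P.twoKer :=
    { carrier := {v | v ∈ P.four ∧ nu cg v = 0}
      one_mem' := ⟨one_mem _, by simp [nu, bit]⟩
      mul_mem' := fun {v w} hv hw => ⟨mul_mem hv.1 hw.1, by rw [hs.nu_mul hv.1 hw.1, hv.2, hw.2, add_zero]⟩
      inv_mem' := fun {v} hv => ⟨inv_mem hv.1, hs.inv_four hv.1 hv.2⟩ }
  let T : Set (Subgroup P.twoKer) := {E | S0 ≤ E ∧ aE ∉ E}
  obtain ⟨E, ⟨hSE, haE⟩, hm⟩ := (Set.toFinite T).exists_maximal (⟨S0, le_rfl, fun h => hna h.2⟩ : T.Nonempty)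
  have hsq : ∀ v, v * v ∈ E := fun v => hSE ⟨sq_four v, hs.sq_zero v⟩
  have hnormal : E.Normal := ⟨fun w hw v => by
    have : v * w * v⁻¹ = (v * w * v⁻¹ * w⁻¹) * w := by group
    rw [this]
    exact mul_mem (hSE (hs.comm_four v w)) hw⟩
  refine ⟨E, haE, hsq, hnormal, fun x hx => ?_⟩
  by_contra hxa
  let E₂ : Subgroup P.twoKer :=
    { carrier := {v | v ∈ E ∨ v * x ∈ E}
      one_mem' := Or.inl (one_mem _)
      inv_mem' := fun {v} hv => by
        rcases hv with h | h
        · exact Or.inl (inv_mem h)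
        · refine Or.inr ?_
          rw [show v⁻¹ * x = (v * (v * v)⁻¹ * v⁻¹) * (v * x) by group]
          exact mul_mem (hnormal.conj_mem _ (inv_mem (hsq v)) v) h
      mul_mem' := fun {v w} hv hw => by
        rcases hv with hv | hv <;> rcases hw with hw | hw
        · exact Or.inl (mul_mem hv hw)
        · exact Or.inr (by rw [mul_assoc]; exact mul_mem hv hw)
        · refine Or.inr ?_
          rw [show v * w * x = v * x * (x⁻¹ * w * x⁻¹⁻¹) by group]
          exact mul_mem hv (hnormal.conj_mem _ hw x⁻¹)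
        · refine Or.inl ?_
          rw [show v * w = (v * x) * (x⁻¹ * (w * x) * x⁻¹⁻¹) * (x * x)⁻¹ by group]
          exact mul_mem (mul_mem hv (hnormal.conj_mem _ hw x⁻¹)) (inv_mem (hsq x)) }
  by_cases haE₂ : aE ∈ E₂
  · rcases haE₂ with h | h
    · exact haE h
    · refine hxa ?_
      rw [show x * aE = x * (aE * x) * x⁻¹ by group]
      exact hnormal.conj_mem _ h x
  · exact hx ((hm (show E₂ ∈ T from ⟨fun v hv => Or.inl (hSE hv), haE₂⟩) fun v hv => Or.inl hv)
      (Or.inr (hsq x)))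

theorem iso_of_complement {aE : P.twoKer} (haE : ((aE : pairCent a b) : G) = a) (hcard : Nat.card P.twoKer = 1024)
    {E : Subgroup P.twoKer} (hna : aE ∉ E) (hsq : ∀ v, v * v ∈ E) (hn : E.Normal)
    (hcover : ∀ v, v ∉ E → v * aE ∈ E) : Nonempty (P.twoKer ≃* Multiplicative (ZMod 2) × rad P.card) := by
  classical
  let χ : P.twoKer →* Multiplicative (ZMod 2) :=
    MonoidHom.mk' (fun v => if v ∈ E then 1 else Multiplicative.ofAdd 1) fun v w => by
      by_cases hv : v ∈ E <;> by_cases hw : w ∈ E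
      · rw [if_pos hv, if_pos hw, if_pos (mul_mem hv hw), one_mul]
      · rw [if_pos hv, if_neg hw, if_neg ((Subgroup.mul_mem_cancel_left _ hv).not.2 hw), one_mul]
      · rw [if_neg hv, if_pos hw, if_neg ((Subgroup.mul_mem_cancel_right _ hw).not.2 hv), mul_one]
      · have h1 : v * w ∈ E := by
          rw [show v * w = (v * aE) * (aE⁻¹ * (w * aE) * aE⁻¹⁻¹) * (aE * aE)⁻¹ by group]
          exact mul_mem (mul_mem (hcover v hv) (hn.conj_mem _ (hcover w hw) _)) (inv_mem (hsq _))
        rw [if_neg hv, if_neg hw, if_pos h1]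
        decide
  refine ⟨MulEquiv.ofBijective (χ.prod P.radMap) ?_⟩
  have hinj : Function.Injective (χ.prod P.radMap) := by
    refine (injective_iff_map_eq_one _).2 fun v hv => ?_
    obtain ⟨h1, h2⟩ := Prod.ext_iff.1 hv
    rcases (P.radMap_eq_one v).1 h2 with h | h
    · exact Subtype.ext (Subtype.ext h)
    · exfalso
      rw [show v = aE from Subtype.ext (Subtype.ext (h.trans haE.symm))] at h1
      change (if aE ∈ E then (1 : Multiplicative (ZMod 2)) else Multiplicative.ofAdd 1) = 1 at h1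
      rw [if_neg hna] at h1
      exact absurd h1 (by decide)
  refine hinj.bijective_of_nat_card_le ?_
  rw [Nat.card_prod, natCard_rad, hcard, Nat.card_congr Multiplicative.toAdd, Nat.card_zmod]

end Picture

variable (hD : Cfsg.IsThreeTranspositionGroup D) (hprim : Cfsg.IsPrimitiveUnderConj D)
  (ht : Cfsg.IsOfTypeM22 G D)

include hD hprim ht

theorem twoKer_iso (ha : a ∈ D) (hb : b ∈ perp D a) (P : Picture D a b F) :
    Nonempty (P.twoKer ≃* Multiplicative (ZMod 2) × rad P.card) := by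
  obtain ⟨haK, hbK⟩ := mem_D_pairCent hD hprim ht ha hb
  have hEeq := pairTwo_eq hD hprim ht ha hb P
  have hmem : ∀ k : pairCent a b, (k : G) ∈ pairTwo a b ↔ k ∈ P.twoKer := fun k => by
    rw [hEeq]
    exact ⟨fun ⟨l, hl, e⟩ => (Subtype.ext e : l = k) ▸ hl, fun h => ⟨k, h, rfl⟩⟩
  obtain ⟨g, hga, hgb⟩ := exists_pair_swap hD hprim ht ha hb
  have hgC := swap_mem hD hprim ht hb hga hgb
  have hgm : ∀ x : P.twoKer, g * ((x : pairCent a b) : G) * g⁻¹ ∈ pairTwo a b := fun x =>
    pairTwo_normal hD hprim ht ha hb hgC ((hmem _).2 x.2)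
  have hgK : ∀ x : P.twoKer, g * ((x : pairCent a b) : G) * g⁻¹ ∈ pairCent a b := fun x =>
    pairTwo_le_pairCent hD hprim ht (hgm x)
  obtain ⟨cg, hcg⟩ : ∃ cg : P.twoKer →* P.twoKer,
      ∀ v, (((cg v : P.twoKer) : pairCent a b) : G) = g * ((v : pairCent a b) : G) * g⁻¹ :=
    ⟨MonoidHom.mk' (fun x => ⟨⟨_, hgK x⟩, (hmem ⟨_, hgK x⟩).1 (hgm x)⟩) fun x y =>
      Subtype.ext (Subtype.ext (by simp [mul_assoc])), fun _ => rfl⟩
  have hnorm : ∀ k : pairCent a b, g * (k : G) * g⁻¹ ∈ pairCent a b := fun k => by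
    obtain ⟨h1, h2⟩ := mem_pairCent.1 k.2
    have e1 := (conj_commute_iff g _ _).2 h1
    have e2 := (conj_commute_iff g _ _).2 h2
    rw [hga] at e1
    rw [hgb] at e2
    exact mem_pairCent.2 ⟨e2, e1⟩
  have hs : P.Swap g cg := ⟨hga, hgb, hb.2.2, hcg, hnorm, hbK⟩
  let aE : P.twoKer := ⟨⟨a, haK⟩, (hmem _).1 (closure_le_pairTwo hD hprim ht ha hb (Subgroup.subset_closure (Or.inl rfl)))⟩
  have hna : Picture.nu cg aE ≠ 0 := by
    have h1 : P.radMap aE = 1 := (P.radMap_eq_one aE).2 (Or.inr rfl)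
    have h2 : P.radMap (cg aE) = tRad P.card := Subtype.ext (Subtype.ext (by
      rw [P.coe_radMap, show ((cg aE : P.twoKer) : pairCent a b) = ⟨b, hbK⟩ from Subtype.ext ((hcg aE).trans hga)]
      exact P.map_b hbK))
    classical
    simp only [Picture.nu, h1, h2, bit, if_neg (tRad_ne P.card), if_true, zero_add]
    exact one_ne_zero
  obtain ⟨E, h1, h2, h3, h4⟩ := hs.exists_complement hna
  exact Picture.iso_of_complement (aE := aE) rfl (P.natCard_twoKer (ne_one hD.1 ha) haK) h1 h2 h3 h4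

theorem pairTwo_subgroupOf_eq_pCore (ha : a ∈ D) (hb : b ∈ perp D a) :
    Cfsg.generalizedFittingSubgroup (Subgroup.centralizer ({a * b} : Set G)) =
      (pairTwo a b).subgroupOf (Subgroup.centralizer ({a * b} : Set G)) := by
  obtain ⟨F, _, _, ⟨P⟩⟩ := exists_picture hD hprim ht ha hb
  obtain ⟨haK, hbK⟩ := mem_D_pairCent hD hprim ht ha hb
  haveI : Fact (Nat.Prime 2) := ⟨Nat.prime_two⟩
  have hEeq := pairTwo_eq hD hprim ht ha hb P
  set C := Subgroup.centralizer ({a * b} : Set G) with hC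
  set E' := (pairTwo a b).subgroupOf C
  have hKC : pairCent a b ≤ C := pairCent_le hD hprim ht
  have hEC : pairTwo a b ≤ C := (pairTwo_le_pairCent hD hprim ht).trans hKC
  haveI hn : E'.Normal := subgroupOf_normal hD hprim ht ha hb
  have hmem : ∀ k : pairCent a b, (k : G) ∈ pairTwo a b ↔ k ∈ P.twoKer := fun k => by
    rw [hEeq]
    exact ⟨fun ⟨l, hl, e⟩ => (Subtype.ext e : l = k) ▸ hl, fun h => ⟨k, h, rfl⟩⟩
  have hEle : E' ≤ Cfsg.pCore 2 C := CfsgLib.Cores.le_pCore (IsPGroup.of_card (n := 10)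
    ((Nat.card_congr (Subgroup.subgroupOfEquivOfLe hEC).toEquiv).trans (natCard_pairTwo hD hprim ht ha hb)))
  -- an element centralising it lies in it
  have hcent : Subgroup.centralizer (E' : Set C) ≤ E' := by
    intro c hc
    have hcom : ∀ x ∈ pairTwo a b, Commute (c : G) x := fun x hx =>
      (congrArg Subtype.val (Subgroup.mem_centralizer_iff.1 hc ⟨x, hEC hx⟩ hx)).symm
    have h1 := closure_le_pairTwo hD hprim ht ha hb
    have hcK : (c : G) ∈ pairCent a b := mem_pairCent.2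
      ⟨hcom a (h1 (Subgroup.subset_closure (Or.inl rfl))), hcom b (h1 (Subgroup.subset_closure (Or.inr rfl)))⟩
    show (c : G) ∈ pairTwo a b
    refine (hmem ⟨c, hcK⟩).2 (MonoidHom.mem_ker.2 ?_)
    refine mat_inj (Matrix.ext_of_mulVec_single fun i => ?_)
    obtain ⟨r, hr⟩ := colHom_surjective P.card (Multiplicative.ofAdd (Pi.single i 1))
    obtain ⟨v, rfl⟩ := P.radMap_surjective r
    have hv : (⟨c, hcK⟩ : pairCent a b) * (v : pairCent a b) * (⟨c, hcK⟩ : pairCent a b)⁻¹ = (v : pairCent a b) :=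
      Subtype.ext (conj_eq_of_commute (hcom _ ((hmem _).2 v.2)))
    have h2 := congrArg (fun k => col (P.φ k)) hv
    simp only [map_mul, map_inv] at h2
    rw [col_conj P.card _ (x := P.φ (v : pairCent a b)) v.2] at h2
    have h3 : col (P.φ (v : pairCent a b)) = (Pi.single i 1 : Fin 4 → F) := congrArg Multiplicative.toAdd hr
    rw [h3] at h2
    rw [mat_one, Matrix.one_mulVec]
    exact h2
  have hcore : Cfsg.pCore 2 C = E' := by
    refine le_antisymm ?_ hEle
    intro c hc
    haveI := isSimple_su4 P.card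
    -- the part inside the pair centraliser
    have hK' : ∀ k : C, k ∈ Cfsg.pCore 2 C → (k : G) ∈ pairCent a b → k ∈ E' := by
      let M : Subgroup (pairCent a b) := (Cfsg.pCore 2 C).comap (Subgroup.inclusion hKC)
      haveI : M.Normal := Subgroup.Normal.comap inferInstance _
      have hMp : IsPGroup 2 M := (CfsgLib.Cores.isPGroup_pCore 2 C).comap_of_injective _
        (Subgroup.inclusion_injective hKC)
      have hM : M ≤ P.twoKer := by
        rw [← P.pCore_eq (ne_one hD.1 ha) haK]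
        exact CfsgLib.Cores.le_pCore hMp
      intro k hk hkK
      exact (hmem ⟨k, hkK⟩).2 (hM (show Subgroup.inclusion hKC ⟨k, hkK⟩ ∈ Cfsg.pCore 2 C from hk))
    rcases mem_centralizer_cases hD hprim ht ha hb c.2 with hcK | ⟨h1, h2⟩
    · exact hK' c hc hcK
    · exfalso
      refine exists_not_mem hD hprim ht ha hb P h1 h2 fun k => ?_
      let k' : C := Subgroup.inclusion hKC k
      have hn : c * k' * c⁻¹ * k'⁻¹ ∈ Cfsg.pCore 2 C := by
        rw [mul_assoc c k', mul_assoc c (k' * c⁻¹)]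
        exact mul_mem hc ((inferInstance : (Cfsg.pCore 2 C).Normal).conj_mem _ (inv_mem hc) k')
      have hkK : (c : G) * k * (c : G)⁻¹ * (k : G)⁻¹ ∈ pairCent a b := by
        have := (Subgroup.normal_of_index_eq_two (index_pairCent hD hprim ht ha hb)).conj_mem k' k.2 c
        exact mul_mem this (inv_mem k.2)
      exact ⟨⟨_, hkK⟩, (hmem ⟨_, hkK⟩).1 (hK' _ hn hkK), rfl⟩
  rw [CfsgLib.StronglyPEmbedded.generalizedFittingSubgroup_eq_pCore (p := 2) (by rw [hcore]; exact hcent), hcore]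

theorem pair_structure (ha : a ∈ D) (hb : b ∈ perp D a)
    [hn : (Cfsg.generalizedFittingSubgroup ↥(Subgroup.centralizer ({a * b} : Set G))).Normal] :
    (∃ (E : Type) (_ : Group E) (_ : Finite E), Cfsg.IsExtraspecial 2 E ∧ Nat.card E = 2 ^ 9 ∧
      Nonempty (↥(Cfsg.generalizedFittingSubgroup ↥(Subgroup.centralizer ({a * b} : Set G))) ≃*
        Multiplicative (ZMod 2) × E)) ∧
    Nonempty (↥(Subgroup.centralizer ({a * b} : Set G)) ⧸
        Cfsg.generalizedFittingSubgroup ↥(Subgroup.centralizer ({a * b} : Set G)) ≃*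
      Cfsg.isometryGroup (ZMod 2) (Cfsg.quadFormMinus 2 (ZMod 2) 1 1)) := by
  obtain ⟨F, _, _, ⟨P⟩⟩ := exists_picture hD hprim ht ha hb
  have hEC : pairTwo a b ≤ Subgroup.centralizer ({a * b} : Set G) :=
    (pairTwo_le_pairCent hD hprim ht).trans (pairCent_le hD hprim ht)
  have hF := pairTwo_subgroupOf_eq_pCore hD hprim ht ha hb
  obtain ⟨e₁⟩ := twoKer_iso hD hprim ht ha hb P
  haveI := subgroupOf_normal hD hprim ht ha hb
  obtain ⟨F', _, _, hF', ⟨e₂⟩⟩ := quotient_aut hD hprim ht ha hb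
  obtain ⟨e₃⟩ := OrthSixMinusAut.nonempty_equiv hF'
  refine ⟨⟨rad P.card, inferInstance, inferInstance, isExtraspecial_rad P.card, natCard_rad P.card, ?_⟩,
    ⟨((QuotientGroup.quotientMulEquivOfEq hF).trans e₂).trans e₃⟩⟩
  exact ⟨((((MulEquiv.subgroupCongr hF).trans (Subgroup.subgroupOfEquivOfLe hEC)).trans
    (MulEquiv.subgroupCongr (pairTwo_eq hD hprim ht ha hb P))).trans
    (P.twoKer.equivMapOfInjective _ (Subgroup.subtype_injective _)).symm).trans e₁⟩

end CfsgLib.Fischer.TypeTwentyTwo
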